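import Mathlib
import Cfsg.Prelude.Def_ClassicalGeometry
import Cfsg.Agent.Lib.H16.Parab
import Cfsg.Agent.Lib.H16.Symp

set_option autoImplicit false

/-! Maximal parabolic subgroups of GL_n. -/

namespace H16.GLParab

open Matrix Cfsg H16.Parab

variable {F : Type*} [Field F]

/-- span of the first `k` coordinate vectors -/
def lowK (F : Type*) [Field F] (n k : ℕ) : Submodule F (Fin n → F) where
  carrier := {v : Fin n → F | ∀ i : Fin n, k ≤ (i : ℕ) → v i = 0}
  add_mem' := by intro a b ha hb i hi; simp [ha i hi, hb i hi]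
  zero_mem' := by intro i _; rfl
  smul_mem' := by intro c a ha i hi; simp [ha i hi]

/-- the parabolic -/
abbrev stabK (F : Type*) [Field F] (n k : ℕ) : Subgroup (Matrix.GeneralLinearGroup (Fin n) F) :=
  stabilizing (glToMat (Fin n) F) {v : Fin n → F | ∀ i : Fin n, k ≤ (i : ℕ) → v i = 0}

theorem mem_stabK' (n k : ℕ) (g : Matrix.GeneralLinearGroup (Fin n) F) :
    g ∈ stabK F n k ↔ ∀ v ∈ lowK F n k, (g : Matrix (Fin n) (Fin n) F) *ᵥ v ∈ lowK F n k :=
  mem_stab_iff' (glToMat (Fin n) F) (lowK F n k) {v : Fin n → F | ∀ i : Fin n, k ≤ (i : ℕ) → v i = 0} (fun v => Iff.rfl) g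

theorem mem_stabK (n k : ℕ) (g : Matrix.GeneralLinearGroup (Fin n) F) :
    g ∈ stabK F n k ↔ ∀ i j : Fin n, k ≤ (i : ℕ) → (j : ℕ) < k → (g : Matrix (Fin n) (Fin n) F) i j = 0 := by
  rw [mem_stabK']
  constructor
  · intro h i j hi hj
    have := h (Pi.single j 1) (by
      intro l hl
      have : l ≠ j := by rintro rfl; omega
      simp [this]) i hi
    simpa using this
  · intro h v hv i hi
    change (g : Matrix (Fin n) (Fin n) F) i ⬝ᵥ v = 0
    apply Finset.sum_eq_zero
    intro j _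
    by_cases hj : (j : ℕ) < k
    · rw [h i j hi hj, zero_mul]
    · rw [hv j (by omega), mul_zero]

/-! ### order -/

def splitEquiv (n k : ℕ) (hk : k ≤ n) : Fin k ⊕ Fin (n - k) ≃ Fin n :=
  finSumFinEquiv.trans (finCongr (by omega))

theorem splitEquiv_inl (n k : ℕ) (hk : k ≤ n) (i : Fin k) : ((splitEquiv n k hk (Sum.inl i) : Fin n) : ℕ) = i := by
  simp [splitEquiv]

theorem splitEquiv_inr (n k : ℕ) (hk : k ≤ n) (i : Fin (n - k)) : ((splitEquiv n k hk (Sum.inr i) : Fin n) : ℕ) = k + i := by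
  simp [splitEquiv]

noncomputable def parabEquiv (n k : ℕ) (hk : k ≤ n) :
    (Matrix.GeneralLinearGroup (Fin k) F × Matrix.GeneralLinearGroup (Fin (n - k)) F) × (Fin k → Fin (n - k) → F) ≃
      ↥(stabK F n k) where
  toFun p := ⟨⟨(fromBlocks (p.1.1 : Matrix (Fin k) (Fin k) F) (Matrix.of p.2) 0 (p.1.2 : Matrix (Fin (n-k)) (Fin (n-k)) F)).submatrix
      (splitEquiv n k hk).symm (splitEquiv n k hk).symm,
      (fromBlocks ((p.1.1⁻¹ : Matrix.GeneralLinearGroup (Fin k) F) : Matrix (Fin k) (Fin k) F)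
        (-(((p.1.1⁻¹ : Matrix.GeneralLinearGroup (Fin k) F) : Matrix (Fin k) (Fin k) F) * Matrix.of p.2 *
        ((p.1.2⁻¹ : Matrix.GeneralLinearGroup (Fin (n-k)) F) : Matrix (Fin (n-k)) (Fin (n-k)) F))) 0
        ((p.1.2⁻¹ : Matrix.GeneralLinearGroup (Fin (n-k)) F) : Matrix (Fin (n-k)) (Fin (n-k)) F)).submatrix
      (splitEquiv n k hk).symm (splitEquiv n k hk).symm, by
        rw [Matrix.submatrix_mul_equiv, fromBlocks_multiply]
        have h1 : (p.1.1 : Matrix (Fin k) (Fin k) F) * ((p.1.1⁻¹ : Matrix.GeneralLinearGroup (Fin k) F) : Matrix (Fin k) (Fin k) F) = 1 := by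
          rw [← Units.val_mul, mul_inv_cancel, Units.val_one]
        have h2 : (p.1.2 : Matrix (Fin (n-k)) (Fin (n-k)) F) * ((p.1.2⁻¹ : Matrix.GeneralLinearGroup (Fin (n-k)) F) : Matrix (Fin (n-k)) (Fin (n-k)) F) = 1 := by
          rw [← Units.val_mul, mul_inv_cancel, Units.val_one]
        have h3 : (p.1.1 : Matrix (Fin k) (Fin k) F) * -(((p.1.1⁻¹ : Matrix.GeneralLinearGroup (Fin k) F) : Matrix (Fin k) (Fin k) F) * Matrix.of p.2 *
        ((p.1.2⁻¹ : Matrix.GeneralLinearGroup (Fin (n-k)) F) : Matrix (Fin (n-k)) (Fin (n-k)) F)) = - (Matrix.of p.2 *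
        ((p.1.2⁻¹ : Matrix.GeneralLinearGroup (Fin (n-k)) F) : Matrix (Fin (n-k)) (Fin (n-k)) F)) := by
          rw [Matrix.mul_neg, ← Matrix.mul_assoc, ← Matrix.mul_assoc, h1, Matrix.one_mul]
        rw [h1, h2, h3]
        simp, by
        rw [Matrix.submatrix_mul_equiv, fromBlocks_multiply]
        have h1 : ((p.1.1⁻¹ : Matrix.GeneralLinearGroup (Fin k) F) : Matrix (Fin k) (Fin k) F) * (p.1.1 : Matrix (Fin k) (Fin k) F) = 1 := by
          rw [← Units.val_mul, inv_mul_cancel, Units.val_one]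
        have h2 : ((p.1.2⁻¹ : Matrix.GeneralLinearGroup (Fin (n-k)) F) : Matrix (Fin (n-k)) (Fin (n-k)) F) * (p.1.2 : Matrix (Fin (n-k)) (Fin (n-k)) F) = 1 := by
          rw [← Units.val_mul, inv_mul_cancel, Units.val_one]
        have h3 : -(((p.1.1⁻¹ : Matrix.GeneralLinearGroup (Fin k) F) : Matrix (Fin k) (Fin k) F) * Matrix.of p.2 *
        ((p.1.2⁻¹ : Matrix.GeneralLinearGroup (Fin (n-k)) F) : Matrix (Fin (n-k)) (Fin (n-k)) F)) * (p.1.2 : Matrix (Fin (n-k)) (Fin (n-k)) F)
          = -(((p.1.1⁻¹ : Matrix.GeneralLinearGroup (Fin k) F) : Matrix (Fin k) (Fin k) F) * Matrix.of p.2) := by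
          rw [Matrix.neg_mul, Matrix.mul_assoc, h2, Matrix.mul_one]
        rw [h1, h2, h3]
        simp⟩, by
      rw [mem_stabK]
      intro i j hi hj
      obtain ⟨i', rfl⟩ := (splitEquiv n k hk).surjective i
      obtain ⟨j', rfl⟩ := (splitEquiv n k hk).surjective j
      change (fromBlocks _ _ _ _) ((splitEquiv n k hk).symm _) ((splitEquiv n k hk).symm _) = 0
      rw [Equiv.symm_apply_apply, Equiv.symm_apply_apply]
      rcases i' with i' | i'
      · rw [splitEquiv_inl] at hi; exact absurd i'.2 (by omega)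
      · rcases j' with j' | j'
        · simp
        · rw [splitEquiv_inr] at hj; omega⟩
  invFun g := ((Matrix.nonsingInvUnit ((g : Matrix.GeneralLinearGroup (Fin n) F).val.submatrix (splitEquiv n k hk) (splitEquiv n k hk)).toBlocks₁₁ (by
      have h := (Matrix.isUnit_iff_isUnit_det _).mp (g : Matrix.GeneralLinearGroup (Fin n) F).isUnit
      have h' : ((g : Matrix.GeneralLinearGroup (Fin n) F).val.submatrix (splitEquiv n k hk) (splitEquiv n k hk)).toBlocks₂₁ = 0 := by
        ext i j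
        exact (mem_stabK n k g.1).mp g.2 _ _ (by rw [splitEquiv_inr]; omega) (by rw [splitEquiv_inl]; omega)
      rw [← Matrix.det_submatrix_equiv_self (splitEquiv n k hk), ← fromBlocks_toBlocks ((g : Matrix.GeneralLinearGroup (Fin n) F).val.submatrix (splitEquiv n k hk) (splitEquiv n k hk)), h', Matrix.det_fromBlocks_zero₂₁] at h
      exact isUnit_of_mul_isUnit_left h),
      Matrix.nonsingInvUnit ((g : Matrix.GeneralLinearGroup (Fin n) F).val.submatrix (splitEquiv n k hk) (splitEquiv n k hk)).toBlocks₂₂ (by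
      have h := (Matrix.isUnit_iff_isUnit_det _).mp (g : Matrix.GeneralLinearGroup (Fin n) F).isUnit
      have h' : ((g : Matrix.GeneralLinearGroup (Fin n) F).val.submatrix (splitEquiv n k hk) (splitEquiv n k hk)).toBlocks₂₁ = 0 := by
        ext i j
        exact (mem_stabK n k g.1).mp g.2 _ _ (by rw [splitEquiv_inr]; omega) (by rw [splitEquiv_inl]; omega)
      rw [← Matrix.det_submatrix_equiv_self (splitEquiv n k hk), ← fromBlocks_toBlocks ((g : Matrix.GeneralLinearGroup (Fin n) F).val.submatrix (splitEquiv n k hk) (splitEquiv n k hk)), h', Matrix.det_fromBlocks_zero₂₁] at h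
      exact isUnit_of_mul_isUnit_right h)),
      ((g : Matrix.GeneralLinearGroup (Fin n) F).val.submatrix (splitEquiv n k hk) (splitEquiv n k hk)).toBlocks₁₂)
  left_inv p := by
    refine Prod.ext (Prod.ext ?_ ?_) ?_
    · apply Units.ext
      ext i j
      change (fromBlocks (p.1.1 : Matrix (Fin k) (Fin k) F) (Matrix.of p.2) 0 (p.1.2 : Matrix (Fin (n-k)) (Fin (n-k)) F))
        ((splitEquiv n k hk).symm (splitEquiv n k hk (Sum.inl i))) ((splitEquiv n k hk).symm (splitEquiv n k hk (Sum.inl j))) = _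
      rw [Equiv.symm_apply_apply, Equiv.symm_apply_apply, fromBlocks_apply₁₁]
    · apply Units.ext
      ext i j
      change (fromBlocks (p.1.1 : Matrix (Fin k) (Fin k) F) (Matrix.of p.2) 0 (p.1.2 : Matrix (Fin (n-k)) (Fin (n-k)) F))
        ((splitEquiv n k hk).symm (splitEquiv n k hk (Sum.inr i))) ((splitEquiv n k hk).symm (splitEquiv n k hk (Sum.inr j))) = _
      rw [Equiv.symm_apply_apply, Equiv.symm_apply_apply, fromBlocks_apply₂₂]
    · funext i j
      simp [Matrix.toBlocks₁₂]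
  right_inv g := by
    apply Subtype.ext
    apply Units.ext
    have h' : ((g : Matrix.GeneralLinearGroup (Fin n) F).val.submatrix (splitEquiv n k hk) (splitEquiv n k hk)).toBlocks₂₁ = 0 := by
      ext i j
      exact (mem_stabK n k g.1).mp g.2 _ _ (by rw [splitEquiv_inr]; omega) (by rw [splitEquiv_inl]; omega)
    have h3 := fromBlocks_toBlocks ((g : Matrix.GeneralLinearGroup (Fin n) F).val.submatrix (splitEquiv n k hk) (splitEquiv n k hk))
    rw [h'] at h3
    change (fromBlocks _ _ _ _).submatrix (splitEquiv n k hk).symm (splitEquiv n k hk).symm = _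
    have h4 := congrArg (fun M => M.submatrix (splitEquiv n k hk).symm (splitEquiv n k hk).symm) h3
    simp only [Matrix.submatrix_submatrix] at h4
    have h5 : (g : Matrix.GeneralLinearGroup (Fin n) F).val.submatrix (⇑(splitEquiv n k hk) ∘ ⇑(splitEquiv n k hk).symm)
      (⇑(splitEquiv n k hk) ∘ ⇑(splitEquiv n k hk).symm) = (g : Matrix.GeneralLinearGroup (Fin n) F).val := by
      ext i j; simp
    rw [h5] at h4
    exact h4

theorem card_parab [Fintype F] {q : ℕ} (hF : Fintype.card F = q) (n k : ℕ) (hk : k ≤ n) :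
    Nat.card ↥(stabK F n k) = q ^ (k * (n - k)) * (∏ i : Fin k, (q ^ k - q ^ (i : ℕ))) * ∏ i : Fin (n - k), (q ^ (n - k) - q ^ (i : ℕ)) := by
  classical
  subst hF
  rw [← Nat.card_congr (parabEquiv n k hk), Nat.card_prod, Nat.card_prod, Matrix.card_GL_field, Matrix.card_GL_field]
  have : Nat.card (Fin k → Fin (n - k) → F) = Fintype.card F ^ (k * (n - k)) := by
    simp only [Nat.card_eq_fintype_card, Fintype.card_fun, Fintype.card_fin]
    rw [← pow_mul, mul_comm]
  rw [this]
  ring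

/-! ### transvections -/

theorem exists_tau {ι : Type*} [Fintype ι] [DecidableEq ι] (v φ : ι → F) (h : 1 + φ ⬝ᵥ v ≠ 0) :
    ∃ g : Matrix.GeneralLinearGroup ι F, ∀ x, (g : Matrix ι ι F) *ᵥ x = x + (φ ⬝ᵥ x) • v := by
  have h1 : ∀ x, (1 + vecMulVec v φ : Matrix ι ι F) *ᵥ x = x + (φ ⬝ᵥ x) • v := by
    intro x
    rw [Matrix.add_mulVec, Matrix.one_mulVec, Matrix.vecMulVec_mulVec]
    simp
  have h2 : ∀ x, (1 - (1 + φ ⬝ᵥ v)⁻¹ • vecMulVec v φ : Matrix ι ι F) *ᵥ x = x - ((1 + φ ⬝ᵥ v)⁻¹ * (φ ⬝ᵥ x)) • v := by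
    intro x
    rw [Matrix.sub_mulVec, Matrix.one_mulVec, Matrix.smul_mulVec, Matrix.vecMulVec_mulVec]
    simp [smul_smul]
  refine ⟨⟨1 + vecMulVec v φ, 1 - (1 + φ ⬝ᵥ v)⁻¹ • vecMulVec v φ, ?_, ?_⟩, h1⟩
  · apply H16.Symp.mulVec_ext
    intro x
    rw [← Matrix.mulVec_mulVec, h2, h1, Matrix.one_mulVec]
    rw [dotProduct_sub, dotProduct_smul, smul_eq_mul, sub_add, sub_eq_self, ← sub_smul]
    convert zero_smul F v
    field_simp
    ring
  · apply H16.Symp.mulVec_ext
    intro x
    rw [← Matrix.mulVec_mulVec, h1, h2, Matrix.one_mulVec]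
    rw [dotProduct_add, dotProduct_smul, smul_eq_mul, add_sub_assoc, add_eq_left, ← sub_smul]
    convert zero_smul F v
    field_simp
    ring

theorem GL_mulVec_inj {ι : Type*} [Fintype ι] [DecidableEq ι] (g : Matrix.GeneralLinearGroup ι F) {x y : ι → F}
    (h : (g : Matrix ι ι F) *ᵥ x = (g : Matrix ι ι F) *ᵥ y) : x = y := by
  have := congrArg (fun z => ((g⁻¹ : Matrix.GeneralLinearGroup ι F) : Matrix ι ι F) *ᵥ z) h
  simp only [Matrix.mulVec_mulVec, ← Units.val_mul, inv_mul_cancel, Units.val_one, Matrix.one_mulVec] at this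
  exact this

theorem GL_inv_mulVec {ι : Type*} [Fintype ι] [DecidableEq ι] (g : Matrix.GeneralLinearGroup ι F) {x y : ι → F}
    (h : (g : Matrix ι ι F) *ᵥ x = y) : ((g⁻¹ : Matrix.GeneralLinearGroup ι F) : Matrix ι ι F) *ᵥ y = x := by
  rw [← h, Matrix.mulVec_mulVec, ← Units.val_mul, inv_mul_cancel, Units.val_one, Matrix.one_mulVec]

theorem GL_mul_mulVec {ι : Type*} [Fintype ι] [DecidableEq ι] (g h : Matrix.GeneralLinearGroup ι F) (x : ι → F) :
    ((g * h : Matrix.GeneralLinearGroup ι F) : Matrix ι ι F) *ᵥ x = (g : Matrix ι ι F) *ᵥ ((h : Matrix ι ι F) *ᵥ x) := by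
  rw [Units.val_mul, Matrix.mulVec_mulVec]

/-- the parabolic acts transitively on vectors outside the subspace -/
theorem stabK_trans (n k : ℕ) {u u' : Fin n → F} (hu : u ∉ lowK F n k) (hu' : u' ∉ lowK F n k) :
    ∃ h ∈ stabK F n k, (h : Matrix (Fin n) (Fin n) F) *ᵥ u = u' := by
  -- a functional vanishing on the subspace, nonzero at both vectors
  obtain ⟨φ, hφ, h1, h2⟩ : ∃ φ : Fin n → F, (∀ w ∈ lowK F n k, φ ⬝ᵥ w = 0) ∧ φ ⬝ᵥ u ≠ 0 ∧ φ ⬝ᵥ u' ≠ 0 := by
    have key : ∀ v : Fin n → F, v ∉ lowK F n k → ∃ φ : Fin n → F, (∀ w ∈ lowK F n k, φ ⬝ᵥ w = 0) ∧ φ ⬝ᵥ v ≠ 0 := by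
      intro v hv
      have : ∃ i : Fin n, k ≤ (i : ℕ) ∧ v i ≠ 0 := by
        by_contra h
        push Not at h
        exact hv h
      obtain ⟨i, hi, hvi⟩ := this
      refine ⟨Pi.single i 1, fun w hw => ?_, ?_⟩
      · rw [single_dotProduct, one_mul]; exact hw i hi
      · rw [single_dotProduct, one_mul]; exact hvi
    obtain ⟨φ, hφ, h1⟩ := key u hu
    obtain ⟨ψ, hψ, h2⟩ := key u' hu'
    by_cases h3 : φ ⬝ᵥ u' = 0
    · by_cases h4 : ψ ⬝ᵥ u = 0
      · refine ⟨φ + ψ, fun w hw => ?_, ?_, ?_⟩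
        · rw [add_dotProduct, hφ w hw, hψ w hw, add_zero]
        · rw [add_dotProduct, h4, add_zero]; exact h1
        · rw [add_dotProduct, h3, zero_add]; exact h2
      · exact ⟨ψ, hψ, h4, h2⟩
    · exact ⟨φ, hφ, h1, h3⟩
  obtain ⟨g, hg⟩ := exists_tau (u' - u) ((φ ⬝ᵥ u)⁻¹ • φ) (by
    rw [smul_dotProduct, dotProduct_sub, smul_eq_mul, mul_sub, inv_mul_cancel₀ h1, add_sub_cancel]
    exact mul_ne_zero (inv_ne_zero h1) h2)
  refine ⟨g, ?_, ?_⟩
  · rw [mem_stabK']
    intro w hw
    rw [hg, smul_dotProduct, hφ w hw, smul_zero, zero_smul, add_zero]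
    exact hw
  · rw [hg, smul_dotProduct, smul_eq_mul, inv_mul_cancel₀ h1, one_smul, add_sub_cancel]

theorem GL_ext {ι : Type*} [Fintype ι] [DecidableEq ι] {g h : Matrix.GeneralLinearGroup ι F}
    (H : ∀ x, (g : Matrix ι ι F) *ᵥ x = (h : Matrix ι ι F) *ᵥ x) : g = h :=
  Units.ext (H16.Symp.mulVec_ext H)

/-- A subgroup of GL_n containing all "taus" with centre outside some set etc.: if it contains all elementary
transvections and all diagonal matrices, it is everything. -/
theorem eq_top_of_transvections {n : ℕ} (M : Subgroup (Matrix.GeneralLinearGroup (Fin n) F))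
    (hT : ∀ (v φ : Fin n → F), φ ⬝ᵥ v = 0 → ∀ g : Matrix.GeneralLinearGroup (Fin n) F,
      (∀ x, (g : Matrix (Fin n) (Fin n) F) *ᵥ x = x + (φ ⬝ᵥ x) • v) → g ∈ M)
    (hD : ∀ g : Matrix.GeneralLinearGroup (Fin n) F, (∃ d : Fin n → F, (g : Matrix (Fin n) (Fin n) F) = diagonal d) → g ∈ M) :
    M = ⊤ := by
  have h1 : ∀ L : List (TransvectionStruct (Fin n) F), ∃ u ∈ M, (u : Matrix (Fin n) (Fin n) F) =
      (L.map TransvectionStruct.toMatrix).prod := by
    intro L
    induction L with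
    | nil => exact ⟨1, M.one_mem, by simp⟩
    | cons t L ih =>
      obtain ⟨u, hu, hu'⟩ := ih
      obtain ⟨i, j, hij, c⟩ := t
      have h2 : (Pi.single j 1 : Fin n → F) ⬝ᵥ (Pi.single i c) = 0 := by
        rw [single_dotProduct, one_mul, Pi.single_eq_of_ne hij.symm]
      obtain ⟨g, hg⟩ := exists_tau (Pi.single i c) (Pi.single j 1 : Fin n → F) (by rw [h2, add_zero]; exact one_ne_zero)
      refine ⟨g * u, M.mul_mem (hT _ _ h2 g hg) hu, ?_⟩
      rw [List.map_cons, List.prod_cons, Units.val_mul, hu']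
      congr 1
      apply H16.Symp.mulVec_ext
      intro x
      rw [hg, TransvectionStruct.toMatrix_mk, transvection, Matrix.add_mulVec, Matrix.one_mulVec]
      congr 1
      funext l
      rw [single_dotProduct, one_mul, Matrix.single_mulVec]
      simp [Pi.single_apply, mul_comm, Function.update_apply]
  rw [eq_top_iff]
  rintro g -
  obtain ⟨L, L', D, hLD⟩ := Pivot.exists_list_transvec_mul_diagonal_mul_list_transvec (g : Matrix (Fin n) (Fin n) F)
  obtain ⟨u, hu, hu'⟩ := h1 L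
  obtain ⟨v, hv, hv'⟩ := h1 L'
  have h2 : u⁻¹ * g * v⁻¹ ∈ M := by
    apply hD
    refine ⟨D, ?_⟩
    have e1 : ((u⁻¹ : Matrix.GeneralLinearGroup (Fin n) F) : Matrix (Fin n) (Fin n) F) * (u : Matrix (Fin n) (Fin n) F) = 1 := by
      rw [← Units.val_mul, inv_mul_cancel, Units.val_one]
    have e2 : (v : Matrix (Fin n) (Fin n) F) * ((v⁻¹ : Matrix.GeneralLinearGroup (Fin n) F) : Matrix (Fin n) (Fin n) F) = 1 := by
      rw [← Units.val_mul, mul_inv_cancel, Units.val_one]
    rw [Units.val_mul, Units.val_mul, hLD, ← hu', ← hv']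
    calc _ = (((u⁻¹ : Matrix.GeneralLinearGroup (Fin n) F) : Matrix (Fin n) (Fin n) F) * (u : Matrix (Fin n) (Fin n) F)) * diagonal D *
        ((v : Matrix (Fin n) (Fin n) F) * ((v⁻¹ : Matrix.GeneralLinearGroup (Fin n) F) : Matrix (Fin n) (Fin n) F)) := by
          simp only [Matrix.mul_assoc]
      _ = diagonal D := by rw [e1, e2, Matrix.one_mul, Matrix.mul_one]
  have h3 : g = u * (u⁻¹ * g * v⁻¹) * v := by group
  rw [h3]
  exact M.mul_mem (M.mul_mem hu h2) hv

theorem stabK_coatom (n k : ℕ) (hk0 : 0 < k) (hkn : k < n) : IsCoatom (stabK F n k) := by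
  constructor
  · intro h
    have h0 : (Pi.single ⟨0, by omega⟩ 1 : Fin n → F) ⬝ᵥ (Pi.single ⟨k, hkn⟩ 1) = 0 := by
      rw [single_dotProduct, one_mul, Pi.single_eq_of_ne]
      intro h
      have := congrArg Fin.val h
      simp at this
      omega
    obtain ⟨g, hg⟩ := exists_tau (Pi.single ⟨k, hkn⟩ 1) (Pi.single ⟨0, by omega⟩ 1 : Fin n → F)
      (by rw [h0, add_zero]; exact one_ne_zero)
    have h1 : g ∈ stabK F n k := by rw [h]; trivial
    rw [mem_stabK'] at h1
    have h2 := h1 (Pi.single ⟨0, by omega⟩ 1) (by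
      intro i hi
      rw [Pi.single_eq_of_ne]
      rintro rfl
      simp at hi
      omega) ⟨k, hkn⟩ (le_refl k)
    rw [hg] at h2
    simp at h2
    rw [Pi.single_eq_of_ne] at h2
    · simp at h2
    · intro h
      have := congrArg Fin.val h
      simp at this
      omega
  · intro M hM
    obtain ⟨g0, hg0, hg0'⟩ := SetLike.exists_of_lt hM
    rw [mem_stabK'] at hg0'
    push Not at hg0'
    obtain ⟨w, hw, hgw⟩ := hg0'
    have hmove : ∀ v : Fin n → F, ∃ m ∈ M, (m : Matrix (Fin n) (Fin n) F) *ᵥ v ∈ lowK F n k := by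
      intro v
      by_cases hv : v ∈ lowK F n k
      · exact ⟨1, M.one_mem, by simpa using hv⟩
      · obtain ⟨h, hh, hh'⟩ := stabK_trans n k hgw hv
        refine ⟨(h * g0)⁻¹, M.inv_mem (M.mul_mem (hM.le hh) hg0), ?_⟩
        rw [GL_inv_mulVec (h * g0) (x := w) (by rw [GL_mul_mulVec, hh'])]
        exact hw
    apply eq_top_of_transvections M
    · intro v φ hvφ g hg
      obtain ⟨m, hm, hmv⟩ := hmove v
      have h1 : m * g * m⁻¹ ∈ stabK F n k := by
        rw [mem_stabK']
        intro x hx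
        rw [GL_mul_mulVec, GL_mul_mulVec, hg, Matrix.mulVec_add, Matrix.mulVec_smul, ← GL_mul_mulVec, mul_inv_cancel,
          Units.val_one, Matrix.one_mulVec]
        exact (lowK F n k).add_mem hx ((lowK F n k).smul_mem _ hmv)
      have h2 : g = m⁻¹ * (m * g * m⁻¹) * m := by group
      rw [h2]
      exact M.mul_mem (M.mul_mem (M.inv_mem hm) (hM.le h1)) hm
    · rintro g ⟨d, hd⟩
      apply hM.le
      rw [mem_stabK]
      intro i j hi hj
      rw [hd, diagonal_apply_ne]
      rintro rfl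
      omega

/-- subspaces invariant under the parabolic -/
theorem invariant_subspace (n k : ℕ) (U : Submodule F (Fin n → F))
    (hU : ∀ g ∈ stabK F n k, ∀ x ∈ U, (g : Matrix (Fin n) (Fin n) F) *ᵥ x ∈ U) :
    U = ⊥ ∨ U = ⊤ ∨ U = lowK F n k := by
  by_cases hU0 : U = ⊥
  · exact Or.inl hU0
  right
  obtain ⟨u, hu, hu0⟩ := (Submodule.ne_bot_iff _).mp hU0
  -- elementary transvections
  have hE : ∀ i j : Fin n, i ≠ j → ((i : ℕ) < k ∨ k ≤ (j : ℕ)) → ∀ x ∈ U, x j ≠ 0 → (Pi.single i 1 : Fin n → F) ∈ U := by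
    intro i j hij hk x hx hxj
    have h0 : (Pi.single j 1 : Fin n → F) ⬝ᵥ (Pi.single i 1) = 0 := by
      rw [single_dotProduct, one_mul, Pi.single_eq_of_ne hij.symm]
    obtain ⟨g, hg⟩ := exists_tau (Pi.single i 1) (Pi.single j 1 : Fin n → F) (by rw [h0, add_zero]; exact one_ne_zero)
    have hgs : g ∈ stabK F n k := by
      rw [mem_stabK']
      intro w hw
      rw [hg, single_dotProduct, one_mul]
      rcases hk with hk | hk
      · refine (lowK F n k).add_mem hw ((lowK F n k).smul_mem _ ?_)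
        intro l hl
        rw [Pi.single_eq_of_ne]
        rintro rfl
        omega
      · rw [hw j hk, zero_smul, add_zero]; exact hw
    have h1 := hU g hgs x hx
    rw [hg, single_dotProduct, one_mul] at h1
    have h2 := (U.add_mem_iff_right hx).mp h1
    exact (U.smul_mem_iff hxj).mp h2
  have hlow : ∀ i : Fin n, (i : ℕ) < k → (Pi.single i 1 : Fin n → F) ∈ U := by
    intro i hi
    by_cases h : ∃ j, j ≠ i ∧ u j ≠ 0
    · obtain ⟨j, hj, huj⟩ := h
      exact hE i j hj.symm (Or.inl hi) u hu huj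
    · push Not at h
      have h1 : u = u i • (Pi.single i 1 : Fin n → F) := by
        funext l
        by_cases hl : l = i
        · subst hl; simp
        · rw [h l hl]; simp [hl]
      have h2 : u i ≠ 0 := by
        intro h3
        rw [h3, zero_smul] at h1
        exact hu0 h1
      rw [h1] at hu
      exact (U.smul_mem_iff h2).mp hu
  have hle : lowK F n k ≤ U := by
    intro w hw
    have : w = ∑ i, w i • (Pi.single i 1 : Fin n → F) := by
      funext l
      simp [Finset.sum_apply, Pi.single_apply]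
    rw [this]
    apply U.sum_mem
    intro i _
    by_cases hi : (i : ℕ) < k
    · exact U.smul_mem _ (hlow i hi)
    · rw [hw i (by omega), zero_smul]; exact U.zero_mem
  by_cases hUle : U ≤ lowK F n k
  · exact Or.inr (le_antisymm hUle hle)
  · left
    obtain ⟨x, hx, hxn⟩ := SetLike.not_le_iff_exists.mp hUle
    have : ∃ j : Fin n, k ≤ (j : ℕ) ∧ x j ≠ 0 := by
      by_contra h
      push Not at h
      exact hxn h
    obtain ⟨j, hj, hxj⟩ := this
    have h1 : ∀ i, i ≠ j → (Pi.single i 1 : Fin n → F) ∈ U := fun i hi => hE i j hi (Or.inr hj) x hx hxj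
    have h2 : (Pi.single j 1 : Fin n → F) ∈ U := by
      have h3 : x = x j • (Pi.single j 1 : Fin n → F) + ∑ i ∈ Finset.univ.erase j, x i • (Pi.single i 1 : Fin n → F) := by
        rw [Finset.add_sum_erase Finset.univ (fun i => x i • (Pi.single i 1 : Fin n → F)) (Finset.mem_univ j)]
        funext l
        simp [Finset.sum_apply, Pi.single_apply]
      have h4 : ∑ i ∈ Finset.univ.erase j, x i • (Pi.single i 1 : Fin n → F) ∈ U :=
        U.sum_mem fun i hi => U.smul_mem _ (h1 i (Finset.ne_of_mem_erase hi))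
      have h5 : x j • (Pi.single j 1 : Fin n → F) ∈ U := by
        rw [h3] at hx
        exact (U.add_mem_iff_left h4).mp hx
      exact (U.smul_mem_iff hxj).mp h5
    rw [eq_top_iff]
    intro w _
    have : w = ∑ i, w i • (Pi.single i 1 : Fin n → F) := by
      funext l
      simp [Finset.sum_apply, Pi.single_apply]
    rw [this]
    apply U.sum_mem
    intro i _
    by_cases hi : i = j
    · subst hi; exact U.smul_mem _ h2
    · exact U.smul_mem _ (h1 i hi)

/-- dimension of the coordinate subspace -/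
theorem finrank_lowK (n k : ℕ) (hk : k ≤ n) : Module.finrank F (lowK F n k) = k := by
  let e : lowK F n k ≃ₗ[F] (Fin k → F) :=
    { toFun := fun v i => (v : Fin n → F) ⟨i, by omega⟩
      invFun := fun f => ⟨fun i => if h : (i : ℕ) < k then f ⟨i, h⟩ else 0, fun i hi => by
        exact dif_neg (by omega)⟩
      map_add' := by intro x y; rfl
      map_smul' := by intro c x; rfl
      left_inv := by
        intro v
        apply Subtype.ext
        funext i
        by_cases h : (i : ℕ) < k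
        · simp [h]
        · simp only [h, dif_neg, not_false_eq_true]
          exact (v.2 i (by omega)).symm
      right_inv := by
        intro f
        funext i
        simp }
  rw [e.finrank_eq, Module.finrank_fin_fun]

/-- reverse transpose inverse automorphism -/
def revInv (F : Type*) [Field F] (n : ℕ) : Matrix.GeneralLinearGroup (Fin n) F ≃* Matrix.GeneralLinearGroup (Fin n) F where
  toFun g := ⟨((g⁻¹ : Matrix.GeneralLinearGroup (Fin n) F) : Matrix (Fin n) (Fin n) F)ᵀ.submatrix Fin.rev Fin.rev,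
      (g : Matrix (Fin n) (Fin n) F)ᵀ.submatrix Fin.rev Fin.rev, by
        rw [← Matrix.submatrix_mul _ _ _ _ _ Fin.rev_bijective, ← Matrix.transpose_mul, ← Units.val_mul, mul_inv_cancel, Units.val_one,
          Matrix.transpose_one, Matrix.submatrix_one _ Fin.rev_injective], by
        rw [← Matrix.submatrix_mul _ _ _ _ _ Fin.rev_bijective, ← Matrix.transpose_mul, ← Units.val_mul, inv_mul_cancel, Units.val_one,
          Matrix.transpose_one, Matrix.submatrix_one _ Fin.rev_injective]⟩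
  invFun g := ⟨((g⁻¹ : Matrix.GeneralLinearGroup (Fin n) F) : Matrix (Fin n) (Fin n) F)ᵀ.submatrix Fin.rev Fin.rev,
      (g : Matrix (Fin n) (Fin n) F)ᵀ.submatrix Fin.rev Fin.rev, by
        rw [← Matrix.submatrix_mul _ _ _ _ _ Fin.rev_bijective, ← Matrix.transpose_mul, ← Units.val_mul, mul_inv_cancel, Units.val_one,
          Matrix.transpose_one, Matrix.submatrix_one _ Fin.rev_injective], by
        rw [← Matrix.submatrix_mul _ _ _ _ _ Fin.rev_bijective, ← Matrix.transpose_mul, ← Units.val_mul, inv_mul_cancel, Units.val_one,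
          Matrix.transpose_one, Matrix.submatrix_one _ Fin.rev_injective]⟩
  left_inv g := by
    apply Units.ext
    ext i j
    change (g : Matrix (Fin n) (Fin n) F) (Fin.rev (Fin.rev i)) (Fin.rev (Fin.rev j)) = _
    rw [Fin.rev_rev, Fin.rev_rev]
  right_inv g := by
    apply Units.ext
    ext i j
    change (g : Matrix (Fin n) (Fin n) F) (Fin.rev (Fin.rev i)) (Fin.rev (Fin.rev j)) = _
    rw [Fin.rev_rev, Fin.rev_rev]
  map_mul' g h := by
    apply Units.ext
    change (((g * h)⁻¹ : Matrix.GeneralLinearGroup (Fin n) F) : Matrix (Fin n) (Fin n) F)ᵀ.submatrix Fin.rev Fin.rev =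
      ((g⁻¹ : Matrix.GeneralLinearGroup (Fin n) F) : Matrix (Fin n) (Fin n) F)ᵀ.submatrix Fin.rev Fin.rev *
      ((h⁻¹ : Matrix.GeneralLinearGroup (Fin n) F) : Matrix (Fin n) (Fin n) F)ᵀ.submatrix Fin.rev Fin.rev
    rw [← Matrix.submatrix_mul _ _ _ _ _ Fin.rev_bijective, ← Matrix.transpose_mul, ← Units.val_mul, _root_.mul_inv_rev]

theorem revInv_apply (n : ℕ) (g : Matrix.GeneralLinearGroup (Fin n) F) (i j : Fin n) :
    (revInv F n g : Matrix (Fin n) (Fin n) F) i j =
      ((g⁻¹ : Matrix.GeneralLinearGroup (Fin n) F) : Matrix (Fin n) (Fin n) F) (Fin.rev j) (Fin.rev i) := rfl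

theorem revInv_mem (n k : ℕ) (hk : k ≤ n) (g : Matrix.GeneralLinearGroup (Fin n) F) :
    revInv F n g ∈ stabK F n (n - k) ↔ g ∈ stabK F n k := by
  rw [mem_stabK]
  constructor
  · intro h
    rw [← inv_mem_iff, mem_stabK]
    intro i j hi hj
    have := h (Fin.rev j) (Fin.rev i) (by rw [Fin.val_rev]; omega) (by rw [Fin.val_rev]; omega)
    rw [revInv_apply, Fin.rev_rev, Fin.rev_rev] at this
    exact this
  · intro h i j hi hj
    rw [revInv_apply]
    rw [← inv_mem_iff, mem_stabK] at h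
    apply h
    · rw [Fin.val_rev]; omega
    · rw [Fin.val_rev]; omega

theorem stabK_iso (n k : ℕ) (hk : k ≤ n) : Nonempty (↥(stabK F n k) ≃* ↥(stabK F n (n - k))) := by
  have h : (stabK F n k).map (revInv F n).toMonoidHom = stabK F n (n - k) := by
    ext g
    constructor
    · rintro ⟨x, hx, rfl⟩
      exact (revInv_mem n k hk x).mpr hx
    · intro hg
      refine ⟨(revInv F n).symm g, ?_, (revInv F n).apply_symm_apply g⟩
      apply (revInv_mem n k hk _).mp
      rw [(revInv F n).apply_symm_apply g]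
      exact hg
  exact ⟨((revInv F n).subgroupMap (stabK F n k)).trans (MulEquiv.subgroupCongr h)⟩

theorem stabK_not_conj (n k : ℕ) (hk0 : 0 < k) (hkn : k < n) (h2 : 2 * k ≠ n) (g : Matrix.GeneralLinearGroup (Fin n) F) :
    (stabK F n k).map (MulAut.conj g).toMonoidHom ≠ stabK F n (n - k) := by
  intro h
  let e : (Fin n → F) ≃ₗ[F] (Fin n → F) :=
    LinearEquiv.ofInjectiveEndo (Matrix.mulVecLin (g : Matrix (Fin n) (Fin n) F)) (fun x y hxy => GL_mulVec_inj g hxy)
  have he : ∀ x, e x = (g : Matrix (Fin n) (Fin n) F) *ᵥ x := fun x => rfl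
  have hinv := invariant_subspace n (n - k) ((lowK F n k).map (e : (Fin n → F) →ₗ[F] (Fin n → F))) (by
    intro x hx u hu
    rw [← h] at hx
    obtain ⟨y, hy, rfl⟩ := hx
    obtain ⟨w, hw, rfl⟩ := hu
    refine ⟨(y : Matrix (Fin n) (Fin n) F) *ᵥ w, (mem_stabK' n k y).mp hy w hw, ?_⟩
    change (g : Matrix (Fin n) (Fin n) F) *ᵥ ((y : Matrix (Fin n) (Fin n) F) *ᵥ w) = ((g * y * g⁻¹ : Matrix.GeneralLinearGroup (Fin n) F) : Matrix (Fin n) (Fin n) F) *ᵥ ((g : Matrix (Fin n) (Fin n) F) *ᵥ w)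
    rw [← GL_mul_mulVec, ← GL_mul_mulVec]
    congr 2
    group)
  have hdim : Module.finrank F ((lowK F n k).map (e : (Fin n → F) →ₗ[F] (Fin n → F))) = k := by
    rw [LinearEquiv.finrank_map_eq, finrank_lowK n k hkn.le]
  rcases hinv with h3 | h3 | h3
  · rw [h3, finrank_bot] at hdim; omega
  · rw [h3, finrank_top, Module.finrank_fin_fun] at hdim; omega
  · rw [h3, finrank_lowK n (n - k) (Nat.sub_le n k)] at hdim; omega

end H16.GLParab
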