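import Mathlib
import Cfsg.Agent.Lib.H16.PermBasic
import Cfsg.Agent.Lib.H16.PermStab

set_option autoImplicit false

/-! Livingstone–Wagner, part 1: k-transitive groups with trivial (k+1)-point stabilisers. -/

namespace H16.LW

open Equiv MulAction

variable {α : Type*} [Fintype α] [DecidableEq α]

set_option linter.unusedSectionVars false

/-- `G` realises every permutation on every `k`-subset. -/
def Tr (G : Subgroup (Perm α)) (k : ℕ) : Prop :=
  ∀ (X : Finset α), X.card = k → ∀ σ : Perm α, ∃ g ∈ G, ∀ x ∈ X, g x = σ x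

theorem tr_of_multi {G : Subgroup (Perm α)} {k : ℕ} (h : IsMultiplyPretransitive G α k) : Tr G k := by
  intro X hX σ
  let e := (Finset.equivFinOfCardEq hX).symm
  obtain ⟨g, hg, hgx⟩ := H16.PermBasic.exists_of_isMultiplyPretransitive h (fun i => (e i : α)) (fun i => σ (e i))
    (fun i j hij => e.injective (Subtype.ext hij)) (fun i j hij => e.injective (Subtype.ext (σ.injective hij)))
  refine ⟨g, hg, fun x hx => ?_⟩
  have := hgx (e.symm ⟨x, hx⟩)
  rw [e.apply_symm_apply] at this
  exact this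

theorem exists_perm_extend {k : ℕ} (x y : Fin k → α) (hx : Function.Injective x) (hy : Function.Injective y) :
    ∃ σ : Perm α, ∀ i, σ (x i) = y i := by
  obtain ⟨g, -, hg⟩ := H16.PermBasic.exists_of_isMultiplyPretransitive (G := (⊤ : Subgroup (Perm α))) (k := k)
    (by
      have h := Equiv.Perm.isMultiplyPretransitive α k
      constructor
      intro a b
      obtain ⟨g, hg⟩ := h.exists_smul_eq a b
      exact ⟨⟨g, trivial⟩, hg⟩) x y hx hy
  exact ⟨g, hg⟩

theorem multi_of_tr {G : Subgroup (Perm α)} {k : ℕ} (h : Tr G k) : IsMultiplyPretransitive G α k := by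
  constructor
  intro x y
  obtain ⟨σ, hσ⟩ := exists_perm_extend x y x.injective y.injective
  obtain ⟨g, hg, hgx⟩ := h (Finset.univ.image x) (by
    rw [Finset.card_image_of_injective _ x.injective]; simp) σ
  refine ⟨⟨g, hg⟩, ?_⟩
  ext i
  change g (x i) = y i
  rw [hgx _ (Finset.mem_image_of_mem _ (Finset.mem_univ i)), hσ]

theorem tr_mono {G : Subgroup (Perm α)} {k l : ℕ} (h : Tr G k) (hk : k ≤ Fintype.card α) (hlk : l ≤ k) : Tr G l := by
  intro X hX σ
  obtain ⟨Y, hXY, hY⟩ := Finset.exists_superset_card_eq (s := X) (n := k) (by omega) hk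
  obtain ⟨g, hg, h1⟩ := h Y hY σ
  exact ⟨g, hg, fun x hx => h1 x (hXY hx)⟩

/-- a permutation moving an ordered pair and fixing the rest of `X` -/
theorem exists_perm_pair (X : Finset α) {c d c' d' : α} (hc : c ∉ X) (hd : d ∉ X) (hc' : c' ∉ X) (hd' : d' ∉ X)
    (hcd : c ≠ d) (hcd' : c' ≠ d') : ∃ σ : Perm α, (∀ x ∈ X, σ x = x) ∧ σ c = c' ∧ σ d = d' := by
  have he1 : swap c c' d ≠ c' := by
    intro h
    have := (swap c c').injective (h.trans (swap_apply_left c c').symm)
    exact hcd this.symm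
  have he : swap c c' d ∉ X := by
    by_cases h1 : d = c
    · exact absurd h1.symm hcd
    · by_cases h2 : d = c'
      · rw [h2, swap_apply_right]; exact hc
      · rw [swap_apply_of_ne_of_ne h1 h2]; exact hd
  refine ⟨swap (swap c c' d) d' * swap c c', ?_, ?_, ?_⟩
  · intro x hx
    rw [Perm.mul_apply, swap_apply_of_ne_of_ne (ne_of_mem_of_not_mem hx hc) (ne_of_mem_of_not_mem hx hc'),
      swap_apply_of_ne_of_ne (ne_of_mem_of_not_mem hx he) (ne_of_mem_of_not_mem hx hd')]
  · rw [Perm.mul_apply, swap_apply_left, swap_apply_of_ne_of_ne he1.symm hcd']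
  · rw [Perm.mul_apply, swap_apply_left]

/-! ### Double counting -/

/-- In a group acting 2-transitively on `Ω`, for a conjugation-closed set `T` of involutions with exactly two fixed
points on `Ω`: twice the number swapping `c, d` is `(|Ω| - 2)` times the number fixing both. -/
theorem double_count (G : Subgroup (Perm α)) (Ω : Finset α) (T : Finset (Perm α))
    (h2 : ∀ c ∈ Ω, ∀ d ∈ Ω, ∀ c' ∈ Ω, ∀ d' ∈ Ω, c ≠ d → c' ≠ d' → ∃ g ∈ G, g c = c' ∧ g d = d')
    (hconj : ∀ g ∈ G, ∀ t ∈ T, g * t * g⁻¹ ∈ T) (hinv : ∀ t ∈ T, t * t = 1) (hΩ : ∀ t ∈ T, ∀ x ∈ Ω, t x ∈ Ω)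
    (hfix : ∀ t ∈ T, (Ω.filter fun x => t x = x).card = 2) {c d : α} (hc : c ∈ Ω) (hd : d ∈ Ω) (hcd : c ≠ d) :
    2 * (T.filter fun t => t c = d).card = (Ω.card - 2) * (T.filter fun t => t c = c ∧ t d = d).card := by
  classical
  have hinv' : ∀ t ∈ T, ∀ x, t (t x) = x := by
    intro t ht x
    have := hinv t ht
    rw [← Perm.mul_apply, this, Perm.one_apply]
  -- constancy
  have e1 : ∀ p ∈ Ω.offDiag, (T.filter fun t => t p.1 = p.2).card = (T.filter fun t => t c = d).card := by
    rintro ⟨c', d'⟩ hp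
    rw [Finset.mem_offDiag] at hp
    obtain ⟨g, hg, hgc, hgd⟩ := h2 c hc d hd c' hp.1 d' hp.2.1 hcd hp.2.2
    apply Finset.card_bij' (fun t _ => g⁻¹ * t * g) (fun t _ => g * t * g⁻¹)
    · intro t ht
      rw [Finset.mem_filter] at ht ⊢
      refine ⟨by simpa using hconj g⁻¹ (G.inv_mem hg) t ht.1, ?_⟩
      rw [Perm.mul_apply, Perm.mul_apply, hgc, ht.2, Perm.inv_eq_iff_eq]
      exact hgd.symm
    · intro t ht
      rw [Finset.mem_filter] at ht ⊢
      refine ⟨hconj g hg t ht.1, ?_⟩
      have : g⁻¹ c' = c := by rw [Perm.inv_eq_iff_eq]; exact hgc.symm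
      rw [Perm.mul_apply, Perm.mul_apply, this, ht.2]
      exact hgd
    · intro t _; group
    · intro t _; group
  have e2 : ∀ p ∈ Ω.offDiag, (T.filter fun t => t p.1 = p.1 ∧ t p.2 = p.2).card = (T.filter fun t => t c = c ∧ t d = d).card := by
    rintro ⟨c', d'⟩ hp
    rw [Finset.mem_offDiag] at hp
    obtain ⟨g, hg, hgc, hgd⟩ := h2 c hc d hd c' hp.1 d' hp.2.1 hcd hp.2.2
    have hgc' : g⁻¹ c' = c := by rw [Perm.inv_eq_iff_eq]; exact hgc.symm
    have hgd' : g⁻¹ d' = d := by rw [Perm.inv_eq_iff_eq]; exact hgd.symm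
    apply Finset.card_bij' (fun t _ => g⁻¹ * t * g) (fun t _ => g * t * g⁻¹)
    · intro t ht
      rw [Finset.mem_filter] at ht ⊢
      refine ⟨by simpa using hconj g⁻¹ (G.inv_mem hg) t ht.1, ?_, ?_⟩
      · rw [Perm.mul_apply, Perm.mul_apply, hgc, ht.2.1, hgc']
      · rw [Perm.mul_apply, Perm.mul_apply, hgd, ht.2.2, hgd']
    · intro t ht
      rw [Finset.mem_filter] at ht ⊢
      refine ⟨hconj g hg t ht.1, ?_, ?_⟩
      · rw [Perm.mul_apply, Perm.mul_apply, hgc', ht.2.1, hgc]
      · rw [Perm.mul_apply, Perm.mul_apply, hgd', ht.2.2, hgd]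
    · intro t _; group
    · intro t _; group
  -- sums
  have s1 : Ω.offDiag.card * (T.filter fun t => t c = d).card = T.card * (Ω.card - 2) := by
    have h3 : ∑ p ∈ Ω.offDiag, (T.filter fun t => t p.1 = p.2).card = ∑ t ∈ T, (Ω.offDiag.filter fun p => t p.1 = p.2).card := by
      exact Finset.sum_card_bipartiteAbove_eq_sum_card_bipartiteBelow (s := Ω.offDiag) (t := T) (fun p t => t p.1 = p.2)
    rw [Finset.sum_congr rfl e1, Finset.sum_const, smul_eq_mul] at h3
    rw [h3, Finset.sum_congr rfl (g := fun _ => Ω.card - 2), Finset.sum_const, smul_eq_mul]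
    intro t ht
    have h4 : (Ω.offDiag.filter fun p => t p.1 = p.2).card = (Ω.filter fun x => t x ≠ x).card := by
      apply Finset.card_bij' (fun p _ => p.1) (fun x _ => (x, t x))
      · rintro ⟨a, b⟩ hab
        rw [Finset.mem_filter, Finset.mem_offDiag] at hab
        rw [Finset.mem_filter]
        refine ⟨hab.1.1, ?_⟩
        change t a ≠ a
        rw [hab.2]
        exact hab.1.2.2.symm
      · intro x hx
        rw [Finset.mem_filter] at hx
        rw [Finset.mem_filter, Finset.mem_offDiag]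
        exact ⟨⟨hx.1, hΩ t ht x hx.1, Ne.symm hx.2⟩, rfl⟩
      · rintro ⟨a, b⟩ hab
        rw [Finset.mem_filter] at hab
        exact Prod.ext rfl hab.2
      · intro x _; rfl
    have h5 : (Ω.filter fun x => t x = x).card + (Ω.filter fun x => t x ≠ x).card = Ω.card :=
      Finset.card_filter_add_card_filter_not (s := Ω) (fun x => t x = x)
    rw [hfix t ht] at h5
    rw [h4]
    omega
  have s2 : Ω.offDiag.card * (T.filter fun t => t c = c ∧ t d = d).card = T.card * 2 := by
    have h3 : ∑ p ∈ Ω.offDiag, (T.filter fun t => t p.1 = p.1 ∧ t p.2 = p.2).card = ∑ t ∈ T, (Ω.offDiag.filter fun p => t p.1 = p.1 ∧ t p.2 = p.2).card := by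
      exact Finset.sum_card_bipartiteAbove_eq_sum_card_bipartiteBelow (s := Ω.offDiag) (t := T) (fun p t => t p.1 = p.1 ∧ t p.2 = p.2)
    rw [Finset.sum_congr rfl e2, Finset.sum_const, smul_eq_mul] at h3
    rw [h3, Finset.sum_congr rfl (g := fun _ => 2), Finset.sum_const, smul_eq_mul]
    intro t ht
    have h4 : (Ω.offDiag.filter fun p => t p.1 = p.1 ∧ t p.2 = p.2) = (Ω.filter fun x => t x = x).offDiag := by
      ext ⟨a, b⟩
      simp only [Finset.mem_filter, Finset.mem_offDiag]
      tauto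
    rw [h4, Finset.offDiag_card, hfix t ht]
  have hpos : 0 < Ω.offDiag.card := Finset.card_pos.mpr ⟨(c, d), Finset.mem_offDiag.mpr ⟨hc, hd, hcd⟩⟩
  apply Nat.eq_of_mul_eq_mul_left hpos
  calc Ω.offDiag.card * (2 * (T.filter fun t => t c = d).card) = 2 * (Ω.offDiag.card * (T.filter fun t => t c = d).card) := by ring
    _ = (Ω.card - 2) * (T.card * 2) := by rw [s1]; ring
    _ = Ω.offDiag.card * ((Ω.card - 2) * (T.filter fun t => t c = c ∧ t d = d).card) := by rw [← s2]; ring

/-! ### The semiregular situation -/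

/-- pointwise stabiliser of `X` in `G`, as a subgroup of `G` -/
abbrev fx (G : Subgroup (Perm α)) (X : Finset α) : Subgroup G := H16.PermStab.fixS (G := G) X

theorem mem_fx {G : Subgroup (Perm α)} {X : Finset α} {g : G} : g ∈ fx G X ↔ ∀ x ∈ X, (g : Perm α) x = x :=
  H16.PermStab.mem_fixS

/-- nontrivial elements fix at most `k` points -/
def Reg (G : Subgroup (Perm α)) (k : ℕ) : Prop :=
  ∀ g ∈ G, ∀ Y : Finset α, Y.card = k + 1 → (∀ y ∈ Y, g y = y) → g = 1

theorem card_orbit_of_reg {G : Subgroup (Perm α)} {k : ℕ} (hR : Reg G k) {X : Finset α} (hX : X.card = k) {z : α} (hz : z ∉ X) :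
    Nat.card (orbit (fx G X) z) = Nat.card (fx G X) := by
  have h1 := H16.PermStab.card_orbit_fixS (G := G) X z
  have h2 : Nat.card (fx G (insert z X)) = 1 := by
    rw [Nat.card_eq_one_iff_unique]
    refine ⟨⟨fun a b => ?_⟩, ⟨1⟩⟩
    have key : ∀ a : fx G (insert z X), a = 1 := by
      intro a
      apply Subtype.ext
      apply Subtype.ext
      exact hR _ (a : G).2 (insert z X) (by rw [Finset.card_insert_of_notMem hz, hX]) (mem_fx.mp a.2)
    rw [key a, key b]
  rw [← h1]
  change _ = _ * Nat.card (fx G (insert z X))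
  rw [h2, mul_one]

theorem dvd_of_reg {G : Subgroup (Perm α)} {k : ℕ} (hR : Reg G k) {X : Finset α} (hX : X.card = k) :
    Nat.card (fx G X) ∣ Fintype.card α - k := by
  have h1 : ((Xᶜ : Finset α) : Set α).ncard = Fintype.card α - k := by
    rw [Set.ncard_coe_finset, Finset.card_compl, hX]
  rw [← h1]
  apply H16.PermBasic.dvd_ncard_of_orbits (P := fx G X) _ (Set.toFinite _)
  · intro g x hx
    rw [Finset.mem_coe, Finset.mem_compl] at hx ⊢
    intro h
    apply hx
    have h2 : ((g : G) : Perm α) (((g : G) : Perm α) x) = ((g : G) : Perm α) x := mem_fx.mp g.2 _ h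
    have h3 := ((g : G) : Perm α).injective h2
    change ((g : G) : Perm α) x ∈ X at h
    rw [h3] at h
    exact h
  · intro x hx
    rw [Finset.mem_coe, Finset.mem_compl] at hx
    exact card_orbit_of_reg hR hX hx

/-- an element of `G` fixing `X` pointwise, to the power `|fx G X|`, is trivial -/
theorem pow_card_fx {G : Subgroup (Perm α)} {X : Finset α} {g : Perm α} (hg : g ∈ G) (hX : ∀ x ∈ X, g x = x) :
    g ^ Nat.card (fx G X) = 1 := by
  have h := pow_card_eq_one' (x := (⟨⟨g, hg⟩, mem_fx.mpr hX⟩ : fx G X))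
  have h2 := congrArg (fun y : fx G X => ((y : G) : Perm α)) h
  exact h2

/-- the pointwise stabilisers of `k`-subsets all have the same order -/
theorem card_fx_eq {G : Subgroup (Perm α)} {k : ℕ} (hT : Tr G k) {X Y : Finset α} (hX : X.card = k) (hY : Y.card = k) :
    Nat.card (fx G X) = Nat.card (fx G Y) := by
  -- a permutation carrying X to Y
  obtain ⟨σ, hσ⟩ : ∃ σ : Perm α, X.image σ = Y := by
    let e := (Finset.equivFinOfCardEq hX).symm
    let f := (Finset.equivFinOfCardEq hY).symm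
    obtain ⟨σ, hσ⟩ := exists_perm_extend (fun i => (e i : α)) (fun i => (f i : α))
      (fun i j hij => e.injective (Subtype.ext hij)) (fun i j hij => f.injective (Subtype.ext hij))
    refine ⟨σ, ?_⟩
    ext y
    rw [Finset.mem_image]
    constructor
    · rintro ⟨x, hx, rfl⟩
      have := hσ (e.symm ⟨x, hx⟩)
      rw [e.apply_symm_apply] at this
      simp only at this
      rw [this]
      exact (f _).2
    · intro hy
      refine ⟨e (f.symm ⟨y, hy⟩), (e _).2, ?_⟩
      rw [hσ, f.apply_symm_apply]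
  obtain ⟨g, hg, hgx⟩ := hT X hX σ
  have hgX : ∀ x, x ∈ X ↔ g x ∈ Y := by
    intro x
    constructor
    · intro hx
      rw [hgx x hx, ← hσ]
      exact Finset.mem_image_of_mem _ hx
    · intro hx
      rw [← hσ, Finset.mem_image] at hx
      obtain ⟨z, hz, hzx⟩ := hx
      rw [← hgx z hz] at hzx
      rw [← g.injective hzx]
      exact hz
  apply Nat.card_congr
  refine
    { toFun := fun a => ⟨⟨g, hg⟩ * a * (⟨g, hg⟩ : G)⁻¹, mem_fx.mpr fun y hy => ?_⟩
      invFun := fun a => ⟨(⟨g, hg⟩ : G)⁻¹ * a * ⟨g, hg⟩, mem_fx.mpr fun x hx => ?_⟩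
      left_inv := fun a => by apply Subtype.ext; simp only; group
      right_inv := fun a => by apply Subtype.ext; simp only; group }
  · change g (((a : G) : Perm α) (g⁻¹ y)) = y
    have h1 : g⁻¹ y ∈ X := by rw [hgX]; simpa using hy
    rw [mem_fx.mp a.2 _ h1]
    simp
  · change g⁻¹ (((a : G) : Perm α) (g x)) = x
    rw [mem_fx.mp a.2 _ ((hgX x).mp hx)]
    simp

/-- number of involution-type elements in a coset is at most the order of the pointwise stabiliser -/
theorem card_coset_le {G : Subgroup (Perm α)} {X : Finset α} (T : Finset (Perm α)) (hTG : ∀ t ∈ T, t ∈ G)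
    (h : ∀ t ∈ T, ∀ s ∈ T, ∀ x ∈ X, t x = s x) : T.card ≤ Nat.card (fx G X) := by
  classical
  rcases T.eq_empty_or_nonempty with h0 | ⟨t0, ht0⟩
  · rw [h0]; simp
  · have h1 : T.card = Nat.card T := by rw [Nat.card_eq_fintype_card, Fintype.card_coe]
    rw [h1]
    apply Nat.card_le_card_of_injective (fun t : T => (⟨(⟨t0, hTG t0 ht0⟩ : G)⁻¹ * ⟨t, hTG t t.2⟩, mem_fx.mpr (fun x hx => by
      change t0⁻¹ ((t : Perm α) x) = x
      rw [h t t.2 t0 ht0 x hx]
      simp)⟩ : fx G X))
    intro a b hab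
    have h2 := congrArg (fun y : fx G X => ((y : G) : Perm α)) hab
    apply Subtype.ext
    exact mul_left_cancel h2

end H16.LW
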