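import Mathlib
import Cfsg.Agent.Lib.H16.LW1

set_option autoImplicit false

/-! Livingstone–Wagner, part 2: the semiregular situation. -/

namespace H16.LW

open Equiv MulAction

set_option linter.unusedSectionVars false

variable {α : Type*} [Fintype α] [DecidableEq α]

/-- all 3-cycles on `Δ` are induced by `G` -/
def Good3 (G : Subgroup (Perm α)) (Δ : Finset α) : Prop :=
  ∀ a ∈ Δ, ∀ b ∈ Δ, ∀ c ∈ Δ, a ≠ b → b ≠ c → a ≠ c →
    ∃ g ∈ G, g a = b ∧ g b = c ∧ g c = a ∧ ∀ x ∈ Δ, x ≠ a → x ≠ b → x ≠ c → g x = x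

theorem invol_apply {t : Perm α} (h : t * t = 1) (x : α) : t (t x) = x := by
  rw [← Perm.mul_apply, h, Perm.one_apply]

theorem even_moved {t : Perm α} (h : t * t = 1) (Ω : Finset α) (hΩ : ∀ x ∈ Ω, t x ∈ Ω) :
    Even ((Ω.filter fun x => t x ≠ x).card) := by
  have h1 : ∑ x ∈ Ω.filter (fun x => t x ≠ x), (1 : ZMod 2) = 0 := by
    apply Finset.sum_involution (fun x _ => t x)
    · intro x hx; decide
    · intro x hx _
      exact (Finset.mem_filter.mp hx).2
    · intro x hx
      rw [Finset.mem_filter] at hx ⊢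
      refine ⟨hΩ x hx.1, ?_⟩
      intro h2
      exact hx.2 (t.injective h2)
    · intro x hx
      exact invol_apply h x
  rw [Finset.sum_const, nsmul_eq_mul, mul_one] at h1
  exact (ZMod.natCast_eq_zero_iff_even).mp h1

theorem card_fix_mod {t : Perm α} (h : t * t = 1) (Ω : Finset α) (hΩ : ∀ x ∈ Ω, t x ∈ Ω) :
    Ω.card % 2 = (Ω.filter fun x => t x = x).card % 2 := by
  have h1 := even_moved h Ω hΩ
  have h5 : (Ω.filter fun x => t x = x).card + (Ω.filter fun x => t x ≠ x).card = Ω.card :=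
    Finset.card_filter_add_card_filter_not (s := Ω) (fun x => t x = x)
  obtain ⟨r, hr⟩ := h1
  omega

/-- an involution in a situation where pointwise stabilisers have odd order -/
theorem eq_one_of_odd {G : Subgroup (Perm α)} {X : Finset α} (hodd : Odd (Nat.card (fx G X))) {t : Perm α} (ht : t ∈ G)
    (h2 : t * t = 1) (hX : ∀ x ∈ X, t x = x) : t = 1 := by
  have h1 := pow_card_fx ht hX
  obtain ⟨r, hr⟩ := hodd
  rw [hr, pow_succ, pow_mul, pow_two, h2, one_pow, one_mul] at h1
  exact h1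

/-- existence of an involution acting as a given involutory permutation on `X`, when `fx G X` has odd order -/
theorem exists_invol {G : Subgroup (Perm α)} {k : ℕ} (hT : Tr G k) {X : Finset α} (hX : X.card = k)
    (hodd : Odd (Nat.card (fx G X))) (σ : Perm α) (hσ : σ * σ = 1) (hσX : ∀ x ∈ X, σ x ∈ X) :
    ∃ t ∈ G, t * t = 1 ∧ ∀ x ∈ X, t x = σ x := by
  obtain ⟨g, hg, hgx⟩ := hT X hX σ
  have h1 : ∀ x ∈ X, (g * g) x = x := by
    intro x hx
    rw [Perm.mul_apply, hgx x hx, hgx _ (hσX x hx), invol_apply hσ]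
  have h2 := pow_card_fx (G.mul_mem hg hg) h1
  refine ⟨g ^ Nat.card (fx G X), G.pow_mem hg _, ?_, ?_⟩
  · rw [← pow_two, ← pow_mul, mul_comm, pow_mul, pow_two]
    exact h2
  · obtain ⟨r, hr⟩ := hodd
    intro x hx
    rw [hr, pow_succ, pow_mul, pow_two, Perm.mul_apply, hgx x hx]
    have h3 : ∀ r : ℕ, ∀ x ∈ X, ((g * g) ^ r) x = x := by
      intro r
      induction r with
      | zero => intro x _; rfl
      | succ r ih => intro x hx; rw [pow_succ, Perm.mul_apply, h1 x hx, ih x hx]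
    exact h3 r _ (hσX x hx)

/-- the group fixing `X₀` pointwise inside `G` -/
def ptw (G : Subgroup (Perm α)) (X : Finset α) : Subgroup (Perm α) where
  carrier := {g | g ∈ G ∧ ∀ x ∈ X, g x = x}
  mul_mem' := by
    rintro a b ⟨ha, ha'⟩ ⟨hb, hb'⟩
    exact ⟨G.mul_mem ha hb, fun x hx => by rw [Perm.mul_apply, hb' x hx, ha' x hx]⟩
  one_mem' := ⟨G.one_mem, fun _ _ => rfl⟩
  inv_mem' := by
    rintro a ⟨ha, ha'⟩
    exact ⟨G.inv_mem ha, fun x hx => by rw [Perm.inv_eq_iff_eq]; exact (ha' x hx).symm⟩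

theorem mem_ptw {G : Subgroup (Perm α)} {X : Finset α} {g : Perm α} : g ∈ ptw G X ↔ g ∈ G ∧ ∀ x ∈ X, g x = x := Iff.rfl

theorem ptw_apply_compl {G : Subgroup (Perm α)} {X : Finset α} {g : Perm α} (hg : g ∈ ptw G X) {x : α} (hx : x ∈ Xᶜ) : g x ∈ Xᶜ := by
  rw [Finset.mem_compl] at hx ⊢
  intro h
  apply hx
  have h2 : g (g x) = g x := hg.2 _ h
  rw [← g.injective h2]
  exact h

/-- 2-transitivity of pointwise stabilisers of `(k-2)`-subsets -/
theorem ptw_two_trans {G : Subgroup (Perm α)} {k : ℕ} (hT : Tr G k) {X₀ : Finset α} (hX₀ : X₀.card + 2 = k) :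
    ∀ c ∈ X₀ᶜ, ∀ d ∈ X₀ᶜ, ∀ c' ∈ X₀ᶜ, ∀ d' ∈ X₀ᶜ, c ≠ d → c' ≠ d' → ∃ g ∈ ptw G X₀, g c = c' ∧ g d = d' := by
  intro c hc d hd c' hc' d' hd' hcd hcd'
  rw [Finset.mem_compl] at hc hd hc' hd'
  obtain ⟨σ, h1, h2, h3⟩ := exists_perm_pair X₀ hc hd hc' hd' hcd hcd'
  obtain ⟨g, hg, hgx⟩ := hT (insert c (insert d X₀)) (by
    rw [Finset.card_insert_of_notMem, Finset.card_insert_of_notMem hd]; omega
    rw [Finset.mem_insert, not_or]; exact ⟨hcd, hc⟩) σ
  refine ⟨g, ⟨hg, fun x hx => ?_⟩, ?_, ?_⟩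
  · rw [hgx x (Finset.mem_insert_of_mem (Finset.mem_insert_of_mem hx)), h1 x hx]
  · rw [hgx c (Finset.mem_insert_self _ _), h2]
  · rw [hgx d (Finset.mem_insert_of_mem (Finset.mem_insert_self _ _)), h3]

/-- Case `|fx G X|` even -/
theorem le_two_mul_of_even {G : Subgroup (Perm α)} {k : ℕ} (hT : Tr G k) (hR : Reg G k) (hk : 2 ≤ k)
    {X : Finset α} (hX : X.card = k) (heven : Even (Nat.card (fx G X))) :
    Fintype.card α - k ≤ 2 * Nat.card (fx G X) := by
  classical
  -- the involution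
  obtain ⟨z, hz⟩ := exists_prime_orderOf_dvd_card' (G := fx G X) 2 (even_iff_two_dvd.mp heven)
  obtain ⟨c, hc, d, hd, hcd⟩ := Finset.one_lt_card.mp (show 1 < X.card by omega)
  obtain ⟨X₀, hX₀⟩ : ∃ X₀ : Finset α, X₀ = (X.erase c).erase d := ⟨_, rfl⟩
  have hX₀c : X₀.card + 2 = k := by
    rw [hX₀, Finset.card_erase_of_mem (Finset.mem_erase.mpr ⟨hcd.symm, hd⟩), Finset.card_erase_of_mem hc]
    omega
  have hmem : ∀ x ∈ X, x = c ∨ x = d ∨ x ∈ X₀ := by
    intro x hx
    rw [hX₀, Finset.mem_erase, Finset.mem_erase]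
    tauto
  have hX₀X : ∀ x ∈ X₀, x ∈ X := by
    intro x hx
    rw [hX₀, Finset.mem_erase, Finset.mem_erase] at hx
    exact hx.2.2
  have hc' : c ∈ X₀ᶜ := by
    rw [Finset.mem_compl, hX₀, Finset.mem_erase, Finset.mem_erase]; tauto
  have hd' : d ∈ X₀ᶜ := by
    rw [Finset.mem_compl, hX₀, Finset.mem_erase, Finset.mem_erase]; tauto
  have hcardc : X₀ᶜ.card - 2 = Fintype.card α - k := by
    rw [Finset.card_compl]; omega
  obtain ⟨T, hTdef⟩ : ∃ T : Finset (Perm α), T = Finset.univ.filter (fun t => t ∈ ptw G X₀ ∧ t * t = 1 ∧ (X₀ᶜ.filter fun x => t x = x).card = 2) := ⟨_, rfl⟩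
  have hTm : ∀ t, t ∈ T ↔ t ∈ ptw G X₀ ∧ t * t = 1 ∧ (X₀ᶜ.filter fun x => t x = x).card = 2 := by
    intro t; rw [hTdef, Finset.mem_filter]; simp
  have hcount := double_count (ptw G X₀) X₀ᶜ T (ptw_two_trans hT hX₀c) (by
      intro g hg t ht
      rw [hTm] at ht ⊢
      refine ⟨(ptw G X₀).mul_mem ((ptw G X₀).mul_mem hg ht.1) ((ptw G X₀).inv_mem hg), ?_, ?_⟩
      · have : g * t * g⁻¹ * (g * t * g⁻¹) = g * (t * t) * g⁻¹ := by group
        rw [this, ht.2.1]; group
      · rw [← ht.2.2]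
        apply Finset.card_bij' (fun x _ => g⁻¹ x) (fun x _ => g x)
        · intro x hx
          rw [Finset.mem_filter] at hx ⊢
          refine ⟨ptw_apply_compl ((ptw G X₀).inv_mem hg) hx.1, ?_⟩
          have := hx.2
          rw [Perm.mul_apply, Perm.mul_apply] at this
          rw [Perm.eq_inv_iff_eq]
          exact this
        · intro x hx
          rw [Finset.mem_filter] at hx ⊢
          refine ⟨ptw_apply_compl hg hx.1, ?_⟩
          have h9 : g⁻¹ (g x) = x := by simp
          rw [Perm.mul_apply, Perm.mul_apply, h9, hx.2]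
        · intro x _; simp
        · intro x _; simp) (fun t ht => ((hTm t).mp ht).2.1) (fun t ht x hx => ptw_apply_compl ((hTm t).mp ht).1 hx)
      (fun t ht => ((hTm t).mp ht).2.2) hc' hd' hcd
  rw [hcardc] at hcount
  -- P_fix ≥ 1
  have hzT : ((z : G) : Perm α) ∈ T.filter fun t => t c = c ∧ t d = d := by
    have hzX := mem_fx.mp z.2
    have hz2 : ((z : G) : Perm α) * ((z : G) : Perm α) = 1 := by
      have h1 : z ^ 2 = 1 := by rw [← hz]; exact pow_orderOf_eq_one z
      have h2 := congrArg (fun y : fx G X => ((y : G) : Perm α)) h1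
      rw [pow_two] at h2
      exact h2
    have hz1 : ((z : G) : Perm α) ≠ 1 := by
      intro h
      have : z = 1 := Subtype.ext (Subtype.ext h)
      rw [this, orderOf_one] at hz
      omega
    rw [Finset.mem_filter, hTm]
    refine ⟨⟨⟨(z : G).2, fun x hx => hzX x (hX₀X x hx)⟩, hz2, ?_⟩, hzX c hc, hzX d hd⟩
    have : (X₀ᶜ.filter fun x => ((z : G) : Perm α) x = x) = {c, d} := by
      ext x
      rw [Finset.mem_filter, Finset.mem_insert, Finset.mem_singleton]
      constructor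
      · rintro ⟨h1, h2⟩
        by_contra h
        push Not at h
        apply hz1
        apply hR _ (z : G).2 (insert x X)
        · rw [Finset.card_insert_of_notMem, hX]
          intro hx
          rcases hmem x hx with h3 | h3 | h3
          · exact h.1 h3
          · exact h.2 h3
          · exact (Finset.mem_compl.mp h1) h3
        · intro y hy
          rcases Finset.mem_insert.mp hy with rfl | hy
          · exact h2
          · exact hzX y hy
      · rintro (rfl | rfl)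
        · exact ⟨hc', hzX _ hc⟩
        · exact ⟨hd', hzX _ hd⟩
    rw [this, Finset.card_pair hcd]
  have h1 : 1 ≤ (T.filter fun t => t c = c ∧ t d = d).card := Finset.card_pos.mpr ⟨_, hzT⟩
  have h2 : (T.filter fun t => t c = d).card ≤ Nat.card (fx G X) := by
    apply card_coset_le
    · intro t ht
      rw [Finset.mem_filter, hTm] at ht
      exact ht.1.1.1
    · intro t ht s hs x hx
      rw [Finset.mem_filter, hTm] at ht hs
      rcases hmem x hx with rfl | rfl | h3
      · rw [ht.2, hs.2]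
      · have h4 := invol_apply ht.1.2.1 c
        have h5 := invol_apply hs.1.2.1 c
        rw [ht.2] at h4
        rw [hs.2] at h5
        rw [h4, h5]
      · rw [ht.1.1.2 x h3, hs.1.1.2 x h3]
  calc Fintype.card α - k ≤ (Fintype.card α - k) * (T.filter fun t => t c = c ∧ t d = d).card := Nat.le_mul_of_pos_right _ h1
    _ = 2 * (T.filter fun t => t c = d).card := hcount.symm
    _ ≤ 2 * Nat.card (fx G X) := by omega

/-- the double-transposition involutions over `X` -/
noncomputable def dbl (G : Subgroup (Perm α)) (X : Finset α) (a b c d : α) : Finset (Perm α) := by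
  classical
  exact Finset.univ.filter (fun t => t ∈ G ∧ t * t = 1 ∧ t a = b ∧ t c = d ∧ ∀ x ∈ X, x ≠ a → x ≠ b → x ≠ c → x ≠ d → t x = x)

theorem mem_dbl {G : Subgroup (Perm α)} {X : Finset α} {a b c d : α} {t : Perm α} :
    t ∈ dbl G X a b c d ↔ t ∈ G ∧ t * t = 1 ∧ t a = b ∧ t c = d ∧ ∀ x ∈ X, x ≠ a → x ≠ b → x ≠ c → x ≠ d → t x = x := by
  classical
  rw [dbl, Finset.mem_filter]
  simp

/-- Case `|fx G X|` odd and `n - k` even -/
theorem le_two_mul_of_odd {G : Subgroup (Perm α)} {k : ℕ} (hT : Tr G k)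
    (hodd : ∀ X : Finset α, X.card = k → Odd (Nat.card (fx G X))) (hkn : k ≤ Fintype.card α) (hN : Even (Fintype.card α - k))
    {X : Finset α} (hX : X.card = k) {a b c d : α} (ha : a ∈ X) (hb : b ∈ X) (hc : c ∈ X) (hd : d ∈ X)
    (hab : a ≠ b) (hac : a ≠ c) (had : a ≠ d) (hbc : b ≠ c) (hbd : b ≠ d) (hcd : c ≠ d) :
    Fintype.card α - k ≤ 2 * (dbl G X a b c d).card := by
  classical
  obtain ⟨X₀, hX₀⟩ : ∃ X₀ : Finset α, X₀ = (X.erase c).erase d := ⟨_, rfl⟩
  have hX₀c : X₀.card + 2 = k := by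
    have h1 : 1 < X.card := Finset.one_lt_card.mpr ⟨c, hc, d, hd, hcd⟩
    rw [hX₀, Finset.card_erase_of_mem (Finset.mem_erase.mpr ⟨hcd.symm, hd⟩), Finset.card_erase_of_mem hc]
    omega
  have hX₀m : ∀ x, x ∈ X₀ ↔ x ≠ d ∧ x ≠ c ∧ x ∈ X := by
    intro x; rw [hX₀, Finset.mem_erase, Finset.mem_erase]
  have ha₀ : a ∈ X₀ := (hX₀m a).mpr ⟨had, hac, ha⟩
  have hb₀ : b ∈ X₀ := (hX₀m b).mpr ⟨hbd, hbc, hb⟩
  have hmem : ∀ x ∈ X, x = c ∨ x = d ∨ x ∈ X₀ := by
    intro x hx
    rw [hX₀m]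
    tauto
  have hc' : c ∈ X₀ᶜ := by
    rw [Finset.mem_compl, hX₀m]; tauto
  have hd' : d ∈ X₀ᶜ := by
    rw [Finset.mem_compl, hX₀m]; tauto
  have hcardc : X₀ᶜ.card - 2 = Fintype.card α - k := by
    rw [Finset.card_compl]; omega
  obtain ⟨T, hTdef⟩ : ∃ T : Finset (Perm α), T = Finset.univ.filter (fun t => (t ∈ G ∧ t a = b ∧ ∀ x ∈ X₀, x ≠ a → x ≠ b → t x = x) ∧ t * t = 1 ∧ (X₀ᶜ.filter fun x => t x = x).card = 2) := ⟨_, rfl⟩
  have hTm : ∀ t, t ∈ T ↔ (t ∈ G ∧ t a = b ∧ ∀ x ∈ X₀, x ≠ a → x ≠ b → t x = x) ∧ t * t = 1 ∧ (X₀ᶜ.filter fun x => t x = x).card = 2 := by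
    intro t; rw [hTdef, Finset.mem_filter]; simp
  have hpres : ∀ t : Perm α, t a = b → t b = a → (∀ x ∈ X₀, x ≠ a → x ≠ b → t x = x) → ∀ x ∈ X₀ᶜ, t x ∈ X₀ᶜ := by
    intro t h1 h2 h3 x hx
    rw [Finset.mem_compl] at hx ⊢
    intro h
    apply hx
    by_cases h4 : t x = a
    · rw [← h2] at h4
      rw [t.injective h4]; exact hb₀
    · by_cases h5 : t x = b
      · rw [← h1] at h5
        rw [t.injective h5]; exact ha₀
      · have h6 := h3 _ h h4 h5
        rw [← t.injective h6]; exact h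
  have hTb : ∀ t ∈ T, t b = a := by
    intro t ht
    rw [hTm] at ht
    have := invol_apply ht.2.1 a
    rw [ht.1.2.1] at this
    exact this
  have hcount := double_count (ptw G X₀) X₀ᶜ T (ptw_two_trans hT hX₀c) (by
      intro g hg t ht
      have htb := hTb t ht
      rw [hTm] at ht ⊢
      have hga : g a = a := hg.2 a ha₀
      have hgb : g b = b := hg.2 b hb₀
      have hginv : ∀ x ∈ X₀, g⁻¹ x = x := fun x hx => ((ptw G X₀).inv_mem hg).2 x hx
      refine ⟨⟨G.mul_mem (G.mul_mem hg.1 ht.1.1) (G.inv_mem hg.1), ?_, ?_⟩, ?_, ?_⟩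
      · rw [Perm.mul_apply, Perm.mul_apply, hginv a ha₀, ht.1.2.1, hgb]
      · intro x hx hxa hxb
        rw [Perm.mul_apply, Perm.mul_apply, hginv x hx, ht.1.2.2 x hx hxa hxb, hg.2 x hx]
      · have : g * t * g⁻¹ * (g * t * g⁻¹) = g * (t * t) * g⁻¹ := by group
        rw [this, ht.2.1]; group
      · rw [← ht.2.2]
        apply Finset.card_bij' (fun x _ => g⁻¹ x) (fun x _ => g x)
        · intro x hx
          rw [Finset.mem_filter] at hx ⊢
          refine ⟨ptw_apply_compl ((ptw G X₀).inv_mem hg) hx.1, ?_⟩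
          have := hx.2
          rw [Perm.mul_apply, Perm.mul_apply] at this
          rw [Perm.eq_inv_iff_eq]
          exact this
        · intro x hx
          rw [Finset.mem_filter] at hx ⊢
          refine ⟨ptw_apply_compl hg hx.1, ?_⟩
          have h9 : g⁻¹ (g x) = x := by simp
          rw [Perm.mul_apply, Perm.mul_apply, h9, hx.2]
        · intro x _; simp
        · intro x _; simp) (fun t ht => ((hTm t).mp ht).2.1) (fun t ht x hx => hpres t ((hTm t).mp ht).1.2.1 (hTb t ht) ((hTm t).mp ht).1.2.2 x hx)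
      (fun t ht => ((hTm t).mp ht).2.2) hc' hd' hcd
  rw [hcardc] at hcount
  -- P_fix ≥ 1
  have hP : ∃ t, t ∈ T.filter fun t => t c = c ∧ t d = d := by
    obtain ⟨t, ht, ht2, htX⟩ := exists_invol hT hX (hodd X hX) (swap a b) (swap_mul_self a b) (by
      intro x hx
      by_cases h1 : x = a
      · rw [h1, swap_apply_left]; exact hb
      · by_cases h2 : x = b
        · rw [h2, swap_apply_right]; exact ha
        · rw [swap_apply_of_ne_of_ne h1 h2]; exact hx)
    have hta : t a = b := by rw [htX a ha, swap_apply_left]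
    have htb : t b = a := by rw [htX b hb, swap_apply_right]
    have htc : t c = c := by rw [htX c hc, swap_apply_of_ne_of_ne hac.symm hbc.symm]
    have htd : t d = d := by rw [htX d hd, swap_apply_of_ne_of_ne had.symm hbd.symm]
    have htx : ∀ x ∈ X₀, x ≠ a → x ≠ b → t x = x := by
      intro x hx h1 h2
      rw [htX x ((hX₀m x).mp hx).2.2, swap_apply_of_ne_of_ne h1 h2]
    refine ⟨t, ?_⟩
    rw [Finset.mem_filter, hTm]
    refine ⟨⟨⟨ht, hta, htx⟩, ht2, ?_⟩, htc, htd⟩
    -- count fixed points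
    have hmod := card_fix_mod ht2 X₀ᶜ (hpres t hta htb htx)
    have hcomp : X₀ᶜ.card = Fintype.card α - k + 2 := by
      rw [Finset.card_compl]; omega
    have hge : 2 ≤ (X₀ᶜ.filter fun x => t x = x).card := by
      rw [← Finset.card_pair hcd]
      apply Finset.card_le_card
      intro x hx
      rw [Finset.mem_insert, Finset.mem_singleton] at hx
      rw [Finset.mem_filter]
      rcases hx with rfl | rfl
      · exact ⟨hc', htc⟩
      · exact ⟨hd', htd⟩
    by_contra hne
    obtain ⟨r, hr⟩ := hN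
    have h4 : 4 ≤ (X₀ᶜ.filter fun x => t x = x).card := by
      rw [hcomp] at hmod
      omega
    obtain ⟨Y, hY, hYc⟩ := Finset.exists_subset_card_eq h4
    have h5 : t = 1 := by
      have hZc : ((X₀.erase a).erase b ∪ Y).card = k := by
        rw [Finset.card_union_of_disjoint, Finset.card_erase_of_mem (Finset.mem_erase.mpr ⟨hab.symm, hb₀⟩),
          Finset.card_erase_of_mem ha₀, hYc]
        · have : 1 < X₀.card := Finset.one_lt_card.mpr ⟨a, ha₀, b, hb₀, hab⟩
          omega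
        · rw [Finset.disjoint_left]
          intro x hx hxY
          have h6 := hY hxY
          rw [Finset.mem_filter, Finset.mem_compl] at h6
          exact h6.1 (Finset.mem_of_mem_erase (Finset.mem_of_mem_erase hx))
      apply eq_one_of_odd (hodd _ hZc) ht ht2
      intro x hx
      rcases Finset.mem_union.mp hx with h6 | h6
      · rw [Finset.mem_erase, Finset.mem_erase] at h6
        exact htx x h6.2.2 h6.2.1 h6.1
      · exact (Finset.mem_filter.mp (hY h6)).2
    rw [h5] at hta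
    exact hab hta
  have h1 : 1 ≤ (T.filter fun t => t c = c ∧ t d = d).card := Finset.card_pos.mpr hP
  have h2 : (T.filter fun t => t c = d).card ≤ (dbl G X a b c d).card := by
    apply Finset.card_le_card
    intro t ht
    rw [Finset.mem_filter, hTm] at ht
    rw [mem_dbl]
    exact ⟨ht.1.1.1, ht.1.2.1, ht.1.1.2.1, ht.2, fun x hx h1 h2 h3 h4 => ht.1.1.2.2 x ((hX₀m x).mpr ⟨h4, h3, hx⟩) h1 h2⟩
  calc Fintype.card α - k ≤ (Fintype.card α - k) * (T.filter fun t => t c = c ∧ t d = d).card := Nat.le_mul_of_pos_right _ h1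
    _ = 2 * (T.filter fun t => t c = d).card := hcount.symm
    _ ≤ 2 * (dbl G X a b c d).card := by omega

theorem card_dbl_le {G : Subgroup (Perm α)} {X : Finset α} {a b c d : α} :
    (dbl G X a b c d).card ≤ Nat.card (fx G X) := by
  apply card_coset_le
  · intro t ht; exact (mem_dbl.mp ht).1
  · intro t ht s hs x hx
    rw [mem_dbl] at ht hs
    by_cases h1 : x = a
    · rw [h1, ht.2.2.1, hs.2.2.1]
    · by_cases h2 : x = b
      · have h4 := invol_apply ht.2.1 a
        have h5 := invol_apply hs.2.1 a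
        rw [ht.2.2.1] at h4
        rw [hs.2.2.1] at h5
        rw [h2, h4, h5]
      · by_cases h3 : x = c
        · rw [h3, ht.2.2.2.1, hs.2.2.2.1]
        · by_cases h6 : x = d
          · have h4 := invol_apply ht.2.1 c
            have h5 := invol_apply hs.2.1 c
            rw [ht.2.2.2.1] at h4
            rw [hs.2.2.2.1] at h5
            rw [h6, h4, h5]
          · rw [ht.2.2.2.2 x hx h1 h2 h3 h6, hs.2.2.2.2 x hx h1 h2 h3 h6]

end H16.LW
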