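import Mathlib
import Cfsg.Agent.Lib.H16.LW2

set_option autoImplicit false

/-! Livingstone–Wagner, part 3: the semiregular situation, conclusion. -/

namespace H16.LW

open Equiv MulAction

set_option linter.unusedSectionVars false

variable {α : Type*} [Fintype α] [DecidableEq α]

theorem orbit_subset_compl {G : Subgroup (Perm α)} {X : Finset α} {z : α} (hz : z ∉ X) :
    ∀ w ∈ orbit (fx G X) z, w ∉ X := by
  rintro w ⟨h, rfl⟩ hw
  apply hz
  have h1 : ((h : G) : Perm α) (((h : G) : Perm α) z) = ((h : G) : Perm α) z := mem_fx.mp h.2 _ hw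
  rw [← ((h : G) : Perm α).injective h1]
  exact hw

theorem pigeon {G : Subgroup (Perm α)} {k : ℕ} (hT : Tr G k) (hR : Reg G k) {X : Finset α} (hX : X.card = k)
    (hle : Fintype.card α - k ≤ 2 * Nat.card (fx G X)) {y : α} (hy : y ∉ X) : Good3 G (insert y X) := by
  classical
  intro a ha b hb c hc hab hbc hac
  obtain ⟨ρ, hρ⟩ : ∃ ρ : Perm α, ρ = swap a b * swap b c := ⟨_, rfl⟩
  have ρa : ρ a = b := by rw [hρ, Perm.mul_apply, swap_apply_of_ne_of_ne hab hac, swap_apply_left]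
  have ρb : ρ b = c := by rw [hρ, Perm.mul_apply, swap_apply_left, swap_apply_of_ne_of_ne hac.symm hbc.symm]
  have ρc : ρ c = a := by rw [hρ, Perm.mul_apply, swap_apply_right, swap_apply_right]
  have ρx : ∀ x, x ≠ a → x ≠ b → x ≠ c → ρ x = x := by
    intro x h1 h2 h3
    rw [hρ, Perm.mul_apply, swap_apply_of_ne_of_ne h2 h3, swap_apply_of_ne_of_ne h1 h2]
  have ρΔ : ∀ x ∈ insert y X, ρ x ∈ insert y X := by
    intro x hx
    by_cases h1 : x = a
    · rw [h1, ρa]; exact hb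
    · by_cases h2 : x = b
      · rw [h2, ρb]; exact hc
      · by_cases h3 : x = c
        · rw [h3, ρc]; exact ha
        · rw [ρx x h1 h2 h3]; exact hx
  have ρΔ' : ∀ z ∈ insert y X, ∃ x ∈ insert y X, ρ x = z := by
    intro z hz
    by_cases h1 : z = a
    · exact ⟨c, hc, by rw [h1, ρc]⟩
    · by_cases h2 : z = b
      · exact ⟨a, ha, by rw [h2, ρa]⟩
      · by_cases h3 : z = c
        · exact ⟨b, hb, by rw [h3, ρb]⟩
        · exact ⟨z, hz, ρx z h1 h2 h3⟩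
  have ρ3 : ∀ x, ρ (ρ (ρ x)) = x := by
    intro x
    by_cases h1 : x = a
    · rw [h1, ρa, ρb, ρc]
    · by_cases h2 : x = b
      · rw [h2, ρb, ρc, ρa]
      · by_cases h3 : x = c
        · rw [h3, ρc, ρa, ρb]
        · rw [ρx x h1 h2 h3, ρx x h1 h2 h3, ρx x h1 h2 h3]
  suffices hs : ∃ g ∈ G, ∀ x ∈ insert y X, g x = ρ x by
    obtain ⟨g, hg, hgx⟩ := hs
    exact ⟨g, hg, by rw [hgx a ha, ρa], by rw [hgx b hb, ρb], by rw [hgx c hc, ρc],
      fun x hx h1 h2 h3 => by rw [hgx x hx, ρx x h1 h2 h3]⟩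
  have L1 : ∀ σ τ gσ gτ : Perm α, gσ ∈ G → gτ ∈ G → (∀ x ∈ X, gσ x = σ x) → (∀ x ∈ X, gτ x = τ x) →
      gτ⁻¹ (τ y) ∈ orbit (fx G X) (gσ⁻¹ (σ y)) → ∃ g ∈ G, ∀ x ∈ insert y X, g (σ x) = τ x := by
    rintro σ τ gσ gτ hσ hτ h1 h2 ⟨h, hh⟩
    have hh' : ((h : G) : Perm α) (gσ⁻¹ (σ y)) = gτ⁻¹ (τ y) := hh
    refine ⟨gτ * ((h : G) : Perm α) * gσ⁻¹, G.mul_mem (G.mul_mem hτ (h : G).2) (G.inv_mem hσ), ?_⟩
    intro x hx
    rw [Perm.mul_apply, Perm.mul_apply]
    rcases Finset.mem_insert.mp hx with rfl | hx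
    · rw [hh']; simp
    · rw [← h1 x hx]
      have : gσ⁻¹ (gσ x) = x := by simp
      rw [this, mem_fx.mp h.2 x hx, h2 x hx]
  have hout : ∀ σ gσ : Perm α, (∀ x ∈ X, gσ x = σ x) → gσ⁻¹ (σ y) ∉ X := by
    intro σ gσ h1 h2
    have h3 := h1 _ h2
    have h4 : gσ (gσ⁻¹ (σ y)) = σ y := by simp
    rw [h4] at h3
    rw [← σ.injective h3] at h2
    exact hy h2
  obtain ⟨g0, hg0, hg0x⟩ := hT X hX 1
  obtain ⟨g1, hg1, hg1x⟩ := hT X hX ρ
  obtain ⟨g2, hg2, hg2x⟩ := hT X hX (ρ * ρ)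
  set O0 : Set α := orbit (fx G X) (g0⁻¹ ((1 : Perm α) y)) with hO0
  set O1 : Set α := orbit (fx G X) (g1⁻¹ (ρ y)) with hO1
  set O2 : Set α := orbit (fx G X) (g2⁻¹ ((ρ * ρ) y)) with hO2
  have hc0 : O0.ncard = Nat.card (fx G X) := by
    rw [← Nat.card_coe_set_eq]
    exact card_orbit_of_reg hR hX (hout _ _ hg0x)
  have hc1 : O1.ncard = Nat.card (fx G X) := by
    rw [← Nat.card_coe_set_eq]
    exact card_orbit_of_reg hR hX (hout _ _ hg1x)
  have hc2 : O2.ncard = Nat.card (fx G X) := by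
    rw [← Nat.card_coe_set_eq]
    exact card_orbit_of_reg hR hX (hout _ _ hg2x)
  have hpos : 0 < Nat.card (fx G X) := Nat.card_pos
  have hpig : O1 = O0 ∨ O2 = O0 ∨ O2 = O1 := by
    by_contra hcon
    push Not at hcon
    have d01 : Disjoint O1 O0 := by
      rcases orbit.eq_or_disjoint (G := fx G X) (g1⁻¹ (ρ y)) (g0⁻¹ ((1 : Perm α) y)) with h | h
      · exact absurd h hcon.1
      · exact h
    have d02 : Disjoint O2 O0 := by
      rcases orbit.eq_or_disjoint (G := fx G X) (g2⁻¹ ((ρ * ρ) y)) (g0⁻¹ ((1 : Perm α) y)) with h | h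
      · exact absurd h hcon.2.1
      · exact h
    have d12 : Disjoint O2 O1 := by
      rcases orbit.eq_or_disjoint (G := fx G X) (g2⁻¹ ((ρ * ρ) y)) (g1⁻¹ (ρ y)) with h | h
      · exact absurd h hcon.2.2
      · exact h
    have h1 : (O2 ∪ (O1 ∪ O0)).ncard = 3 * Nat.card (fx G X) := by
      rw [Set.ncard_union_eq (Set.disjoint_union_right.mpr ⟨d12, d02⟩) (Set.toFinite _) (Set.toFinite _),
        Set.ncard_union_eq d01 (Set.toFinite _) (Set.toFinite _), hc0, hc1, hc2]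
      ring
    have h2 : (O2 ∪ (O1 ∪ O0)).ncard ≤ ((Xᶜ : Finset α) : Set α).ncard := by
      apply Set.ncard_le_ncard _ (Set.toFinite _)
      rintro w (hw | hw | hw)
      · rw [Finset.mem_coe, Finset.mem_compl]; exact orbit_subset_compl (hout _ _ hg2x) w hw
      · rw [Finset.mem_coe, Finset.mem_compl]; exact orbit_subset_compl (hout _ _ hg1x) w hw
      · rw [Finset.mem_coe, Finset.mem_compl]; exact orbit_subset_compl (hout _ _ hg0x) w hw
    rw [h1, Set.ncard_coe_finset, Finset.card_compl, hX] at h2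
    omega
  rcases hpig with h | h | h
  · obtain ⟨g, hg, hgx⟩ := L1 1 ρ g0 g1 hg0 hg1 hg0x hg1x (by
      rw [← hO0, ← h]; exact mem_orbit_self _)
    exact ⟨g, hg, fun x hx => hgx x hx⟩
  · obtain ⟨g, hg, hgx⟩ := L1 1 (ρ * ρ) g0 g2 hg0 hg2 hg0x hg2x (by
      rw [← hO0, ← h]; exact mem_orbit_self _)
    refine ⟨g * g, G.mul_mem hg hg, fun x hx => ?_⟩
    have h1 : g x = ρ (ρ x) := hgx x hx
    have h2 : g (ρ (ρ x)) = ρ (ρ (ρ (ρ x))) := hgx _ (ρΔ _ (ρΔ _ hx))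
    rw [Perm.mul_apply, h1, h2, ρ3]
  · obtain ⟨g, hg, hgx⟩ := L1 ρ (ρ * ρ) g1 g2 hg1 hg2 hg1x hg2x (by
      rw [← hO1, ← h]; exact mem_orbit_self _)
    refine ⟨g, hg, fun z hz => ?_⟩
    obtain ⟨x, hx, rfl⟩ := ρΔ' z hz
    exact hgx x hx

/-! ### odd case -/

/-- `G` induces the transposition `(a b)` on `Δ` -/
def Sw (G : Subgroup (Perm α)) (Δ : Finset α) (a b : α) : Prop :=
  ∃ t ∈ G, t a = b ∧ t b = a ∧ ∀ x ∈ Δ, x ≠ a → x ≠ b → t x = x

/-- conjugating two involutions in the same coset of an odd order group -/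
theorem conj_in_coset {G : Subgroup (Perm α)} {X : Finset α} (hodd : Odd (Nat.card (fx G X))) {t t' : Perm α}
    (ht : t ∈ G) (ht' : t' ∈ G) (h2 : t * t = 1) (h2' : t' * t' = 1) (hX : ∀ x ∈ X, t' (t x) = x) :
    ∃ w ∈ ptw G X, w * t * w⁻¹ = t' := by
  obtain ⟨r, hr⟩ := hodd
  obtain ⟨y, hy⟩ : ∃ y, y = t' * t := ⟨_, rfl⟩
  have hyG : y ∈ ptw G X := ⟨by rw [hy]; exact G.mul_mem ht' ht, fun x hx => by rw [hy, Perm.mul_apply]; exact hX x hx⟩
  have hyn : y ^ (2 * r + 1) = 1 := by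
    rw [← hr]; exact pow_card_fx hyG.1 hyG.2
  have htinv : t⁻¹ = t := inv_eq_of_mul_eq_one_right h2
  have htinv' : t'⁻¹ = t' := inv_eq_of_mul_eq_one_right h2'
  have h3 : t * y * t⁻¹ = y⁻¹ := by
    rw [hy, mul_inv_rev, htinv, htinv', mul_assoc, mul_assoc, h2, mul_one]
  refine ⟨y ^ (r + 1), (ptw G X).pow_mem hyG _, ?_⟩
  have h4 : t * y ^ (r + 1) * t⁻¹ = (y ^ (r + 1))⁻¹ := by
    rw [← conj_pow, h3, inv_pow]
  have h5 : y ^ (r + 1) * t * (y ^ (r + 1))⁻¹ = y ^ (2 * r + 1) * (y * t) := by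
    rw [← h4]
    have : y ^ (r + 1) * t * (t * y ^ (r + 1) * t⁻¹) = y ^ (r + 1) * (t * t) * y ^ (r + 1) * t⁻¹ := by group
    rw [this, h2, mul_one, ← pow_add, htinv, ← mul_assoc, ← pow_succ]
    congr 2
    omega
  rw [h5, hyn, one_mul, hy, mul_assoc, h2, mul_one]

theorem sw_step {G : Subgroup (Perm α)} {k : ℕ} (hT : Tr G k) (hR : Reg G k) (hk : 4 ≤ k)
    (hodd : ∀ X : Finset α, X.card = k → Odd (Nat.card (fx G X))) {Δ : Finset α} (hΔ : Δ.card = k + 1)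
    {a b c e : α} (ha : a ∈ Δ) (hb : b ∈ Δ) (hc : c ∈ Δ) (he : e ∈ Δ) (hab : a ≠ b) (hce : c ≠ e)
    (hca : c ≠ a) (hcb : c ≠ b) (hea : e ≠ a) (heb : e ≠ b) (h : Sw G Δ a b) : Sw G Δ c e := by
  classical
  obtain ⟨t, ht, hta, htb, htx⟩ := h
  have htΔ : ∀ x ∈ Δ, t x ∈ Δ ∧ t (t x) = x := by
    intro x hx
    by_cases h1 : x = a
    · rw [h1, hta]; exact ⟨hb, htb⟩
    · by_cases h2 : x = b
      · rw [h2, htb]; exact ⟨ha, hta⟩
      · rw [htx x hx h1 h2]; exact ⟨hx, htx x hx h1 h2⟩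
  have ht2 : t * t = 1 := hR _ (G.mul_mem ht ht) Δ hΔ (fun x hx => (htΔ x hx).2)
  -- fixed points of t lie in Δ
  have hfix : ∀ u, t u = u → u ∈ Δ := by
    intro u hu
    by_contra huΔ
    have hc1 : (insert u ((Δ.erase a).erase b)).card = k := by
      rw [Finset.card_insert_of_notMem, Finset.card_erase_of_mem (Finset.mem_erase.mpr ⟨hab.symm, hb⟩),
        Finset.card_erase_of_mem ha]
      · omega
      · intro h
        exact huΔ (Finset.mem_of_mem_erase (Finset.mem_of_mem_erase h))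
    have h1 : t = 1 := by
      apply eq_one_of_odd (hodd _ hc1) ht ht2
      intro x hx
      rcases Finset.mem_insert.mp hx with rfl | hx
      · exact hu
      · rw [Finset.mem_erase, Finset.mem_erase] at hx
        exact htx x hx.2.2 hx.2.1 hx.1
    rw [h1] at hta
    exact hab hta
  -- choose z
  obtain ⟨z, hz, hzn⟩ : ∃ z ∈ Δ, z ∉ ({a, b, c, e} : Finset α) := by
    apply Finset.exists_mem_notMem_of_card_lt_card
    refine lt_of_le_of_lt Finset.card_le_four ?_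
    omega
  simp only [Finset.mem_insert, Finset.mem_singleton, not_or] at hzn
  obtain ⟨hza, hzb, hzc, hze⟩ := hzn
  replace hza : z ≠ a := hza
  replace hzb : z ≠ b := hzb
  replace hzc : z ≠ c := hzc
  replace hze : z ≠ e := hze
  have hXc : (Δ.erase z).card = k := by rw [Finset.card_erase_of_mem hz, hΔ]; omega
  obtain ⟨s0, hs0, hs0x⟩ := hT (Δ.erase z) hXc (swap c e)
  have hs0c : s0 c = e := by rw [hs0x c (Finset.mem_erase.mpr ⟨hzc.symm, hc⟩), swap_apply_left]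
  have hs0e : s0 e = c := by rw [hs0x e (Finset.mem_erase.mpr ⟨hze.symm, he⟩), swap_apply_right]
  have hs0o : ∀ x ∈ Δ, x ≠ z → x ≠ c → x ≠ e → s0 x = x := by
    intro x hx h1 h2 h3
    rw [hs0x x (Finset.mem_erase.mpr ⟨h1, hx⟩), swap_apply_of_ne_of_ne h2 h3]
  have hs0i : ∀ x ∈ Δ, x ≠ z → s0⁻¹ x = swap c e x := by
    intro x hx h1
    rw [Perm.inv_eq_iff_eq]
    by_cases h2 : x = c
    · rw [h2, swap_apply_left, hs0e]
    · by_cases h3 : x = e
      · rw [h3, swap_apply_right, hs0c]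
      · rw [swap_apply_of_ne_of_ne h2 h3, hs0o x hx h1 h2 h3]
  -- t' = s0 t s0⁻¹
  obtain ⟨t', ht'⟩ : ∃ t', t' = s0 * t * s0⁻¹ := ⟨_, rfl⟩
  have ht'G : t' ∈ G := by rw [ht']; exact G.mul_mem (G.mul_mem hs0 ht) (G.inv_mem hs0)
  have ht'2 : t' * t' = 1 := by
    rw [ht']
    have : s0 * t * s0⁻¹ * (s0 * t * s0⁻¹) = s0 * (t * t) * s0⁻¹ := by group
    rw [this, ht2]; group
  have hact : ∀ x ∈ Δ.erase z, t' (t x) = x := by
    intro x hx
    rw [Finset.mem_erase] at hx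
    rw [ht', Perm.mul_apply, Perm.mul_apply]
    by_cases h1 : x = a
    · rw [h1, hta, hs0i b hb hzb.symm, swap_apply_of_ne_of_ne hcb.symm heb.symm, htb, hs0o a ha hza.symm hca.symm hea.symm]
    · by_cases h2 : x = b
      · rw [h2, htb, hs0i a ha hza.symm, swap_apply_of_ne_of_ne hca.symm hea.symm, hta, hs0o b hb hzb.symm hcb.symm heb.symm]
      · rw [htx x hx.2 h1 h2, hs0i x hx.2 hx.1]
        by_cases h3 : x = c
        · rw [h3, swap_apply_left, htx e he hea heb, hs0e]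
        · by_cases h4 : x = e
          · rw [h4, swap_apply_right, htx c hc hca hcb, hs0c]
          · rw [swap_apply_of_ne_of_ne h3 h4, htx x hx.2 h1 h2, hs0o x hx.2 hx.1 h3 h4]
  obtain ⟨w, hw, hwt⟩ := conj_in_coset (hodd _ hXc) ht ht'G ht2 ht'2 hact
  -- s1 = w⁻¹ s0
  have hwi : ∀ x ∈ Δ, x ≠ z → w⁻¹ x = x := fun x hx h1 => ((ptw G _).inv_mem hw).2 x (Finset.mem_erase.mpr ⟨h1, hx⟩)
  obtain ⟨s1, hs1⟩ : ∃ s1, s1 = w⁻¹ * s0 := ⟨_, rfl⟩
  have hs1G : s1 ∈ G := by rw [hs1]; exact G.mul_mem (G.inv_mem hw.1) hs0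
  have hcomm : s1 * t = t * s1 := by
    have h1 : w * t = t' * w := by rw [← hwt]; group
    have h2 : t' * s0 = s0 * t := by rw [ht']; group
    rw [hs1]
    have h3 : w⁻¹ * s0 * t = w⁻¹ * (t' * s0) := by rw [h2]; group
    have h4 : w⁻¹ * t' = t * w⁻¹ := by
      rw [inv_mul_eq_iff_eq_mul, ← mul_assoc, h1]; group
    rw [h3, ← mul_assoc, h4]; group
  have hs1c : s1 c = e := by rw [hs1, Perm.mul_apply, hs0c, hwi e he hze.symm]
  have hs1e : s1 e = c := by rw [hs1, Perm.mul_apply, hs0e, hwi c hc hzc.symm]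
  have hs1o : ∀ x ∈ Δ, x ≠ z → x ≠ c → x ≠ e → s1 x = x := by
    intro x hx h1 h2 h3
    rw [hs1, Perm.mul_apply, hs0o x hx h1 h2 h3, hwi x hx h1]
  have hs1z : s1 z = z := by
    have h1 : t (s1 z) = s1 z := by
      rw [← Perm.mul_apply, ← hcomm, Perm.mul_apply, htx z hz hza hzb]
    have h2 := hfix _ h1
    by_contra h3
    -- s1 z ∈ Δ \ {z}
    by_cases h4 : s1 z = c
    · rw [← hs1e] at h4
      exact hze (s1.injective h4)
    · by_cases h5 : s1 z = e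
      · rw [← hs1c] at h5
        exact hzc (s1.injective h5)
      · have h6 := hs1o _ h2 h3 h4 h5
        exact h3 (s1.injective h6)
  refine ⟨s1, hs1G, hs1c, hs1e, fun x hx h1 h2 => ?_⟩
  by_cases h3 : x = z
  · rw [h3]; exact hs1z
  · exact hs1o x hx h3 h1 h2

theorem good3_of_odd {G : Subgroup (Perm α)} {k : ℕ} (hT : Tr G k) (hR : Reg G k) (hk : 4 ≤ k) (hkn : k < Fintype.card α)
    (hN : Odd (Fintype.card α - k)) : ∃ Δ : Finset α, Δ.card = k + 1 ∧ Good3 G Δ := by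
  classical
  have hodd : ∀ X : Finset α, X.card = k → Odd (Nat.card (fx G X)) := fun X hX =>
    Odd.of_dvd_nat hN (dvd_of_reg hR hX)
  obtain ⟨X, hX⟩ := Finset.exists_subset_card_eq (s := (Finset.univ : Finset α)) (n := k) (by rw [Finset.card_univ]; omega)
  replace hX := hX.2
  obtain ⟨a, ha, b, hb, hab⟩ := Finset.one_lt_card.mp (show 1 < X.card by omega)
  have hsw : ∀ x ∈ X, swap a b x ∈ X := by
    intro x hx
    by_cases h1 : x = a
    · rw [h1, swap_apply_left]; exact hb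
    · by_cases h2 : x = b
      · rw [h2, swap_apply_right]; exact ha
      · rw [swap_apply_of_ne_of_ne h1 h2]; exact hx
  obtain ⟨t, ht, ht2, htX⟩ := exists_invol hT hX (hodd X hX) (swap a b) (swap_mul_self a b) hsw
  -- a fixed point outside X
  have htc : ∀ x ∈ Xᶜ, t x ∈ Xᶜ := by
    intro x hx
    rw [Finset.mem_compl] at hx ⊢
    intro h
    apply hx
    have h1 := htX _ h
    rw [invol_apply ht2] at h1
    rw [h1]
    exact hsw _ h
  have hmod := card_fix_mod ht2 Xᶜ htc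
  rw [Finset.card_compl, hX] at hmod
  obtain ⟨r, hr⟩ := hN
  have hpos : 0 < (Xᶜ.filter fun x => t x = x).card := by omega
  obtain ⟨u, hu⟩ := Finset.card_pos.mp hpos
  rw [Finset.mem_filter, Finset.mem_compl] at hu
  have hΔ : (insert u X).card = k + 1 := by rw [Finset.card_insert_of_notMem hu.1, hX]
  refine ⟨insert u X, hΔ, ?_⟩
  have hS0 : Sw G (insert u X) a b := by
    refine ⟨t, ht, by rw [htX a ha, swap_apply_left], by rw [htX b hb, swap_apply_right], ?_⟩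
    intro x hx h1 h2
    rcases Finset.mem_insert.mp hx with rfl | hx
    · exact hu.2
    · rw [htX x hx, swap_apply_of_ne_of_ne h1 h2]
  have haΔ : a ∈ insert u X := Finset.mem_insert_of_mem ha
  have hbΔ : b ∈ insert u X := Finset.mem_insert_of_mem hb
  obtain ⟨Δ, hΔdef⟩ : ∃ Δ, Δ = insert u X := ⟨_, rfl⟩
  rw [← hΔdef] at hΔ hS0 haΔ hbΔ ⊢
  -- all transpositions
  have hex : ∀ x y z : α, ∃ d ∈ Δ, ∃ e ∈ Δ, d ≠ e ∧ d ≠ x ∧ d ≠ y ∧ d ≠ z ∧ e ≠ x ∧ e ≠ y ∧ e ≠ z := by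
    intro x y z
    have h1 : 1 < (Δ \ {x, y, z}).card := by
      have h2 := Finset.le_card_sdiff ({x, y, z} : Finset α) Δ
      have h3 : ({x, y, z} : Finset α).card ≤ 3 := Finset.card_le_three
      omega
    obtain ⟨d, hd, e, he, hde⟩ := Finset.one_lt_card.mp h1
    simp only [Finset.mem_sdiff, Finset.mem_insert, Finset.mem_singleton, not_or] at hd he
    exact ⟨d, hd.1, e, he.1, hde, hd.2.1, hd.2.2.1, hd.2.2.2, he.2.1, he.2.2.1, he.2.2.2⟩
  have hstep := fun {a b c e : α} (ha : a ∈ Δ) (hb : b ∈ Δ) (hc : c ∈ Δ) (he : e ∈ Δ) (hab : a ≠ b) (hce : c ≠ e)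
    (hca : c ≠ a) (hcb : c ≠ b) (hea : e ≠ a) (heb : e ≠ b) (h : Sw G Δ a b) =>
    sw_step hT hR hk hodd hΔ ha hb hc he hab hce hca hcb hea heb h
  have sym : ∀ {x y : α}, Sw G Δ x y → Sw G Δ y x := by
    rintro x y ⟨t, h1, h2, h3, h4⟩
    exact ⟨t, h1, h3, h2, fun z hz h5 h6 => h4 z hz h6 h5⟩
  -- all pairs containing a
  have hA : ∀ c ∈ Δ, c ≠ a → c ≠ b → Sw G Δ a c := by
    intro c hc hca hcb
    obtain ⟨d, hd, e, he, hde, h1, h2, h3, h4, h5, h6⟩ := hex a b c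
    have h7 := hstep haΔ hbΔ hd he hab hde h1 h2 h4 h5 hS0
    exact hstep hd he haΔ hc hde hca.symm h1.symm h4.symm h3.symm h6.symm h7
  have hB : ∀ c ∈ Δ, c ≠ a → c ≠ b → Sw G Δ b c := by
    intro c hc hca hcb
    obtain ⟨d, hd, e, he, hde, h1, h2, h3, h4, h5, h6⟩ := hex a b c
    have h7 := hstep haΔ hbΔ hd he hab hde h1 h2 h4 h5 hS0
    exact hstep hd he hbΔ hc hde hcb.symm h2.symm h5.symm h3.symm h6.symm h7
  have hall : ∀ x ∈ Δ, ∀ y ∈ Δ, x ≠ y → Sw G Δ x y := by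
    intro x hx y hy hxy
    by_cases h1 : x = a
    · by_cases h2 : y = b
      · rw [h1, h2]; exact hS0
      · rw [h1]; exact hA y hy (by rw [← h1]; exact hxy.symm) h2
    · by_cases h2 : x = b
      · by_cases h3 : y = a
        · rw [h2, h3]; exact sym hS0
        · rw [h2]; exact hB y hy h3 (by rw [← h2]; exact hxy.symm)
      · by_cases h3 : y = a
        · rw [h3]; exact sym (hA x hx h1 h2)
        · by_cases h4 : y = b
          · rw [h4]; exact sym (hB x hx h1 h2)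
          · exact hstep haΔ hbΔ hx hy hab hxy h1 h2 h3 h4 hS0
  intro x hx y hy z hz hxy hyz hxz
  obtain ⟨s, hs, hs1, hs2, hs3⟩ := hall x hx y hy hxy
  obtain ⟨t, ht, ht1, ht2, ht3⟩ := hall y hy z hz hyz
  refine ⟨s * t, G.mul_mem hs ht, ?_, ?_, ?_, ?_⟩
  · rw [Perm.mul_apply, ht3 x hx hxy hxz, hs1]
  · rw [Perm.mul_apply, ht1, hs3 z hz hxz.symm hyz.symm]
  · rw [Perm.mul_apply, ht2, hs2]
  · intro w hw h1 h2 h3
    rw [Perm.mul_apply, ht3 w hw h2 h3, hs3 w hw h1 h2]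

theorem good3_of_reg {G : Subgroup (Perm α)} {k : ℕ} (hT : Tr G k) (hR : Reg G k) (hk : 4 ≤ k) (hkn : k < Fintype.card α) :
    ∃ Δ : Finset α, Δ.card = k + 1 ∧ Good3 G Δ := by
  classical
  rcases Nat.even_or_odd (Fintype.card α - k) with hN | hN
  · obtain ⟨X, hX⟩ := Finset.exists_subset_card_eq (s := (Finset.univ : Finset α)) (n := k) (by rw [Finset.card_univ]; omega)
    replace hX := hX.2
    have hle : Fintype.card α - k ≤ 2 * Nat.card (fx G X) := by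
      rcases Nat.even_or_odd (Nat.card (fx G X)) with he | ho
      · exact le_two_mul_of_even hT hR (by omega) hX he
      · obtain ⟨Y, hYX, hY⟩ := Finset.exists_subset_card_eq (s := X) (n := 4) (by omega)
        obtain ⟨a, b, c, d, hab, hac, had, hbc, hbd, hcd, hYe⟩ := Finset.card_eq_four.mp hY
        subst hYe
        refine (le_two_mul_of_odd hT (fun Z hZ => by rw [card_fx_eq hT hZ hX]; exact ho) hkn.le hN hX
          (hYX (by simp)) (hYX (by simp)) (hYX (by simp)) (hYX (by simp)) hab hac had hbc hbd hcd).trans ?_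
        exact Nat.mul_le_mul_left 2 card_dbl_le
    obtain ⟨y, hy⟩ : ∃ y, y ∉ X := by
      by_contra h
      push Not at h
      have : X = Finset.univ := Finset.eq_univ_iff_forall.mpr h
      rw [this, Finset.card_univ] at hX
      omega
    exact ⟨insert y X, by rw [Finset.card_insert_of_notMem hy, hX], pigeon hT hR hX hle hy⟩
  · exact good3_of_odd hT hR hk hkn hN

end H16.LW
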