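import Mathlib
import Cfsg.Agent.Lib.H16.LW3
import Cfsg.Agent.S0743

set_option autoImplicit false

/-! Livingstone–Wagner, part 4: reduction to the semiregular situation. -/

namespace H16.LW

open Equiv MulAction

set_option linter.unusedSectionVars false

variable {α : Type*} [Fintype α] [DecidableEq α]

theorem card_ptw (G : Subgroup (Perm α)) (Z : Finset α) : Nat.card (ptw G Z) = Nat.card (fx G Z) :=
  Nat.card_congr
    { toFun := fun g => ⟨⟨g.1, g.2.1⟩, mem_fx.mpr g.2.2⟩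
      invFun := fun g => ⟨((g : G) : Perm α), (g : G).2, mem_fx.mp g.2⟩
      left_inv := fun _ => rfl
      right_inv := fun _ => rfl }

/-- the group induced on an invariant finset -/
def ind (N : Subgroup (Perm α)) (Γ : Finset α) : Subgroup (Perm ↥Γ) where
  carrier := {τ | ∃ g ∈ N, ∀ x : ↥Γ, g (x : α) = τ x}
  mul_mem' := by
    rintro a b ⟨g, hg, hga⟩ ⟨h, hh, hhb⟩
    exact ⟨g * h, N.mul_mem hg hh, fun x => by rw [Perm.mul_apply, hhb, hga]; rfl⟩
  one_mem' := ⟨1, N.one_mem, fun _ => rfl⟩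
  inv_mem' := by
    rintro a ⟨g, hg, hga⟩
    refine ⟨g⁻¹, N.inv_mem hg, fun x => ?_⟩
    rw [Perm.inv_eq_iff_eq, hga]
    simp

theorem mem_ind {N : Subgroup (Perm α)} {Γ : Finset α} {τ : Perm ↥Γ} : τ ∈ ind N Γ ↔ ∃ g ∈ N, ∀ x : ↥Γ, g (x : α) = τ x := Iff.rfl

theorem good3_of_ind {G N : Subgroup (Perm α)} (hNG : N ≤ G) {Γ : Finset α} {Δ : Finset ↥Γ} (h : Good3 (ind N Γ) Δ) :
    Good3 G (Δ.map (Function.Embedding.subtype _)) := by
  intro a ha b hb c hc hab hbc hac
  rw [Finset.mem_map] at ha hb hc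
  obtain ⟨a, ha, rfl⟩ := ha
  obtain ⟨b, hb, rfl⟩ := hb
  obtain ⟨c, hc, rfl⟩ := hc
  obtain ⟨τ, ⟨g, hg, hgτ⟩, h1, h2, h3, h4⟩ := h a ha b hb c hc (fun h => hab (h ▸ rfl)) (fun h => hbc (h ▸ rfl)) (fun h => hac (h ▸ rfl))
  refine ⟨g, hNG hg, (hgτ a).trans (congrArg Subtype.val h1), (hgτ b).trans (congrArg Subtype.val h2),
    (hgτ c).trans (congrArg Subtype.val h3), ?_⟩
  intro x hx hxa hxb hxc
  rw [Finset.mem_map] at hx
  obtain ⟨x, hx, rfl⟩ := hx
  exact (hgτ x).trans (congrArg Subtype.val (h4 x hx (fun h => hxa (h ▸ rfl)) (fun h => hxb (h ▸ rfl)) (fun h => hxc (h ▸ rfl))))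

/-- fixed points of a subgroup as a finset -/
noncomputable def fixF (U : Subgroup (Perm α)) : Finset α := by
  classical
  exact Finset.univ.filter fun x => ∀ u ∈ U, u x = x

theorem mem_fixF {U : Subgroup (Perm α)} {x : α} : x ∈ fixF U ↔ ∀ u ∈ U, u x = x := by
  classical
  rw [fixF, Finset.mem_filter]
  simp

/-- elements of `G` normalising `U` -/
def nrm (G U : Subgroup (Perm α)) : Subgroup (Perm α) where
  carrier := {g | g ∈ G ∧ ∀ u, u ∈ U ↔ g * u * g⁻¹ ∈ U}
  mul_mem' := by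
    rintro a b ⟨ha, ha'⟩ ⟨hb, hb'⟩
    refine ⟨G.mul_mem ha hb, fun u => ?_⟩
    rw [hb', ha']
    have : a * (b * u * b⁻¹) * a⁻¹ = a * b * u * (a * b)⁻¹ := by group
    rw [this]
  one_mem' := ⟨G.one_mem, fun u => by simp⟩
  inv_mem' := by
    rintro a ⟨ha, ha'⟩
    refine ⟨G.inv_mem ha, fun u => ?_⟩
    rw [ha' (a⁻¹ * u * a⁻¹⁻¹)]
    have : a * (a⁻¹ * u * a⁻¹⁻¹) * a⁻¹ = u := by group
    rw [this]

theorem mem_nrm {G U : Subgroup (Perm α)} {g : Perm α} : g ∈ nrm G U ↔ g ∈ G ∧ ∀ u, u ∈ U ↔ g * u * g⁻¹ ∈ U := Iff.rfl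

theorem nrm_le {G U : Subgroup (Perm α)} : nrm G U ≤ G := fun _ hg => hg.1

/-- from conjugation into `U` to normalising, by finiteness -/
theorem mem_nrm_of {G U : Subgroup (Perm α)} {g : Perm α} (hg : g ∈ G) (h : ∀ u ∈ U, g * u * g⁻¹ ∈ U) : g ∈ nrm G U := by
  classical
  refine ⟨hg, fun u => ⟨h u, fun hu => ?_⟩⟩
  let f : U → U := fun v => ⟨g * v * g⁻¹, h v v.2⟩
  have hf : Function.Injective f := by
    intro a b hab
    have h1 : g * (a : Perm α) * g⁻¹ = g * (b : Perm α) * g⁻¹ := congrArg Subtype.val hab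
    exact Subtype.ext (mul_left_cancel (mul_right_cancel h1))
  have hs : Function.Surjective f := Finite.injective_iff_surjective.mp hf
  obtain ⟨v, hv⟩ := hs ⟨_, hu⟩
  have h1 : g * (v : Perm α) * g⁻¹ = g * u * g⁻¹ := congrArg Subtype.val hv
  rw [← mul_left_cancel (mul_right_cancel h1)]
  exact v.2

theorem nrm_fixF {G U : Subgroup (Perm α)} {g : Perm α} (hg : g ∈ nrm G U) {x : α} (hx : x ∈ fixF U) : g x ∈ fixF U := by
  rw [mem_fixF] at hx ⊢
  intro u hu
  have h1 := ((nrm G U).inv_mem hg).2 u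
  rw [inv_inv] at h1
  have h2 := hx _ (h1.mp hu)
  rw [Perm.mul_apply, Perm.mul_apply, Perm.inv_eq_iff_eq] at h2
  exact h2

theorem good3_main : ∀ n : ℕ, ∀ {α : Type*} [Fintype α] [DecidableEq α], Fintype.card α = n → ∀ (G : Subgroup (Perm α)) (k : ℕ),
    4 ≤ k → k < n → Tr G k → ∃ Δ : Finset α, Δ.card = k + 1 ∧ Good3 G Δ := by
  intro n
  induction n using Nat.strong_induction_on with
  | _ n ih =>
  intro α _ _ hα G k hk hkn hT
  classical
  by_cases hR : Reg G k
  · exact good3_of_reg hT hR hk (by omega)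
  unfold Reg at hR
  push Not at hR
  obtain ⟨g, hg, Y, hY, hgY, hg1⟩ := hR
  have hord : orderOf g ≠ 1 := by rwa [Ne, orderOf_eq_one_iff]
  obtain ⟨p, hp, hpd⟩ := Nat.exists_prime_and_dvd hord
  have : Fact p.Prime := ⟨hp⟩
  -- the family of p-subgroups fixing k+1 points
  let 𝒰 : Set (Subgroup (Perm α)) := {U | U ≤ G ∧ IsPGroup p U ∧ ∃ Y : Finset α, Y.card = k + 1 ∧ ∀ u ∈ U, ∀ y ∈ Y, u y = y}
  obtain ⟨g', hg'o, hg'z⟩ : ∃ g', orderOf g' = p ∧ g' ∈ Subgroup.zpowers g := by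
    refine ⟨g ^ (orderOf g / p), ?_, Subgroup.npow_mem_zpowers g _⟩
    exact orderOf_pow_orderOf_div (orderOf_pos g).ne' hpd
  have hU0 : Subgroup.zpowers g' ∈ 𝒰 := by
    refine ⟨?_, ?_, Y, hY, ?_⟩
    · exact (Subgroup.zpowers_le.mpr hg'z).trans (Subgroup.zpowers_le.mpr hg)
    · exact IsPGroup.of_card (n := 1) (by rw [Nat.card_zpowers, hg'o, pow_one])
    · intro u hu y hy
      have hu' : u ∈ Subgroup.zpowers g := (Subgroup.zpowers_le.mpr hg'z) hu
      obtain ⟨j, rfl⟩ := Subgroup.mem_zpowers_iff.mp hu'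
      exact Perm.zpow_apply_eq_self_of_apply_eq_self (hgY y hy) j
  obtain ⟨U, ⟨hUG, hUp, Y', hY', hUY'⟩, hUmax⟩ := Set.exists_max_image 𝒰 (fun U => Nat.card U) (Set.toFinite _) ⟨_, hU0⟩
  have hUcard : p ≤ Nat.card U := by
    have := hUmax _ hU0
    simp only [Nat.card_zpowers, hg'o] at this
    exact this
  -- Γ
  obtain ⟨Γ, hΓ⟩ : ∃ Γ, Γ = fixF U := ⟨_, rfl⟩
  have hΓm : ∀ x, x ∈ Γ ↔ ∀ u ∈ U, u x = x := fun x => by rw [hΓ, mem_fixF]
  have hYΓ : Y' ⊆ Γ := by
    intro y hy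
    rw [hΓm]
    exact fun u hu => hUY' u hu y hy
  have hΓk : k + 1 ≤ Γ.card := by rw [← hY']; exact Finset.card_le_card hYΓ
  have hΓn : Γ.card < n := by
    rw [← hα, ← Finset.card_univ]
    apply Finset.card_lt_card
    rw [Finset.ssubset_univ_iff]
    intro h
    have h1 : U = ⊥ := by
      rw [eq_bot_iff]
      intro u hu
      rw [Subgroup.mem_bot]
      ext x
      have h2 : x ∈ Γ := by rw [h]; exact Finset.mem_univ _
      exact (hΓm x).mp h2 u hu
    rw [h1, Subgroup.card_bot] at hUcard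
    have := hp.two_le
    omega
  -- key: transitivity on Γ
  suffices hmain : IsMultiplyPretransitive (ind (nrm G U) Γ) ↥Γ k by
    obtain ⟨Δ, hΔ, hgood⟩ := ih Γ.card hΓn (α := ↥Γ) (Fintype.card_coe Γ) (ind (nrm G U) Γ) k hk (by omega) (tr_of_multi hmain)
    exact ⟨Δ.map (Function.Embedding.subtype _), by rw [Finset.card_map, hΔ], good3_of_ind nrm_le hgood⟩
  obtain ⟨m, hm⟩ := IsPGroup.iff_card.mp hUp
  by_cases hmv : ∀ Z : Finset α, Z.card = k → m = (Nat.card (ptw G Z)).factorization p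
  · -- Sylow case
    apply multi_of_tr
    intro X hX σ
    obtain ⟨g0, hg0, hg0x⟩ := hT (X.map (Function.Embedding.subtype _)) (by rw [Finset.card_map, hX]) (Perm.ofSubtype σ)
    have hg0x' : ∀ x : ↥Γ, x ∈ X → g0 (x : α) = σ x := by
      intro x hx
      rw [hg0x (x : α) (Finset.mem_map_of_mem _ hx)]
      exact Perm.ofSubtype_apply_coe σ x
    obtain ⟨Z, hZ⟩ : ∃ Z : Finset α, Z = (X.map σ.toEmbedding).map (Function.Embedding.subtype _) := ⟨_, rfl⟩
    have hZc : Z.card = k := by rw [hZ, Finset.card_map, Finset.card_map, hX]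
    have hZm : ∀ z ∈ Z, ∃ x : ↥Γ, x ∈ X ∧ (σ x : α) = z := by
      intro z hz
      rw [hZ, Finset.mem_map] at hz
      obtain ⟨w, hw, rfl⟩ := hz
      rw [Finset.mem_map] at hw
      obtain ⟨x, hx, rfl⟩ := hw
      exact ⟨x, hx, rfl⟩
    have hUfix : ∀ u ∈ U, ∀ x : ↥Γ, u (x : α) = x := fun u hu x => (hΓm x).mp x.2 u hu
    have hUK : U ≤ ptw G Z := by
      intro u hu
      refine ⟨hUG hu, fun z hz => ?_⟩
      obtain ⟨x, -, rfl⟩ := hZm z hz
      exact hUfix u hu _
    have hU'K : U.map (MulAut.conj g0).toMonoidHom ≤ ptw G Z := by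
      rintro _ ⟨u, hu, rfl⟩
      refine ⟨G.mul_mem (G.mul_mem hg0 (hUG hu)) (G.inv_mem hg0), fun z hz => ?_⟩
      obtain ⟨x, hx, rfl⟩ := hZm z hz
      change g0 (u (g0⁻¹ (σ x : α))) = _
      rw [← hg0x' x hx]
      have : g0⁻¹ (g0 (x : α)) = x := by simp
      rw [this, hUfix u hu]
    have hc1 : Nat.card (U.subgroupOf (ptw G Z)) = p ^ (Nat.card (ptw G Z)).factorization p := by
      rw [← hmv Z hZc, ← hm]
      exact Nat.card_congr (Subgroup.subgroupOfEquivOfLe hUK).toEquiv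
    have hc2 : Nat.card ((U.map (MulAut.conj g0).toMonoidHom).subgroupOf (ptw G Z)) = p ^ (Nat.card (ptw G Z)).factorization p := by
      rw [← hmv Z hZc, ← hm, Nat.card_congr (Subgroup.subgroupOfEquivOfLe hU'K).toEquiv]
      exact (Nat.card_congr (Subgroup.equivMapOfInjective U _ (MulAut.conj g0).injective).toEquiv).symm
    obtain ⟨y, hy⟩ := MulAction.exists_smul_eq (ptw G Z) (Sylow.ofCard _ hc2) (Sylow.ofCard _ hc1)
    have hy' : ∀ u : ptw G Z, (u : Perm α) ∈ U.map (MulAut.conj g0).toMonoidHom → ((y * u * y⁻¹ : ptw G Z) : Perm α) ∈ U := by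
      intro u hu
      have h1 : y * u * y⁻¹ ∈ (y • (Sylow.ofCard _ hc2) : Sylow p (ptw G Z)) := by
        refine ⟨u, ?_, rfl⟩
        change u ∈ (U.map (MulAut.conj g0).toMonoidHom).subgroupOf (ptw G Z)
        rw [Subgroup.mem_subgroupOf]
        exact hu
      rw [hy] at h1
      change y * u * y⁻¹ ∈ U.subgroupOf (ptw G Z) at h1
      rw [Subgroup.mem_subgroupOf] at h1
      exact h1
    have hn : (y : Perm α) * g0 ∈ nrm G U := by
      apply mem_nrm_of (G.mul_mem y.2.1 hg0)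
      intro u hu
      have h1 := hy' ⟨g0 * u * g0⁻¹, hU'K ⟨u, hu, rfl⟩⟩ ⟨u, hu, rfl⟩
      have h2 : (y : Perm α) * g0 * u * ((y : Perm α) * g0)⁻¹ = (y : Perm α) * (g0 * u * g0⁻¹) * (y : Perm α)⁻¹ := by group
      rw [h2]
      exact h1
    -- the induced permutation
    let τ : Perm ↥Γ := Perm.subtypePerm ((y : Perm α) * g0) (fun x => by
      constructor
      · intro hx
        have h3 := nrm_fixF ((nrm G U).inv_mem hn) (x := ((y : Perm α) * g0) x) (by rw [← hΓ]; exact hx)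
        have h4 : ((y : Perm α) * g0)⁻¹ (((y : Perm α) * g0) x) = x := by simp
        rw [h4, ← hΓ] at h3
        exact h3
      · intro hx
        rw [hΓ] at hx ⊢
        exact nrm_fixF hn hx)
    refine ⟨τ, ⟨_, hn, fun x => rfl⟩, fun x hx => ?_⟩
    apply Subtype.ext
    change (y : Perm α) (g0 (x : α)) = σ x
    rw [hg0x' x hx]
    apply y.2.2
    rw [hZ, Finset.mem_map]
    exact ⟨σ x, Finset.mem_map_of_mem _ hx, rfl⟩
  · -- Gleason case
    push Not at hmv
    obtain ⟨Z0, hZ0, hne⟩ := hmv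
    have hlt : ∀ Z : Finset α, Z.card = k → Z ⊆ Γ → p ^ (m + 1) ∣ Nat.card (ptw G Z) := by
      intro Z hZ hZΓ
      have h1 : Nat.card (ptw G Z) = Nat.card (ptw G Z0) := by
        rw [card_ptw, card_ptw, card_fx_eq hT hZ hZ0]
      have h2 : U ≤ ptw G Z := fun u hu => ⟨hUG hu, fun z hz => (hΓm z).mp (hZΓ hz) u hu⟩
      have h3 : p ^ m ∣ Nat.card (ptw G Z) := by
        rw [← hm]; exact Subgroup.card_dvd_of_le h2
      have h4 : m ≤ (Nat.card (ptw G Z)).factorization p :=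
        (hp.pow_dvd_iff_le_factorization Nat.card_pos.ne').mp h3
      apply (hp.pow_dvd_iff_le_factorization Nat.card_pos.ne').mpr
      rw [h1] at h4 ⊢
      omega
    apply Cfsg.Agent.S0743.result (ind (nrm G U) Γ) hp (by omega) (by rw [Fintype.card_coe]; omega)
    intro s hs
    obtain ⟨Z, hZ⟩ : ∃ Z : Finset α, Z = s.map (Function.Embedding.subtype _) := ⟨_, rfl⟩
    have hZc : Z.card = k := by rw [hZ, Finset.card_map, hs]
    have hZm : ∀ x : ↥Γ, (x : α) ∈ Z ↔ x ∈ s := by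
      intro x
      rw [hZ]
      constructor
      · intro h
        rw [Finset.mem_map] at h
        obtain ⟨w, hw, hwx⟩ := h
        have : w = x := Subtype.ext hwx
        rw [← this]; exact hw
      · intro h
        exact Finset.mem_map_of_mem _ h
    have hZΓ : Z ⊆ Γ := by
      intro z hz
      rw [hZ, Finset.mem_map] at hz
      obtain ⟨w, -, rfl⟩ := hz
      exact w.2
    have hUK : U ≤ ptw G Z := fun u hu => ⟨hUG hu, fun z hz => (hΓm z).mp (hZΓ hz) u hu⟩
    have hUKc : Nat.card (U.subgroupOf (ptw G Z)) = p ^ m := by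
      rw [← hm]; exact Nat.card_congr (Subgroup.subgroupOfEquivOfLe hUK).toEquiv
    obtain ⟨K, hKc, hUKK⟩ := Sylow.exists_subgroup_card_pow_succ (hlt Z hZc hZΓ) hUKc
    -- K as a subgroup of Perm α
    obtain ⟨K', hK'⟩ : ∃ K' : Subgroup (Perm α), K' = K.map (ptw G Z).subtype := ⟨_, rfl⟩
    have hK'c : Nat.card K' = p ^ (m + 1) := by
      rw [hK', ← hKc]
      exact (Nat.card_congr (Subgroup.equivMapOfInjective K _ (Subgroup.subtype_injective _)).toEquiv).symm
    have hK'p : IsPGroup p K' := IsPGroup.of_card hK'c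
    have hK'K : K' ≤ ptw G Z := by
      rw [hK']
      rintro _ ⟨x, -, rfl⟩
      exact x.2
    have hUK' : U ≤ K' := by
      intro u hu
      rw [hK']
      exact ⟨⟨u, hUK hu⟩, hUKK (by rw [Subgroup.mem_subgroupOf]; exact hu), rfl⟩
    have hnorm : (U.subgroupOf K').Normal := by
      apply Subgroup.normal_of_index_eq_minFac_card
      have h1 := (U.subgroupOf K').card_mul_index
      rw [Nat.card_congr (Subgroup.subgroupOfEquivOfLe hUK').toEquiv, hm, hK'c, pow_succ] at h1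
      rw [Nat.eq_of_mul_eq_mul_left (pow_pos hp.pos m) h1, hK'c, hp.pow_minFac (by omega)]
    have hK'N : K' ≤ nrm G U := by
      intro g hg
      apply mem_nrm_of (hK'K hg).1
      intro u hu
      have := hnorm.conj_mem ⟨u, hUK' hu⟩ (by rw [Subgroup.mem_subgroupOf]; exact hu) ⟨g, hg⟩
      rw [Subgroup.mem_subgroupOf] at this
      exact this
    -- fixed points of K' in Γ
    have hfixK : ∀ x : ↥Γ, (∀ g ∈ K', g (x : α) = x) → x ∈ s := by
      intro x hx
      by_contra hxs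
      have h1 : (x : α) ∉ Z := fun h => hxs ((hZm x).mp h)
      have h2 := hUmax K' ⟨fun g hg => (hK'K hg).1, hK'p, insert (x : α) Z, by
        rw [Finset.card_insert_of_notMem h1, hZc], fun u hu y hy => by
          rcases Finset.mem_insert.mp hy with rfl | hy
          · exact hx u hu
          · exact (hK'K hu).2 y hy⟩
      simp only [hK'c, hm] at h2
      have h3 : p ^ m < p ^ (m + 1) := Nat.pow_lt_pow_right hp.one_lt (by omega)
      omega
    -- the p-group
    refine ⟨(ind K' Γ).subgroupOf (ind (nrm G U) Γ), ?_, ?_⟩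
    · rintro ⟨⟨τ, hτ⟩, hτ'⟩
      rw [Subgroup.mem_subgroupOf] at hτ'
      obtain ⟨g, hg, hgτ⟩ := hτ'
      obtain ⟨j, hj⟩ := hK'p ⟨g, hg⟩
      refine ⟨j, ?_⟩
      have hj' : g ^ p ^ j = 1 := congrArg Subtype.val hj
      apply Subtype.ext
      apply Subtype.ext
      change τ ^ p ^ j = 1
      have h1 : ∀ r : ℕ, ∀ x : ↥Γ, (g ^ r) (x : α) = (τ ^ r) x := by
        intro r
        induction r with
        | zero => intro x; rfl
        | succ r ihr => intro x; rw [pow_succ, pow_succ, Perm.mul_apply, Perm.mul_apply, hgτ x]; exact ihr _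
      ext x
      rw [← h1, hj']
      rfl
    · ext x
      rw [MulAction.mem_fixedPoints, Finset.mem_coe]
      constructor
      · intro h
        apply hfixK x
        intro g hg
        have h2 : g ∈ nrm G U := hK'N hg
        let τ : Perm ↥Γ := Perm.subtypePerm g (fun x => by
          constructor
          · intro hx
            have h3 := nrm_fixF ((nrm G U).inv_mem h2) (x := g x) (by rw [← hΓ]; exact hx)
            have h4 : g⁻¹ (g x) = x := by simp
            rw [h4, ← hΓ] at h3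
            exact h3
          · intro hx
            rw [hΓ] at hx ⊢
            exact nrm_fixF h2 hx)
        have hτK : τ ∈ ind K' Γ := ⟨g, hg, fun _ => rfl⟩
        have hτN : τ ∈ ind (nrm G U) Γ := ⟨g, h2, fun _ => rfl⟩
        have h5 := h ⟨⟨τ, hτN⟩, by rw [Subgroup.mem_subgroupOf]; exact hτK⟩
        exact congrArg Subtype.val h5
      · rintro hx ⟨⟨τ, hτ⟩, hτ'⟩
        rw [Subgroup.mem_subgroupOf] at hτ'
        obtain ⟨g, hg, hgτ⟩ := hτ'
        apply Subtype.ext
        change ((τ x : ↥Γ) : α) = x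
        rw [← hgτ x]
        exact (hK'K hg).2 _ ((hZm x).mpr hx)

/-- from 3-cycles to even permutations -/
theorem alt_of_good3 {G : Subgroup (Perm α)} {Δ : Finset α} (h : Good3 G Δ) (σ : Perm ↥Δ) (hσ : σ ∈ alternatingGroup ↥Δ) :
    ∃ g ∈ G, ∀ x : ↥Δ, g (x : α) = σ x := by
  have h1 : alternatingGroup ↥Δ ≤ ind G Δ := by
    rw [← Perm.closure_three_cycles_eq_alternating, Subgroup.closure_le]
    intro τ hτ
    change τ ∈ ind G Δ
    have hτ3 : τ.IsThreeCycle := hτ
    have hc : τ.support.card = 3 := hτ3.card_support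
    obtain ⟨a, ha⟩ := Finset.card_pos.mp (show 0 < τ.support.card by omega)
    rw [Perm.mem_support] at ha
    have ho : orderOf τ = 3 := hτ3.orderOf
    have h3 : τ (τ (τ a)) = a := by
      have : τ ^ 3 = 1 := by rw [← ho]; exact pow_orderOf_eq_one τ
      have h4 := congrArg (fun ρ : Perm ↥Δ => ρ a) this
      simpa [pow_succ] using h4
    have hab : a ≠ τ a := ha.symm
    have hbc : τ a ≠ τ (τ a) := fun h => ha (τ.injective h).symm
    have hac : a ≠ τ (τ a) := by
      intro h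
      rw [← h] at h3
      exact ha h3
    have hsupp : τ.support = {a, τ a, τ (τ a)} := by
      symm
      apply Finset.eq_of_subset_of_card_le
      · intro x hx
        simp only [Finset.mem_insert, Finset.mem_singleton] at hx
        rw [Perm.mem_support]
        rcases hx with rfl | rfl | rfl
        · exact ha
        · exact hbc.symm
        · rw [h3]; exact hac
      · rw [hc, Finset.card_eq_three.mpr ⟨a, τ a, τ (τ a), hab, hac, hbc, rfl⟩]
    obtain ⟨g, hg, h4, h5, h6, h7⟩ := h a a.2 (τ a) (τ a).2 (τ (τ a)) (τ (τ a)).2 (fun h => hab (Subtype.ext h))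
      (fun h => hbc (Subtype.ext h)) (fun h => hac (Subtype.ext h))
    refine ⟨g, hg, fun x => ?_⟩
    by_cases hx : x ∈ τ.support
    · rw [hsupp] at hx
      simp only [Finset.mem_insert, Finset.mem_singleton] at hx
      rcases hx with rfl | rfl | rfl
      · exact h4
      · exact h5
      · rw [h3]; exact h6
    · have hx' : τ x = x := by
        rwa [Perm.mem_support, not_not] at hx
      rw [hx']
      rw [hsupp] at hx
      simp only [Finset.mem_insert, Finset.mem_singleton, not_or] at hx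
      exact h7 x x.2 (fun h => hx.1 (Subtype.ext h)) (fun h => hx.2.1 (Subtype.ext h)) (fun h => hx.2.2 (Subtype.ext h))
  exact h1 hσ

theorem exists_alt {G : Subgroup (Perm α)} {k : ℕ} (hk : 4 ≤ k) (hkn : k < Fintype.card α)
    (hG : IsMultiplyPretransitive G α k) : ∃ Δ : Finset α, Δ.card = k + 1 ∧ ∀ σ : Equiv.Perm ↥Δ, σ ∈ alternatingGroup ↥Δ → ∃ g ∈ G, ∀ x : ↥Δ, g (x : α) = σ x := by
  obtain ⟨Δ, hΔ, h⟩ := good3_main _ rfl G k hk hkn (tr_of_multi hG)
  exact ⟨Δ, hΔ, fun σ hσ => alt_of_good3 h σ hσ⟩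

end H16.LW
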