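import Mathlib
import Cfsg.Agent.Lib.H16.LW4
import Cfsg.Agent.S0744

set_option autoImplicit false

/-! Livingstone–Wagner, part 5: homogeneous groups, order relations. -/

namespace H16.LW

open Equiv MulAction

set_option linter.unusedSectionVars false

variable {α : Type*} [Fintype α] [DecidableEq α]

/-- setwise stabiliser -/
def stS (G : Subgroup (Perm α)) (S : Finset α) : Subgroup (Perm α) where
  carrier := {g | g ∈ G ∧ ∀ x, x ∈ S ↔ g x ∈ S}
  mul_mem' := by
    rintro a b ⟨ha, ha'⟩ ⟨hb, hb'⟩
    exact ⟨G.mul_mem ha hb, fun x => by rw [hb', ha']; rfl⟩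
  one_mem' := ⟨G.one_mem, fun x => Iff.rfl⟩
  inv_mem' := by
    rintro a ⟨ha, ha'⟩
    refine ⟨G.inv_mem ha, fun x => ?_⟩
    rw [ha' (a⁻¹ x)]
    simp

theorem mem_stS {G : Subgroup (Perm α)} {S : Finset α} {g : Perm α} : g ∈ stS G S ↔ g ∈ G ∧ ∀ x, x ∈ S ↔ g x ∈ S := Iff.rfl

/-- it is enough to map `S` into `S` -/
theorem mem_stS_of {G : Subgroup (Perm α)} {S : Finset α} {g : Perm α} (hg : g ∈ G) (h : ∀ x ∈ S, g x ∈ S) : g ∈ stS G S := by
  refine ⟨hg, fun x => ⟨h x, fun hx => ?_⟩⟩
  have h1 : S.image g = S := by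
    apply Finset.eq_of_subset_of_card_le
    · intro y hy
      rw [Finset.mem_image] at hy
      obtain ⟨z, hz, rfl⟩ := hy
      exact h z hz
    · rw [Finset.card_image_of_injective _ g.injective]
  rw [← h1, Finset.mem_image] at hx
  obtain ⟨z, hz, hzx⟩ := hx
  rw [← g.injective hzx]
  exact hz

theorem card_homog {G : Subgroup (Perm α)} {k : ℕ} (h : IsPretransitive G (Set.powersetCard α k)) {S : Finset α} (hS : S.card = k) :
    Nat.card G = (Fintype.card α).choose k * Nat.card (stS G S) := by
  classical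
  have h1 := MulAction.index_stabilizer_of_transitive G (⟨S, hS⟩ : Set.powersetCard α k)
  have h2 := (MulAction.stabilizer G (⟨S, hS⟩ : Set.powersetCard α k)).card_mul_index
  rw [h1, Set.powersetCard.card, Nat.card_eq_fintype_card (α := α)] at h2
  rw [← h2, mul_comm]
  congr 1
  apply Nat.card_congr
  exact
    { toFun := fun g => ⟨((g : G) : Perm α), mem_stS_of (g : G).2 (fun x hx => by
        have h3 := g.2
        rw [MulAction.mem_stabilizer_iff] at h3
        have h4 : S.image ((g : G) : Perm α) = S := congrArg Subtype.val h3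
        exact (Finset.ext_iff.mp h4 _).mp (Finset.mem_image_of_mem _ hx))⟩
      invFun := fun g => ⟨⟨(g : Perm α), g.2.1⟩, by
        rw [MulAction.mem_stabilizer_iff]
        apply Subtype.ext
        change S.image (g : Perm α) = S
        apply Finset.eq_of_subset_of_card_le
        · intro y hy
          rw [Finset.mem_image] at hy
          obtain ⟨z, hz, rfl⟩ := hy
          exact (g.2.2 z).mp hz
        · rw [Finset.card_image_of_injective _ (g : Perm α).injective]⟩
      left_inv := fun _ => rfl
      right_inv := fun _ => rfl }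

theorem card_stS_eq {G : Subgroup (Perm α)} {k : ℕ} (h : IsPretransitive G (Set.powersetCard α k)) (hk : k ≤ Fintype.card α)
    {S T : Finset α} (hS : S.card = k) (hT : T.card = k) : Nat.card (stS G S) = Nat.card (stS G T) := by
  have h1 := card_homog h hS
  rw [card_homog h hT] at h1
  exact (Nat.eq_of_mul_eq_mul_left (Nat.choose_pos hk) h1).symm

theorem card_tr {G : Subgroup (Perm α)} {k : ℕ} (h : Tr G k) {X : Finset α} (hX : X.card = k) :
    Nat.card G = (Fintype.card α).descFactorial k * Nat.card (fx G X) := by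
  classical
  have hm := multi_of_tr h
  let e := (Finset.equivFinOfCardEq hX).symm
  let x : Fin k ↪ α := ⟨fun i => (e i : α), fun i j hij => e.injective (Subtype.ext hij)⟩
  have hx : ∀ y, y ∈ X ↔ ∃ i, x i = y := by
    intro y
    constructor
    · intro hy
      exact ⟨e.symm ⟨y, hy⟩, by change (e (e.symm ⟨y, hy⟩) : α) = y; rw [e.apply_symm_apply]⟩
    · rintro ⟨i, rfl⟩
      exact (e i).2
  have h1 := @MulAction.index_stabilizer_of_transitive G (Fin k ↪ α) _ _ x hm
  have h2 := (MulAction.stabilizer G x).card_mul_index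
  rw [h1, Nat.card_eq_fintype_card (α := (Fin k ↪ α)), Fintype.card_embedding_eq, Fintype.card_fin] at h2
  rw [← h2, mul_comm]
  congr 1
  apply Nat.card_congr
  exact
    { toFun := fun g => ⟨g, mem_fx.mpr fun y hy => by
        obtain ⟨i, rfl⟩ := (hx y).mp hy
        have h3 := g.2
        rw [MulAction.mem_stabilizer_iff] at h3
        exact DFunLike.congr_fun h3 i⟩
      invFun := fun g => ⟨g, by
        rw [MulAction.mem_stabilizer_iff]
        ext i
        exact mem_fx.mp g.2 _ ((hx _).mpr ⟨i, rfl⟩)⟩
      left_inv := fun _ => rfl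
      right_inv := fun _ => rfl }

/-- the setwise stabiliser acts faithfully -/
theorem card_ind {G : Subgroup (Perm α)} {k : ℕ} (hR : Reg G k) {S : Finset α} (hS : k + 1 ≤ S.card) :
    Nat.card (ind (stS G S) S) = Nat.card (stS G S) := by
  classical
  obtain ⟨Y, hYS, hY⟩ := Finset.exists_subset_card_eq hS
  let f : stS G S → ind (stS G S) S := fun g => ⟨Perm.subtypePerm (g : Perm α) (fun x => (g.2.2 x).symm), ⟨g, g.2, fun x => rfl⟩⟩
  have hf : Function.Bijective f := by
    constructor
    · intro g h hgh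
      have h1 : ∀ x ∈ S, (g : Perm α) x = (h : Perm α) x := by
        intro x hx
        have := congrArg (fun τ : ind (stS G S) S => ((τ : Perm ↥S) ⟨x, hx⟩ : α)) hgh
        exact this
      have h2 : (h : Perm α)⁻¹ * (g : Perm α) = 1 := by
        apply hR _ (G.mul_mem (G.inv_mem h.2.1) g.2.1) Y hY
        intro y hy
        rw [Perm.mul_apply, h1 y (hYS hy)]
        simp
      apply Subtype.ext
      exact (inv_mul_eq_one.mp h2).symm
    · rintro ⟨τ, g, hg, hgτ⟩
      refine ⟨⟨g, hg⟩, ?_⟩
      apply Subtype.ext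
      ext x
      exact hgτ x
  exact (Nat.card_congr (Equiv.ofBijective f hf)).symm

theorem card_stS_dvd {G : Subgroup (Perm α)} {k : ℕ} (hR : Reg G k) {S : Finset α} (hS : k + 1 ≤ S.card) :
    Nat.card (stS G S) ∣ (S.card).factorial := by
  classical
  rw [← card_ind hR hS]
  have h1 := Subgroup.card_subgroup_dvd_card (ind (stS G S) S)
  rwa [Nat.card_eq_fintype_card (α := Perm ↥S), Fintype.card_perm, Fintype.card_coe] at h1

/-- set-up for the exceptional cases -/
structure Setup (G : Subgroup (Perm α)) (k : ℕ) : Prop where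
  tr : Tr G k
  reg : Reg G k
  hom1 : IsPretransitive G (Set.powersetCard α (k + 1))
  hom2 : IsPretransitive G (Set.powersetCard α (k + 2))
  le : k + 2 ≤ Fintype.card α
  not : ¬ IsMultiplyPretransitive G α (k + 1)

theorem setup_of {G : Subgroup (Perm α)} {k : ℕ} (hkn : k + 2 ≤ Fintype.card α)
    (ht : MulAction.IsMultiplyPretransitive G α k) (hnt : ¬ MulAction.IsMultiplyPretransitive G α (k + 1))
    (hh1 : MulAction.IsPretransitive G (Set.powersetCard α (k + 1)))
    (hh : MulAction.IsPretransitive G (Set.powersetCard α (k + 2))) : Setup G k := by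
  classical
  refine ⟨tr_of_multi ht, ?_, hh1, hh, hkn, hnt⟩
  -- pointwise stabilisers of (k+1)-sets are trivial
  have hconj : ∀ (j : ℕ), IsPretransitive G (Set.powersetCard α j) → ∀ S T : Finset α, S.card = j → T.card = j →
      Nat.card (fixingSubgroup G (S : Set α)) = Nat.card (fixingSubgroup G (T : Set α)) := by
    intro j hj S T hS hT
    obtain ⟨g, hg, hgS⟩ := H16.PermBasic.homog_iff.mp hj S T hS hT
    have hgm : ∀ x, x ∈ S ↔ g x ∈ T := by
      intro x
      rw [← hgS, Finset.mem_image]
      constructor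
      · intro hx; exact ⟨x, hx, rfl⟩
      · rintro ⟨y, hy, hyx⟩
        rw [← g.injective hyx]; exact hy
    apply Nat.card_congr
    refine
      { toFun := fun a => ⟨⟨g, hg⟩ * a * (⟨g, hg⟩ : G)⁻¹, mem_fx.mpr fun y hy => ?_⟩
        invFun := fun a => ⟨(⟨g, hg⟩ : G)⁻¹ * a * ⟨g, hg⟩, mem_fx.mpr fun x hx => ?_⟩
        left_inv := fun a => by apply Subtype.ext; simp only; group
        right_inv := fun a => by apply Subtype.ext; simp only; group }
    · change g (((a : G) : Perm α) (g⁻¹ y)) = y
      have h1 : g⁻¹ y ∈ S := by rw [hgm]; simpa using hy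
      rw [mem_fx.mp a.2 _ h1]
      simp
    · change g⁻¹ (((a : G) : Perm α) (g x)) = x
      rw [mem_fx.mp a.2 _ ((hgm x).mp hx)]
      simp
  obtain ⟨S0, hS0⟩ := Finset.exists_subset_card_eq (s := (Finset.univ : Finset α)) (n := k + 1) (by rw [Finset.card_univ]; omega)
  obtain ⟨T0, hT0⟩ := Finset.exists_subset_card_eq (s := (Finset.univ : Finset α)) (n := k + 2) (by rw [Finset.card_univ]; omega)
  have hone : Nat.card (fixingSubgroup G (S0 : Set α)) = 1 := by
    by_contra hne
    apply hnt
    have hpos : 0 < Nat.card (fixingSubgroup G (S0 : Set α)) := Nat.card_pos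
    exact Cfsg.Agent.S0744.result G (k := k + 2) (by omega) hkn (Nat.card (fixingSubgroup G (S0 : Set α)))
      (Nat.card (fixingSubgroup G (T0 : Set α))) (by omega) (fun s hs => hconj (k + 1) hh1 s S0 (by omega) hS0.2)
      (fun s hs => hconj (k + 2) hh s T0 hs hT0.2)
  intro g hg Y hY hgY
  have h1 := hconj (k + 1) hh1 Y S0 hY hS0.2
  rw [hone, Nat.card_eq_one_iff_unique] at h1
  have h2 := h1.1.elim ⟨⟨g, hg⟩, mem_fx.mpr hgY⟩ 1
  exact congrArg (fun y : fixingSubgroup G (Y : Set α) => ((y : G) : Perm α)) h2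

theorem Setup.lt {G : Subgroup (Perm α)} {k : ℕ} (h : Setup G k) {X : Finset α} (hX : X.card = k) :
    Nat.card (fx G X) < Fintype.card α - k := by
  classical
  have hle : k + 2 ≤ Fintype.card α := h.le
  have h1 := dvd_of_reg h.reg hX
  rcases lt_or_eq_of_le (Nat.le_of_dvd (by omega) h1) with h2 | h2
  · exact h2
  · exfalso
    apply h.not
    apply H16.PermBasic.isMultiplyPretransitive_of_fixing' (k + 1) (by omega)
    intro T hT x y hx hy
    have hTc : T.card = k := by omega
    have h3 : (orbit (fx G T) x).ncard = (((Tᶜ : Finset α)) : Set α).ncard := by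
      rw [← Nat.card_coe_set_eq, card_orbit_of_reg h.reg hTc hx, card_fx_eq h.tr hTc hX, h2, Set.ncard_coe_finset,
        Finset.card_compl, hTc]
    have h4 : orbit (fx G T) x = ((Tᶜ : Finset α) : Set α) := by
      apply Set.eq_of_subset_of_ncard_le _ h3.ge (Set.toFinite _)
      intro w hw
      rw [Finset.mem_coe, Finset.mem_compl]
      exact orbit_subset_compl hx w hw
    have h5 : y ∈ orbit (fx G T) x := by
      rw [h4, Finset.mem_coe, Finset.mem_compl]
      exact hy
    obtain ⟨g, hg⟩ := h5
    exact ⟨((g : G) : Perm α), (g : G).2, mem_fx.mp g.2, hg⟩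

/-- numeric relations -/
theorem Setup.rel1 {G : Subgroup (Perm α)} {k : ℕ} (h : Setup G k) {X S : Finset α} (hX : X.card = k) (hS : S.card = k + 1) :
    Nat.card (fx G X) * (k + 1).factorial = Nat.card (stS G S) * (Fintype.card α - k) := by
  have hle := h.le
  have h1 := card_tr h.tr hX
  rw [card_homog h.hom1 hS] at h1
  have h2 := Nat.descFactorial_eq_factorial_mul_choose (Fintype.card α) (k + 1)
  rw [Nat.descFactorial_succ] at h2
  have hpos : 0 < (Fintype.card α).descFactorial k := Nat.pos_of_ne_zero (by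
    rw [Ne, Nat.descFactorial_eq_zero_iff_lt]; omega)
  have hpos2 : 0 < (Fintype.card α).choose (k + 1) := Nat.choose_pos (by omega)
  apply Nat.eq_of_mul_eq_mul_left hpos2
  calc (Fintype.card α).choose (k + 1) * (Nat.card (fx G X) * (k + 1).factorial)
      = Nat.card (fx G X) * ((k + 1).factorial * (Fintype.card α).choose (k + 1)) := by ring
    _ = Nat.card (fx G X) * ((Fintype.card α - k) * (Fintype.card α).descFactorial k) := by rw [h2]
    _ = (Fintype.card α - k) * ((Fintype.card α).descFactorial k * Nat.card (fx G X)) := by ring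
    _ = (Fintype.card α - k) * ((Fintype.card α).choose (k + 1) * Nat.card (stS G S)) := by rw [h1]
    _ = (Fintype.card α).choose (k + 1) * (Nat.card (stS G S) * (Fintype.card α - k)) := by ring

theorem Setup.rel2 {G : Subgroup (Perm α)} {k : ℕ} (h : Setup G k) {S T : Finset α} (hS : S.card = k + 1) (hT : T.card = k + 2) :
    Nat.card (stS G S) * (k + 2) = Nat.card (stS G T) * (Fintype.card α - (k + 1)) := by
  have hle := h.le
  have h1 := card_homog h.hom1 hS
  rw [card_homog h.hom2 hT] at h1
  have h2 := Nat.choose_succ_right_eq (Fintype.card α) (k + 1)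
  have hpos : 0 < (Fintype.card α).choose (k + 1) := Nat.choose_pos (by omega)
  apply Nat.eq_of_mul_eq_mul_left hpos
  calc (Fintype.card α).choose (k + 1) * (Nat.card (stS G S) * (k + 2))
      = ((Fintype.card α).choose (k + 1) * Nat.card (stS G S)) * (k + 2) := by ring
    _ = ((Fintype.card α).choose (k + 2) * (k + 2)) * Nat.card (stS G T) := by rw [← h1]; ring
    _ = ((Fintype.card α).choose (k + 1) * (Fintype.card α - (k + 1))) * Nat.card (stS G T) := by rw [h2]
    _ = (Fintype.card α).choose (k + 1) * (Nat.card (stS G T) * (Fintype.card α - (k + 1))) := by ring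

end H16.LW
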