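import Mathlib
import Cfsg.Prelude.Def_Perm
import Cfsg.Agent.Lib.H16.OddLin2
import Cfsg.Agent.Lib.H16.LW5
import Cfsg.Agent.Lib.H62.PrimGroup
import Cfsg.Agent.Lib.H1.Hall
import Cfsg.Agent.S0735

set_option autoImplicit false

/-! Kantor: 2-homogeneous groups which are not 2-transitive (assuming solvability). -/

namespace H16.Kantor

open Equiv MulAction

set_option linter.unusedSectionVars false

universe u

variable {α : Type u} [Fintype α] [DecidableEq α]

theorem three_le {G : Subgroup (Perm α)} (hne : G ≠ ⊥) (hn2 : ¬ IsMultiplyPretransitive G α 2) : 3 ≤ Fintype.card α := by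
  by_contra hlt
  obtain ⟨g, hg, hg1⟩ := G.bot_or_exists_ne_one.resolve_left hne
  obtain ⟨x, hx⟩ : ∃ x, g x ≠ x := by
    by_contra hcon
    push Not at hcon
    exact hg1 (Equiv.ext hcon)
  have h1 : ({x, g x} : Finset α) = Finset.univ := by
    apply Finset.eq_univ_of_card
    rw [Finset.card_pair hx.symm]
    have h2 : 2 ≤ Fintype.card α := by
      rw [← Finset.card_pair hx.symm]
      exact Finset.card_le_univ _
    omega
  have h2 : ∀ y, y = x ∨ y = g x := by
    intro y
    have : y ∈ ({x, g x} : Finset α) := by rw [h1]; exact Finset.mem_univ y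
    simpa using this
  apply hn2
  apply H16.LW.multi_of_tr
  intro X _ σ
  have hggx : g (g x) = x := by
    rcases h2 (g (g x)) with h3 | h3
    · exact h3
    · exact absurd (g.injective h3) hx
  rcases h2 (σ x) with h3 | h3
  · refine ⟨1, G.one_mem, fun y _ => ?_⟩
    rcases h2 y with h4 | h4
    · rw [h4, h3]; rfl
    · rcases h2 (σ (g x)) with h5 | h5
      · exact absurd (σ.injective (h5.trans h3.symm)) hx
      · rw [h4, h5]; rfl
  · refine ⟨g, hg, fun y _ => ?_⟩
    rcases h2 y with h4 | h4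
    · rw [h4, h3]
    · rcases h2 (σ (g x)) with h5 | h5
      · rw [h4, h5, hggx]
      · exact absurd (σ.injective (h5.trans h3.symm)) hx

theorem mod_four {n p e : ℕ} (hp : p.Prime) (hn : n = p ^ e) (h3 : 3 ≤ n) (hodd : Odd (n.choose 2)) : p ≠ 2 ∧ n % 4 = 3 := by
  rw [Nat.choose_two_right] at hodd
  have h4 : n % 4 ≠ 0 := by
    intro h
    obtain ⟨k, hk⟩ := Nat.dvd_of_mod_eq_zero h
    have : n * (n - 1) / 2 = 2 * (k * (n - 1)) := by
      rw [hk, show 4 * k * (4 * k - 1) = 2 * (2 * (k * (4 * k - 1))) by ring, Nat.mul_div_cancel_left _ (by norm_num)]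
    rw [this] at hodd
    exact (Nat.not_even_iff_odd.mpr hodd) (even_two_mul _)
  have h5 : n % 4 ≠ 1 := by
    intro h
    obtain ⟨k, hk⟩ : ∃ k, n = 4 * k + 1 := ⟨n / 4, by omega⟩
    have : n * (n - 1) / 2 = 2 * (n * k) := by
      rw [hk, Nat.add_sub_cancel, show (4 * k + 1) * (4 * k) = 2 * (2 * ((4 * k + 1) * k)) by ring, Nat.mul_div_cancel_left _ (by norm_num)]
    rw [this] at hodd
    exact (Nat.not_even_iff_odd.mpr hodd) (even_two_mul _)
  have hp2 : p ≠ 2 := by
    rintro rfl
    rcases Nat.lt_or_ge e 2 with he | he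
    · have : e = 0 ∨ e = 1 := by omega
      rcases this with rfl | rfl <;> omega
    · apply h4
      obtain ⟨f, rfl⟩ : ∃ f, e = f + 2 := ⟨e - 2, by omega⟩
      rw [hn, pow_add]
      omega
  refine ⟨hp2, ?_⟩
  have h6 : n % 2 = 1 := by
    rw [hn]
    exact Nat.odd_iff.mp (Odd.pow (hp.odd_of_ne_two hp2))
  omega

theorem main (G : Subgroup (Perm α)) (hne : G ≠ ⊥) (h2 : IsPretransitive G (Set.powersetCard α 2))
    (hn2 : ¬ IsMultiplyPretransitive G α 2) (hs : Odd (Nat.card G) → Group.IsSolvable G) :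
    Odd (Nat.card G) ∧ ∃ (p f : ℕ) (_ : Fact p.Prime), p ≠ 2 ∧ Fintype.card α = p ^ f ∧ p ^ f % 4 = 3 ∧
      ∃ e : α ≃ GaloisField p f, (∀ g : G, e.symm.trans (((g : Perm α)).trans e) ∈ Cfsg.semiaffineGroup (GaloisField p f)) ∧
        ∀ b : GaloisField p f, ∃ g : G, ∀ x : α, e ((g : Perm α) x) = e x + b := by
  classical
  have h3 := three_le hne hn2
  obtain ⟨h4, h5⟩ := Cfsg.Agent.S0735.result G h2 h3
  have hodd : Odd (Nat.card G) := by
    rw [← Nat.not_even_iff_odd]
    exact fun h => hn2 (h4 h)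
  refine ⟨hodd, ?_⟩
  replace hs := hs hodd
  have hprim := h5 hne
  have hnt : Nontrivial G := by
    rw [Subgroup.nontrivial_iff_ne_bot]; exact hne
  have hαne : Nonempty α := Fintype.card_pos_iff.mp (by omega)
  have hFne : Cfsg.fittingSubgroup G ≠ ⊥ := by
    obtain ⟨p, hp, h6⟩ := H1.Hall.exists_pCore_ne_bot hs
    have := Fact.mk hp
    intro h
    apply h6
    rw [eq_bot_iff, ← h]
    exact H1.Cores.pCore_le_fittingSubgroup p
  obtain ⟨hcomm, hcard, hself, p, f, hp, hpf, hexp⟩ := H62.PrimGroup.fitting_structure (H := G) (Δ := α) hFne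
  have hFn : (Cfsg.fittingSubgroup G).Normal := by
    have := H1.Cores.fittingSubgroup_characteristic (G := G)
    infer_instance
  obtain ⟨N, hN⟩ : ∃ N, N = Cfsg.fittingSubgroup G := ⟨_, rfl⟩
  rw [← hN] at hcomm hcard hself hpf hexp hFn hFne
  have htrans : IsPretransitive N α := H62.PrimGroup.normal_transitive N hFne
  have hfact : Fact p.Prime := ⟨hp⟩
  have hcard' : Fintype.card α = p ^ f := by
    rw [← Nat.card_eq_fintype_card, ← hcard, hpf]
  obtain ⟨S, hS⟩ := Finset.exists_subset_card_eq (s := (Finset.univ : Finset α)) (n := 2) (by rw [Finset.card_univ]; omega)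
  have hchoose : Odd ((Fintype.card α).choose 2) := by
    apply Odd.of_dvd_nat hodd
    rw [H16.LW.card_homog h2 hS.2]
    exact dvd_mul_right _ _
  obtain ⟨hp2, hmod⟩ := mod_four hp hcard' h3 hchoose
  refine ⟨p, f, hfact, hp2, hcard', by rw [← hcard']; exact hmod, ?_⟩
  obtain ⟨a⟩ := hαne
  have hreg : ∀ u ∈ N, (u : Perm α) a = a → u = 1 := by
    intro u hu hua
    exact H62.PrimGroup.eq_one_of_centralizes (Δ := α) N (c := u) (fun n hn => hcomm u hu n hn) (x := a) hua
  have hreg2 : ∀ u ∈ N, ∀ v ∈ N, (u : Perm α) a = (v : Perm α) a → u = v := by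
    intro u hu v hv h
    have h6 : v⁻¹ * u = 1 := by
      apply hreg _ (N.mul_mem (N.inv_mem hv) hu)
      change ((v : Perm α)⁻¹) ((u : Perm α) a) = a
      rw [h]; simp
    exact (inv_mul_eq_one.mp h6).symm
  let i0 : CommGroup N := { (inferInstance : Group N) with mul_comm := fun x y => Subtype.ext (hcomm x x.2 y y.2) }
  let i1 : DistribMulAction (stabilizer G a) (Additive N) :=
    { smul := fun d n => Additive.ofMul (MulAut.conjNormal (d : G) (Additive.toMul n))
      one_smul := fun n => by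
        change Additive.ofMul (MulAut.conjNormal ((1 : stabilizer G a) : G) (Additive.toMul n)) = n
        rw [Subgroup.coe_one, map_one]; rfl
      mul_smul := fun d e n => by
        change Additive.ofMul (MulAut.conjNormal ((d * e : stabilizer G a) : G) (Additive.toMul n)) = _
        rw [Subgroup.coe_mul, map_mul]; rfl
      smul_zero := fun d => by
        change Additive.ofMul (MulAut.conjNormal (d : G) (1 : N)) = 0
        rw [map_one]; rfl
      smul_add := fun d m n => by
        change Additive.ofMul (MulAut.conjNormal (d : G) (Additive.toMul m * Additive.toMul n)) = _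
        rw [map_mul]; rfl }
  have hact : ∀ (d : stabilizer G a) (n : Additive N), ((Additive.toMul (d • n) : N) : G) = d * (Additive.toMul n : N) * (d : G)⁻¹ := fun d n => rfl
  have i2 : FaithfulSMul (stabilizer G a) (Additive N) := ⟨fun {d e} h => by
    have h6 : (e⁻¹ * d : stabilizer G a) = 1 := by
      apply Subtype.ext
      apply H62.PrimGroup.eq_one_of_centralizes (Δ := α) N (x := a)
      · intro n hn
        have h7 := h (Additive.ofMul ⟨n, hn⟩)
        have h8 : (d : G) * n * (d : G)⁻¹ = e * n * (e : G)⁻¹ := by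
          have := congrArg (fun z : Additive N => ((Additive.toMul z : N) : G)) h7
          exact this
        rw [Subgroup.coe_mul, Subgroup.coe_inv]
        calc (e : G)⁻¹ * d * n = (e : G)⁻¹ * (d * n * (d : G)⁻¹) * d := by group
          _ = n * ((e : G)⁻¹ * d) := by rw [h8]; group
      · exact (e⁻¹ * d : stabilizer G a).2
    exact (inv_mul_eq_one.mp h6).symm⟩
  have i3 : Nontrivial (Additive N) := by
    have : Nontrivial N := (Subgroup.nontrivial_iff_ne_bot N).mpr hFne
    exact inferInstanceAs (Nontrivial (Additive N))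
  have hmain := H16.OddLin2.main (D := stabilizer G a) (E := Additive N) (by
      exact Odd.of_dvd_nat hodd (stabilizer G a).card_subgroup_dvd_card) inferInstance (by
      intro x y hx hy
      obtain ⟨⟨u, hu⟩, rfl⟩ : ∃ u : N, x = Additive.ofMul u := ⟨Additive.toMul x, rfl⟩
      obtain ⟨⟨v, hv⟩, rfl⟩ : ∃ u : N, y = Additive.ofMul u := ⟨Additive.toMul y, rfl⟩
      have hu1 : u ≠ 1 := by
        rintro rfl; exact hx rfl
      have hv1 : v ≠ 1 := by
        rintro rfl; exact hy rfl
      have hua : a ≠ (u : Perm α) a := fun h => hu1 (hreg u hu h.symm)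
      have hva : a ≠ (v : Perm α) a := fun h => hv1 (hreg v hv h.symm)
      obtain ⟨g, hg, hgS⟩ := H16.PermBasic.homog_iff.mp h2 {a, (u : Perm α) a} {a, (v : Perm α) a} (Finset.card_pair hua) (Finset.card_pair hva)
      have h6 : g a ∈ ({a, (v : Perm α) a} : Finset α) := by rw [← hgS]; exact Finset.mem_image_of_mem _ (by simp)
      have h7 : g ((u : Perm α) a) ∈ ({a, (v : Perm α) a} : Finset α) := by rw [← hgS]; exact Finset.mem_image_of_mem _ (by simp)
      have h8 : g a ≠ g ((u : Perm α) a) := fun h => hua (g.injective h)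
      rw [Finset.mem_insert, Finset.mem_singleton] at h6 h7
      rcases h6 with h6 | h6
      · have h9 : g ((u : Perm α) a) = (v : Perm α) a := h7.resolve_left (fun h => h8 (h6.trans h.symm))
        refine ⟨⟨⟨g, hg⟩, h6⟩, Or.inl ?_⟩
        have h10 : (⟨g, hg⟩ : G) * u * (⟨g, hg⟩ : G)⁻¹ = v := by
          apply hreg2 _ (hFn.conj_mem u hu _) v hv
          change g ((u : Perm α) (g⁻¹ a)) = (v : Perm α) a
          have h11 : g⁻¹ a = a := by rw [Perm.inv_eq_iff_eq]; exact h6.symm
          rw [h11, h9]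
        exact congrArg Additive.ofMul (Subtype.ext h10 : (⟨_, hFn.conj_mem u hu _⟩ : N) = ⟨v, hv⟩)
      · have h9 : g ((u : Perm α) a) = a := h7.resolve_right (fun h => h8 (h6.trans h.symm))
        obtain ⟨d, hd⟩ : ∃ d : G, d = v⁻¹ * ⟨g, hg⟩ := ⟨_, rfl⟩
        have hda : (d : Perm α) a = a := by
          rw [hd]
          change (v : Perm α)⁻¹ (g a) = a
          rw [h6]; simp
        refine ⟨⟨d, hda⟩, Or.inr ?_⟩
        have h10 : d * u * d⁻¹ = v⁻¹ := by
          apply hreg2 _ (hFn.conj_mem u hu _) _ (N.inv_mem hv)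
          change (d : Perm α) ((u : Perm α) ((d : Perm α)⁻¹ a)) = (v : Perm α)⁻¹ a
          have h11 : (d : Perm α)⁻¹ a = a := by rw [Perm.inv_eq_iff_eq]; exact hda.symm
          rw [h11, hd]
          change (v : Perm α)⁻¹ (g ((u : Perm α) a)) = (v : Perm α)⁻¹ a
          rw [h9]
        exact congrArg Additive.ofMul (Subtype.ext h10 : (⟨_, hFn.conj_mem u hu _⟩ : N) = (⟨v, hv⟩ : N)⁻¹))
    (q := p) hp (by
      intro x
      have h6 : (Additive.toMul x : N) ^ p = 1 := Subtype.ext (hexp _ (Additive.toMul x : N).2)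
      exact h6)
  obtain ⟨K, iK, iKf, φ, hφ⟩ := hmain
  have iKF : Fintype K := Fintype.ofFinite K
  have hf0 : f ≠ 0 := by
    rintro rfl
    rw [pow_zero] at hcard'
    omega
  have iGF : Fintype (GaloisField p f) := Fintype.ofFinite _
  have hKcard : Fintype.card K = Fintype.card (GaloisField p f) := by
    rw [← Nat.card_eq_fintype_card, ← Nat.card_eq_fintype_card, GaloisField.card p f hf0, ← Nat.card_congr φ.toEquiv, ← hpf]
    rfl
  let ψ : K ≃+* GaloisField p f := FiniteField.ringEquivOfCardEq hKcard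
  have hb : Function.Bijective (fun n : N => ((n : G) : Perm α) a) := by
    constructor
    · intro m n h
      exact Subtype.ext (hreg2 m m.2 n n.2 h)
    · intro x
      obtain ⟨n, hn⟩ := exists_smul_eq N a x
      exact ⟨n, hn⟩
  let e0 : N ≃ α := Equiv.ofBijective _ hb
  have he0 : ∀ n : N, e0 n = ((n : G) : Perm α) a := fun n => rfl
  let e : α ≃ GaloisField p f := (e0.symm.trans Additive.ofMul).trans (φ.toEquiv.trans ψ.toEquiv)
  have he : ∀ n : N, e (e0 n) = ψ (φ (Additive.ofMul n)) := by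
    intro n
    change ψ (φ (Additive.ofMul (e0.symm (e0 n)))) = _
    rw [Equiv.symm_apply_apply]
  refine ⟨e, ?_, ?_⟩
  · intro g
    -- decompose `g = n d`
    obtain ⟨n, hn⟩ := exists_smul_eq N a ((g : Perm α) a)
    have hn' : ((n : G) : Perm α) a = (g : Perm α) a := hn
    have hda : ((((n : G)⁻¹ * g : G)) : Perm α) a = a := by
      change ((n : G) : Perm α)⁻¹ ((g : Perm α) a) = a
      rw [← hn']; simp
    obtain ⟨c, σ, hcσ⟩ := hφ ⟨(n : G)⁻¹ * g, hda⟩
    refine ⟨Units.map (ψ : K →* GaloisField p f) c, ψ (φ (Additive.ofMul n)), (ψ.symm.trans σ).trans ψ, ?_⟩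
    intro x
    obtain ⟨m, hm⟩ : ∃ m : N, x = ψ (φ (Additive.ofMul m)) := ⟨Additive.toMul (φ.symm (ψ.symm x)), by simp⟩
    have h6 : e.symm x = e0 m := by
      rw [Equiv.symm_apply_eq, he, hm]
    change e ((g : Perm α) (e.symm x)) = _
    rw [h6]
    have h7 : (g : Perm α) (e0 m) = e0 (n * Additive.toMul ((⟨(n : G)⁻¹ * g, hda⟩ : stabilizer G a) • Additive.ofMul m)) := by
      rw [he0, he0]
      have h8 : ((n * Additive.toMul ((⟨(n : G)⁻¹ * g, hda⟩ : stabilizer G a) • Additive.ofMul m) : N) : G) =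
          n * (((n : G)⁻¹ * g) * m * ((n : G)⁻¹ * g)⁻¹) := rfl
      rw [h8]
      have h9 : (n : G) * (((n : G)⁻¹ * g) * m * ((n : G)⁻¹ * g)⁻¹) = g * m * ((n : G)⁻¹ * g)⁻¹ := by group
      rw [h9]
      change (g : Perm α) (((m : G) : Perm α) a) = (g : Perm α) (((m : G) : Perm α) ((((n : G)⁻¹ * g : G) : Perm α)⁻¹ a))
      have h10 : (((n : G)⁻¹ * g : G) : Perm α)⁻¹ a = a := by rw [Perm.inv_eq_iff_eq]; exact hda.symm
      rw [h10]
    rw [h7, he]
    have h11 : Additive.ofMul (n * Additive.toMul ((⟨(n : G)⁻¹ * g, hda⟩ : stabilizer G a) • Additive.ofMul m)) =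
        Additive.ofMul n + (⟨(n : G)⁻¹ * g, hda⟩ : stabilizer G a) • Additive.ofMul m := rfl
    rw [h11, map_add, map_add, hcσ, map_mul, hm, add_comm]
    simp
  · intro b
    obtain ⟨n, hn⟩ : ∃ n : N, b = ψ (φ (Additive.ofMul n)) := ⟨Additive.toMul (φ.symm (ψ.symm b)), by simp⟩
    refine ⟨n, fun x => ?_⟩
    obtain ⟨m, rfl⟩ := e0.surjective x
    have h6 : ((n : G) : Perm α) (e0 m) = e0 (m * n) := by
      rw [he0, he0, mul_comm m n]; rfl
    rw [h6, he, he, hn, ← map_add, ← map_add]
    rfl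

end H16.Kantor
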