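import Mathlib
import Cfsg.Agent.Lib.H16.LW5

set_option autoImplicit false

/-! Livingstone–Wagner, part 6: the exceptional cases. -/

namespace H16.LW

open Equiv MulAction

set_option linter.unusedSectionVars false

variable {α : Type*} [Fintype α] [DecidableEq α]

theorem two_dvd_of_invol {G : Subgroup (Perm α)} {S : Finset α} {t : Perm α} (ht : t ∈ stS G S) (h2 : t * t = 1) (h1 : t ≠ 1) :
    2 ∣ Nat.card (stS G S) := by
  have h3 : orderOf t = 2 := by
    rw [orderOf_eq_prime_iff]
    exact ⟨by rw [pow_two]; exact h2, h1⟩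
  rw [← h3]
  exact Subgroup.orderOf_dvd_natCard _ ht

theorem exists_invol_of_even {G : Subgroup (Perm α)} (h : Even (Nat.card G)) : ∃ t ∈ G, t * t = 1 ∧ t ≠ 1 := by
  obtain ⟨t, ht⟩ := exists_prime_orderOf_dvd_card' (G := G) 2 (even_iff_two_dvd.mp h)
  refine ⟨t, t.2, ?_, ?_⟩
  · have h1 : t ^ 2 = 1 := by rw [← ht]; exact pow_orderOf_eq_one t
    have h2 := congrArg (fun y : G => (y : Perm α)) h1
    rw [pow_two] at h2
    exact h2
  · intro h1
    have : t = 1 := Subtype.ext h1
    rw [this, orderOf_one] at ht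
    omega

theorem exists_invol_fx {G : Subgroup (Perm α)} {X : Finset α} (h : Even (Nat.card (fx G X))) :
    ∃ t ∈ G, t * t = 1 ∧ t ≠ 1 ∧ ∀ x ∈ X, t x = x := by
  rw [← card_ptw] at h
  obtain ⟨t, ht, h1, h2⟩ := exists_invol_of_even h
  exact ⟨t, ht.1, h1, h2, ht.2⟩

theorem exists_moved {t : Perm α} (h : t ≠ 1) : ∃ c, t c ≠ c := by
  by_contra hcon
  push Not at hcon
  exact h (Equiv.ext hcon)

theorem Setup.full {G : Subgroup (Perm α)} {k : ℕ} (h : Setup G k) (hn : Fintype.card α = k + 2) : G = alternatingGroup α := by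
  obtain ⟨X, hX⟩ := Finset.exists_subset_card_eq (s := (Finset.univ : Finset α)) (n := k) (by rw [Finset.card_univ]; omega)
  have h1 := h.lt hX.2
  have h2 : 0 < Nat.card (fx G X) := Nat.card_pos
  have h3 : Nat.card (fx G X) = 1 := by omega
  have h4 := card_tr h.tr hX.2
  rw [h3, mul_one] at h4
  have h5 := Nat.factorial_mul_descFactorial (n := Fintype.card α) (k := k) (by omega)
  have h6 := G.card_mul_index
  rw [Nat.card_eq_fintype_card (α := Perm α), Fintype.card_perm, ← h5, h4] at h6
  apply Perm.eq_alternatingGroup_of_index_eq_two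
  have h7 : Fintype.card α - k = 2 := by omega
  rw [h7, Nat.factorial_two, mul_comm] at h6
  have hpos : 0 < (Fintype.card α).descFactorial k := Nat.pos_of_ne_zero (by
    rw [Ne, Nat.descFactorial_eq_zero_iff_lt]; omega)
  exact Nat.eq_of_mul_eq_mul_right hpos h6

/-- in the group of even permutations of `S`, no odd permutation is induced -/
theorem sign_of_alt {G : Subgroup (Perm α)} {S : Finset α} (hA : ind (stS G S) S ≤ alternatingGroup ↥S)
    {g σ : Perm α} (hg : g ∈ G) (hσ : ∀ x ∈ S, σ x ∈ S) (hσ' : ∀ x, σ x ≠ x → x ∈ S) (h : ∀ x ∈ S, g x = σ x) : Perm.sign σ = 1 := by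
  have hS : ∀ x, σ x ∈ S ↔ x ∈ S := by
    intro x
    refine ⟨fun hx => ?_, hσ x⟩
    by_contra hxS
    have h1 : σ x = x := by
      by_contra h2
      exact hxS (hσ' x h2)
    rw [h1] at hx
    exact hxS hx
  have h1 : Perm.subtypePerm σ hS ∈ ind (stS G S) S :=
    ⟨g, mem_stS_of hg (fun x hx => by rw [h x hx]; exact hσ x hx), fun x => h x x.2⟩
  have h2 := Perm.mem_alternatingGroup.mp (hA h1)
  have h3 := Perm.sign_subtypePerm σ hS hσ'
  rw [← h3]
  convert h2

theorem alt_of_card {G : Subgroup (Perm α)} {k : ℕ} (hR : Reg G k) {S : Finset α} (hS : S.card = k + 1)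
    (hc : 2 * Nat.card (stS G S) = (k + 1).factorial) : ind (stS G S) S = alternatingGroup ↥S := by
  apply Perm.eq_alternatingGroup_of_index_eq_two
  have h1 := (ind (stS G S) S).card_mul_index
  rw [card_ind hR hS.ge, Nat.card_eq_fintype_card (α := Perm ↥S), Fintype.card_perm, Fintype.card_coe, hS, ← hc, mul_comm] at h1
  exact Nat.eq_of_mul_eq_mul_right Nat.card_pos h1

/-- if all `(k+1)`-sets induce the alternating group, `fx` has odd order -/
theorem odd_of_alt {G : Subgroup (Perm α)} {k : ℕ} (hk : 1 ≤ k)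
    (hA : ∀ S : Finset α, S.card = k + 1 → ind (stS G S) S ≤ alternatingGroup ↥S) {X : Finset α} (hX : X.card = k) :
    Odd (Nat.card (fx G X)) := by
  rw [← Nat.not_even_iff_odd]
  intro he
  obtain ⟨t, ht, ht2, ht1, htX⟩ := exists_invol_fx he
  obtain ⟨c, hc⟩ := exists_moved ht1
  have hcX : c ∉ X := fun h => hc (htX c h)
  have hdX : t c ∉ X := fun h => hc (t.injective (htX _ h))
  obtain ⟨x0, hx0⟩ := Finset.card_pos.mp (show 0 < X.card by omega)
  have hc1 : c ∉ insert (t c) (X.erase x0) := by
    rw [Finset.mem_insert, not_or]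
    exact ⟨hc.symm, fun h => hcX (Finset.mem_of_mem_erase h)⟩
  have hd1 : t c ∉ X.erase x0 := fun h => hdX (Finset.mem_of_mem_erase h)
  have hSc : (insert c (insert (t c) (X.erase x0))).card = k + 1 := by
    rw [Finset.card_insert_of_notMem hc1, Finset.card_insert_of_notMem hd1, Finset.card_erase_of_mem hx0]
    omega
  have h1 := sign_of_alt (hA _ hSc) (g := t) (σ := swap c (t c)) ht (by
      intro x hx
      by_cases h1 : x = c
      · rw [h1, swap_apply_left]; simp
      · by_cases h2 : x = t c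
        · rw [h2, swap_apply_right]; simp
        · rw [swap_apply_of_ne_of_ne h1 h2]; exact hx) (by
      intro x hx
      by_cases h1 : x = c
      · rw [h1]; simp
      · by_cases h2 : x = t c
        · rw [h2]; simp
        · rw [swap_apply_of_ne_of_ne h1 h2] at hx
          exact absurd rfl hx) (by
      intro x hx
      by_cases h1 : x = c
      · rw [h1, swap_apply_left]
      · by_cases h2 : x = t c
        · rw [h2, swap_apply_right, invol_apply ht2]
        · rw [swap_apply_of_ne_of_ne h1 h2]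
          rcases Finset.mem_insert.mp hx with h3 | h3
          · exact absurd h3 h1
          · rcases Finset.mem_insert.mp h3 with h4 | h4
            · exact absurd h4 h2
            · exact htX x (Finset.mem_of_mem_erase h4))
  rw [Perm.sign_swap hc.symm] at h1
  exact absurd h1 (by decide)

theorem Setup.case1 {G : Subgroup (Perm α)} (h : Setup G 1) (hn : 4 ≤ Fintype.card α) : False := by
  obtain ⟨X, hX⟩ := Finset.exists_subset_card_eq (s := (Finset.univ : Finset α)) (n := 1) (by rw [Finset.card_univ]; omega)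
  obtain ⟨S, hS⟩ := Finset.exists_subset_card_eq (s := (Finset.univ : Finset α)) (n := 2) (by rw [Finset.card_univ]; omega)
  obtain ⟨T, hT⟩ := Finset.exists_subset_card_eq (s := (Finset.univ : Finset α)) (n := 3) (by rw [Finset.card_univ]; omega)
  have h1 := h.lt hX.2
  have h2 := h.rel1 hX.2 hS.2
  have h3 := h.rel2 hS.2 hT.2
  have h4 := card_stS_dvd h.reg (S := S) (by rw [hS.2])
  have h5 := card_tr h.tr hX.2
  rw [hS.2] at h4
  have h6 : ∀ S' : Finset α, S'.card = 2 → Nat.card (stS G S') = Nat.card (stS G S) := fun S' hS' =>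
    card_stS_eq h.hom1 (by omega) hS' hS.2
  generalize Nat.card (stS G S) = gS at *
  generalize Nat.card (stS G T) = gT at *
  generalize hh : Nat.card (fx G X) = hX' at *
  generalize Fintype.card α = n at *
  have h7 : gS ≤ 2 := Nat.le_of_dvd (by decide) h4
  have hgS : gS = 1 := by
    interval_cases gS
    · simp at h4
    · rfl
    · simp at h2
      omega
  subst hgS
  simp at h2 h3
  have hgT : gT ≤ 3 := by
    by_contra hcon
    have : 4 * (n - 2) ≤ gT * (n - 2) := Nat.mul_le_mul_right _ (by omega)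
    omega
  have h8 : n = 5 := by
    interval_cases gT <;> omega
  subst h8
  have h9 : hX' = 2 := by omega
  rw [h9] at h5
  obtain ⟨t, ht, ht2, ht1⟩ := exists_invol_of_even (G := G) (by rw [h5]; decide)
  obtain ⟨c, hc⟩ := exists_moved ht1
  have h10 := two_dvd_of_invol (G := G) (S := {c, t c}) (mem_stS_of ht (by
    intro x hx
    rw [Finset.mem_insert, Finset.mem_singleton] at hx
    rcases hx with rfl | rfl
    · simp
    · rw [invol_apply ht2]; simp)) ht2 ht1
  rw [h6 _ (Finset.card_pair hc.symm)] at h10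
  omega

theorem Setup.case2 {G : Subgroup (Perm α)} (h : Setup G 2) (hn : 5 ≤ Fintype.card α) :
    Fintype.card α = 5 ∧ Nat.card G = 20 := by
  obtain ⟨X, hX⟩ := Finset.exists_subset_card_eq (s := (Finset.univ : Finset α)) (n := 2) (by rw [Finset.card_univ]; omega)
  obtain ⟨S, hS⟩ := Finset.exists_subset_card_eq (s := (Finset.univ : Finset α)) (n := 3) (by rw [Finset.card_univ]; omega)
  obtain ⟨T, hT⟩ := Finset.exists_subset_card_eq (s := (Finset.univ : Finset α)) (n := 4) (by rw [Finset.card_univ]; omega)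
  have h1 := h.lt hX.2
  have h2 := h.rel1 hX.2 hS.2
  have h3 := h.rel2 hS.2 hT.2
  have h4 := card_stS_dvd h.reg (S := S) (by rw [hS.2])
  have h5 := card_tr h.tr hX.2
  rw [hS.2] at h4
  have h6 : ∀ S' : Finset α, S'.card = 3 → Nat.card (stS G S') = Nat.card (stS G S) := fun S' hS' =>
    card_stS_eq h.hom1 (by omega) hS' hS.2
  have h6' : ∀ S' : Finset α, S'.card = 4 → Nat.card (stS G S') = Nat.card (stS G T) := fun S' hS' =>
    card_stS_eq h.hom2 (by omega) hS' hT.2
  obtain ⟨gS, hgS⟩ : ∃ gS, gS = Nat.card (stS G S) := ⟨_, rfl⟩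
  obtain ⟨gT, hgT⟩ : ∃ gT, gT = Nat.card (stS G T) := ⟨_, rfl⟩
  obtain ⟨h', hh'⟩ : ∃ h', h' = Nat.card (fx G X) := ⟨_, rfl⟩
  obtain ⟨n, hn'⟩ : ∃ n, n = Fintype.card α := ⟨_, rfl⟩
  rw [← hn'] at h1 h2 h3 hn h5 ⊢
  rw [← hh'] at h1 h2 h5
  rw [← hgS] at h2 h3 h4 h6
  rw [← hgT] at h3 h6'
  have h24 : (3 : ℕ).factorial = 6 := rfl
  rw [show Nat.factorial (2 + 1) = 6 from rfl] at h2
  rw [h24] at h4
  have h7 : gS ≤ 6 := Nat.le_of_dvd (by decide) h4
  have h8 : n ≤ 30 := by
    by_contra hcon
    have h9 : 0 < gT := by rw [hgT]; exact Nat.card_pos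
    have : 1 * (n - (2 + 1)) ≤ gT * (n - (2 + 1)) := Nat.mul_le_mul_right _ h9
    omega
  have h9 : (n = 6 ∧ gS = 3 ∧ h' = 2) ∨ (n = 5 ∧ h' = 1) ∨ (n = 11 ∧ h' = 3 ∧ gT = 1) := by
    have h10 : gS = 1 ∨ gS = 2 ∨ gS = 3 ∨ gS = 6 := by
      clear h2 h3 hgS h6
      interval_cases gS <;> first | omega | (exfalso; revert h4; decide)
    rcases h10 with h10 | h10 | h10 | h10
    · subst h10
      interval_cases n <;> omega
    · subst h10
      interval_cases n <;> omega
    · subst h10
      interval_cases n <;> omega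
    · subst h10
      interval_cases n <;> omega
  rcases h9 with ⟨h9, h10, h11⟩ | ⟨h9, h10⟩ | ⟨h9, h10, h11⟩
  · exfalso
    obtain ⟨t, ht, ht2, ht1, htX⟩ := exists_invol_fx (G := G) (X := X) (by rw [← hh', h11]; decide)
    obtain ⟨c, hc⟩ := exists_moved ht1
    obtain ⟨a, ha⟩ := Finset.card_pos.mp (show 0 < X.card by rw [hX.2]; omega)
    have hca : a ≠ c := by rintro rfl; exact hc (htX _ ha)
    have hta : a ≠ t c := by
      intro h
      have := htX a ha
      rw [h] at this
      exact hc (t.injective this)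
    have h12 := two_dvd_of_invol (G := G) (S := {a, c, t c}) (mem_stS_of ht (by
      intro x hx
      rw [Finset.mem_insert, Finset.mem_insert, Finset.mem_singleton] at hx
      rcases hx with rfl | rfl | rfl
      · rw [htX _ ha]; simp
      · simp
      · rw [invol_apply ht2]; simp)) ht2 ht1
    rw [h6 _ (Finset.card_eq_three.mpr ⟨a, c, t c, hca, hta, hc.symm, rfl⟩), h10] at h12
    omega
  · refine ⟨h9, ?_⟩
    rw [h5, h9, h10]
    rfl
  · exfalso
    obtain ⟨t, ht, ht2, ht1⟩ := exists_invol_of_even (G := G) (by rw [h5, h9, h10]; decide)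
    -- t fixes at most two points
    have hfix : (Finset.univ.filter fun x => t x = x).card ≤ 2 := by
      by_contra hcon
      obtain ⟨Y, hY, hYc⟩ := Finset.exists_subset_card_eq (show 3 ≤ (Finset.univ.filter fun x => t x = x).card by omega)
      exact ht1 (h.reg t ht Y hYc (fun y hy => (Finset.mem_filter.mp (hY hy)).2))
    have hmv : (Finset.univ.filter fun x => t x = x).card + (Finset.univ.filter fun x => t x ≠ x).card = n := by
      rw [hn', ← Finset.card_univ]
      exact Finset.card_filter_add_card_filter_not (s := Finset.univ) (fun x => t x = x)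
    obtain ⟨a, ha⟩ := exists_moved ht1
    obtain ⟨c, hc, hcn⟩ : ∃ c ∈ Finset.univ.filter (fun x => t x ≠ x), c ∉ ({a, t a} : Finset α) := by
      apply Finset.exists_mem_notMem_of_card_lt_card
      have := Finset.card_le_two (a := a) (b := t a)
      omega
    rw [Finset.mem_filter] at hc
    rw [Finset.mem_insert, Finset.mem_singleton, not_or] at hcn
    have h12 := two_dvd_of_invol (G := G) (S := {a, t a, c, t c}) (mem_stS_of ht (by
      intro x hx
      simp only [Finset.mem_insert, Finset.mem_singleton] at hx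
      rcases hx with rfl | rfl | rfl | rfl
      · simp
      · rw [invol_apply ht2]; simp
      · simp
      · rw [invol_apply ht2]; simp)) ht2 ht1
    have hac : a ≠ t c := by
      intro h
      have := congrArg t h
      rw [invol_apply ht2] at this
      exact hcn.2 this.symm
    rw [h6' _ (Finset.card_eq_four.mpr ⟨a, t a, c, t c, ha.symm, Ne.symm hcn.1, hac, Ne.symm hcn.2, fun h => hcn.1 (t.injective h).symm, hc.2.symm, rfl⟩), h11] at h12
    omega

end H16.LW
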