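import Mathlib
import Cfsg.Agent.Lib.H16.LW6

set_option autoImplicit false

/-! Livingstone–Wagner, part 7: the exceptional cases, continued. -/

namespace H16.LW

open Equiv MulAction

set_option linter.unusedSectionVars false

variable {α : Type*} [Fintype α] [DecidableEq α]

/-- all `(k+1)`-sets induce the alternating group -/
theorem Setup.alt {G : Subgroup (Perm α)} {k : ℕ} (h : Setup G k) (hk : 4 ≤ k) :
    (∀ S : Finset α, S.card = k + 1 → ind (stS G S) S = alternatingGroup ↥S) ∧
      ∀ X : Finset α, X.card = k → 2 * Nat.card (fx G X) = Fintype.card α - k := by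
  have hle := h.le
  obtain ⟨Δ, hΔ, hΔa⟩ := exists_alt hk (by omega) (multi_of_tr h.tr)
  have h1 : alternatingGroup ↥Δ ≤ ind (stS G Δ) Δ := by
    intro σ hσ
    obtain ⟨g, hg, hgx⟩ := hΔa σ hσ
    exact ⟨g, mem_stS_of hg (fun x hx => by rw [hgx ⟨x, hx⟩]; exact (σ ⟨x, hx⟩).2), hgx⟩
  have hnt : Nontrivial ↥Δ := by
    rw [← Fintype.one_lt_card_iff_nontrivial, Fintype.card_coe, hΔ]
    omega
  have h2 := Subgroup.index_dvd_of_le h1
  rw [alternatingGroup.index_eq_two] at h2
  have h3 := (ind (stS G Δ) Δ).card_mul_index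
  rw [card_ind h.reg hΔ.ge, Nat.card_eq_fintype_card (α := Perm ↥Δ), Fintype.card_perm, Fintype.card_coe, hΔ] at h3
  obtain ⟨X0, hX0⟩ := Finset.exists_subset_card_eq (s := (Finset.univ : Finset α)) (n := k) (by rw [Finset.card_univ]; omega)
  have h4 := h.rel1 hX0.2 hΔ
  have h5 := h.lt hX0.2
  have hpos : 0 < Nat.card (stS G Δ) := Nat.card_pos
  have h6 : 2 * Nat.card (stS G Δ) = (k + 1).factorial := by
    rcases (Nat.dvd_prime Nat.prime_two).mp h2 with h6 | h6
    · exfalso
      rw [h6, mul_one] at h3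
      rw [← h3, mul_comm] at h4
      have := Nat.eq_of_mul_eq_mul_left hpos h4
      omega
    · rw [h6] at h3
      omega
  refine ⟨fun S hS => alt_of_card h.reg hS ?_, fun X hX => ?_⟩
  · rw [card_stS_eq h.hom1 (by omega) hS hΔ, h6]
  · have h7 := h.rel1 hX hΔ
    rw [← h6] at h7
    apply Nat.eq_of_mul_eq_mul_left hpos
    rw [← h7]
    ring

theorem Setup.case5 {G : Subgroup (Perm α)} {k : ℕ} (h : Setup G k) (hk : 5 ≤ k) (hn : k + 3 ≤ Fintype.card α) : False := by
  obtain ⟨hA, hh⟩ := h.alt (by omega)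
  obtain ⟨X, hX⟩ := Finset.exists_subset_card_eq (s := (Finset.univ : Finset α)) (n := k) (by rw [Finset.card_univ]; omega)
  replace hX := hX.2
  have hodd := odd_of_alt (G := G) (k := k) (by omega) (fun S hS => (hA S hS).le) hX
  have hh2 := hh X hX
  obtain ⟨a, ha, b, hb, hab⟩ := Finset.one_lt_card.mp (show 1 < X.card by omega)
  obtain ⟨t, ht, ht2, htx⟩ := exists_invol h.tr hX hodd (swap a b) (by simp) (by
    intro x hx
    by_cases h1 : x = a
    · rw [h1, swap_apply_left]; exact hb
    · by_cases h2 : x = b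
      · rw [h2, swap_apply_right]; exact ha
      · rw [swap_apply_of_ne_of_ne h1 h2]; exact hx)
  have htX : ∀ x, x ∈ X → t x ∈ X := by
    intro x hx
    rw [htx x hx]
    by_cases h1 : x = a
    · rw [h1, swap_apply_left]; exact hb
    · by_cases h2 : x = b
      · rw [h2, swap_apply_right]; exact ha
      · rw [swap_apply_of_ne_of_ne h1 h2]; exact hx
  have htX' : ∀ x, x ∉ X → t x ∉ X := by
    intro x hx h1
    have := htX _ h1
    rw [invol_apply ht2] at this
    exact hx this
  -- no fixed points outside `X`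
  have hnf : ∀ z, z ∉ X → t z ≠ z := by
    intro z hz hzz
    have hza : z ≠ a := fun h => hz (h ▸ ha)
    have hzb : z ≠ b := fun h => hz (h ▸ hb)
    have h1 := sign_of_alt (hA (insert z X) (by rw [Finset.card_insert_of_notMem hz, hX])).le (g := t) (σ := swap a b) ht
      (by
        intro x hx
        by_cases h1 : x = a
        · rw [h1, swap_apply_left]; exact Finset.mem_insert_of_mem hb
        · by_cases h2 : x = b
          · rw [h2, swap_apply_right]; exact Finset.mem_insert_of_mem ha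
          · rw [swap_apply_of_ne_of_ne h1 h2]; exact hx)
      (by
        intro x hx
        by_cases h1 : x = a
        · rw [h1]; exact Finset.mem_insert_of_mem ha
        · by_cases h2 : x = b
          · rw [h2]; exact Finset.mem_insert_of_mem hb
          · rw [swap_apply_of_ne_of_ne h1 h2] at hx; exact absurd rfl hx)
      (by
        intro x hx
        rcases Finset.mem_insert.mp hx with h1 | h1
        · rw [h1, hzz, swap_apply_of_ne_of_ne hza hzb]
        · exact htx x h1)
    rw [Perm.sign_swap hab] at h1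
    exact absurd h1 (by decide)
  -- two 2-cycles outside `X`
  have hcompl : Xᶜ.card = Fintype.card α - k := by rw [Finset.card_compl, hX]
  obtain ⟨c, hc⟩ := Finset.card_pos.mp (show 0 < Xᶜ.card by omega)
  obtain ⟨r, hr⟩ := hodd
  obtain ⟨e, he, hen⟩ : ∃ e ∈ Xᶜ, e ∉ ({c, t c} : Finset α) := by
    apply Finset.exists_mem_notMem_of_card_lt_card
    have := Finset.card_le_two (a := c) (b := t c)
    omega
  rw [Finset.mem_compl] at hc he
  rw [Finset.mem_insert, Finset.mem_singleton, not_or] at hen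
  have hc' := htX' c hc
  have he' := htX' e he
  obtain ⟨c', hc'e⟩ : ∃ c', c' = t c := ⟨_, rfl⟩
  obtain ⟨e', he'e⟩ : ∃ e', e' = t e := ⟨_, rfl⟩
  have htc' : t c' = c := by rw [hc'e, invol_apply ht2]
  have hte' : t e' = e := by rw [he'e, invol_apply ht2]
  rw [← hc'e] at hc' hen
  rw [← he'e] at he'
  have hcc' : c ≠ c' := by rw [hc'e]; exact (hnf c hc).symm
  have hee' : e ≠ e' := by rw [he'e]; exact (hnf e he).symm
  have hec' : e ≠ c' := hen.2
  have hec : e ≠ c := hen.1
  have he'c' : e' ≠ c' := by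
    intro h1
    rw [he'e, hc'e] at h1
    exact hec (t.injective h1)
  have he'c : e' ≠ c := by
    intro h1
    have := congrArg t h1
    rw [hte', ← hc'e] at this
    exact hec' this
  obtain ⟨Y, hYX, hY⟩ := Finset.exists_subset_card_eq (s := (X.erase a).erase b) (n := k - 5) (by
    rw [Finset.card_erase_of_mem (Finset.mem_erase.mpr ⟨hab.symm, hb⟩), Finset.card_erase_of_mem ha]
    omega)
  have hYX' : ∀ y ∈ Y, y ∈ X := fun y hy => Finset.mem_of_mem_erase (Finset.mem_of_mem_erase (hYX hy))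
  have hYa : ∀ y ∈ Y, y ≠ a := fun y hy h => by
    have := Finset.mem_of_mem_erase (hYX hy)
    rw [h] at this
    exact absurd this (Finset.notMem_erase a X)
  have hYb : ∀ y ∈ Y, y ≠ b := fun y hy h => by
    have := hYX hy
    rw [h] at this
    exact absurd this (Finset.notMem_erase b _)
  have hac : a ≠ c := fun h => hc (h ▸ ha)
  have hac' : a ≠ c' := fun h => hc' (h ▸ ha)
  have hae : a ≠ e := fun h => he (h ▸ ha)
  have hae' : a ≠ e' := fun h => he' (h ▸ ha)
  have hbc : b ≠ c := fun h => hc (h ▸ hb)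
  have hbc' : b ≠ c' := fun h => hc' (h ▸ hb)
  have hbe : b ≠ e := fun h => he (h ▸ hb)
  have hbe' : b ≠ e' := fun h => he' (h ▸ hb)
  obtain ⟨S, hS⟩ : ∃ S, S = insert a (insert b (insert c (insert c' (insert e (insert e' Y))))) := ⟨_, rfl⟩
  have hSc : S.card = k + 1 := by
    rw [hS, Finset.card_insert_of_notMem, Finset.card_insert_of_notMem, Finset.card_insert_of_notMem,
      Finset.card_insert_of_notMem, Finset.card_insert_of_notMem, Finset.card_insert_of_notMem]
    · omega
    · exact fun h => he' (hYX' _ h)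
    · simp only [Finset.mem_insert, not_or]
      exact ⟨hee', fun h => he (hYX' _ h)⟩
    · simp only [Finset.mem_insert, not_or]
      exact ⟨hec'.symm, he'c'.symm, fun h => hc' (hYX' _ h)⟩
    · simp only [Finset.mem_insert, not_or]
      exact ⟨hcc', hec.symm, he'c.symm, fun h => hc (hYX' _ h)⟩
    · simp only [Finset.mem_insert, not_or]
      exact ⟨hbc, hbc', hbe, hbe', fun h => hYb _ h rfl⟩
    · simp only [Finset.mem_insert, not_or]
      exact ⟨hab, hac, hac', hae, hae', fun h => hYa _ h rfl⟩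
  obtain ⟨σ, hσ⟩ : ∃ σ : Perm α, σ = swap a b * swap c c' * swap e e' := ⟨_, rfl⟩
  have hσa : σ a = b := by
    rw [hσ, Perm.mul_apply, Perm.mul_apply, swap_apply_of_ne_of_ne hae hae', swap_apply_of_ne_of_ne hac hac', swap_apply_left]
  have hσb : σ b = a := by
    rw [hσ, Perm.mul_apply, Perm.mul_apply, swap_apply_of_ne_of_ne hbe hbe', swap_apply_of_ne_of_ne hbc hbc', swap_apply_right]
  have hσc : σ c = c' := by
    rw [hσ, Perm.mul_apply, Perm.mul_apply, swap_apply_of_ne_of_ne hec.symm he'c.symm, swap_apply_left,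
      swap_apply_of_ne_of_ne hac'.symm hbc'.symm]
  have hσc' : σ c' = c := by
    rw [hσ, Perm.mul_apply, Perm.mul_apply, swap_apply_of_ne_of_ne hec'.symm he'c'.symm, swap_apply_right,
      swap_apply_of_ne_of_ne hac.symm hbc.symm]
  have hσe : σ e = e' := by
    rw [hσ, Perm.mul_apply, Perm.mul_apply, swap_apply_left, swap_apply_of_ne_of_ne he'c he'c',
      swap_apply_of_ne_of_ne hae'.symm hbe'.symm]
  have hσe' : σ e' = e := by
    rw [hσ, Perm.mul_apply, Perm.mul_apply, swap_apply_right, swap_apply_of_ne_of_ne hec hec',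
      swap_apply_of_ne_of_ne hae.symm hbe.symm]
  have hσx : ∀ x, x ≠ a → x ≠ b → x ≠ c → x ≠ c' → x ≠ e → x ≠ e' → σ x = x := by
    intro x h1 h2 h3 h4 h5 h6
    rw [hσ, Perm.mul_apply, Perm.mul_apply, swap_apply_of_ne_of_ne h5 h6, swap_apply_of_ne_of_ne h3 h4, swap_apply_of_ne_of_ne h1 h2]
  have hmem : a ∈ S ∧ b ∈ S ∧ c ∈ S ∧ c' ∈ S ∧ e ∈ S ∧ e' ∈ S := by
    rw [hS]
    simp
  obtain ⟨m1, m2, m3, m4, m5, m6⟩ := hmem
  have h1 := sign_of_alt (hA S hSc).le (g := t) (σ := σ) ht
    (by
      intro x hx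
      by_cases h1 : x = a
      · rw [h1, hσa]; exact m2
      by_cases h2 : x = b
      · rw [h2, hσb]; exact m1
      by_cases h3 : x = c
      · rw [h3, hσc]; exact m4
      by_cases h4 : x = c'
      · rw [h4, hσc']; exact m3
      by_cases h5 : x = e
      · rw [h5, hσe]; exact m6
      by_cases h6 : x = e'
      · rw [h6, hσe']; exact m5
      rw [hσx x h1 h2 h3 h4 h5 h6]; exact hx)
    (by
      intro x hx
      by_contra hcon
      apply hx
      apply hσx
      · rintro rfl; exact hcon m1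
      · rintro rfl; exact hcon m2
      · rintro rfl; exact hcon m3
      · rintro rfl; exact hcon m4
      · rintro rfl; exact hcon m5
      · rintro rfl; exact hcon m6)
    (by
      intro x hx
      rw [hS] at hx
      simp only [Finset.mem_insert] at hx
      rcases hx with rfl | rfl | rfl | rfl | rfl | rfl | hx
      · rw [hσa, htx _ ha, swap_apply_left]
      · rw [hσb, htx _ hb, swap_apply_right]
      · rw [hσc, hc'e]
      · rw [hσc', htc']
      · rw [hσe, he'e]
      · rw [hσe', hte']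
      · have hxX := hYX' x hx
        rw [hσx x (hYa x hx) (hYb x hx) (fun h => hc (h ▸ hxX)) (fun h => hc' (h ▸ hxX)) (fun h => he (h ▸ hxX)) (fun h => he' (h ▸ hxX)),
          htx x hxX, swap_apply_of_ne_of_ne (hYa x hx) (hYb x hx)])
  rw [hσ, Perm.sign_mul, Perm.sign_mul, Perm.sign_swap hab, Perm.sign_swap hcc', Perm.sign_swap hee'] at h1
  exact absurd h1 (by decide)

theorem dbl_all {G : Subgroup (Perm α)} {a b c d : α} (hc : Nat.card (fx G {a, b, c, d}) ≤ (dbl G {a, b, c, d} a b c d).card)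
    {g : Perm α} (hg : g ∈ G) (h1 : g a = b) (h2 : g b = a) (h3 : g c = d) (h4 : g d = c) : g * g = 1 := by
  classical
  have hT : (dbl G {a, b, c, d} a b c d) = (Finset.univ.filter fun g : Perm α => g ∈ G ∧ g a = b ∧ g b = a ∧ g c = d ∧ g d = c) := by
    apply Finset.eq_of_subset_of_card_le
    · intro t ht
      rw [mem_dbl] at ht
      obtain ⟨h5, h6, h7, h8, -⟩ := ht
      rw [Finset.mem_filter]
      refine ⟨Finset.mem_univ _, h5, h7, ?_, h8, ?_⟩
      · rw [← h7, invol_apply h6]
      · rw [← h8, invol_apply h6]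
    · refine le_trans (card_coset_le (X := {a, b, c, d}) _ ?_ ?_) hc
      · intro t ht; exact (Finset.mem_filter.mp ht).2.1
      · intro t ht s hs x hx
        rw [Finset.mem_filter] at ht hs
        simp only [Finset.mem_insert, Finset.mem_singleton] at hx
        obtain ⟨-, -, t1, t2, t3, t4⟩ := ht
        obtain ⟨-, -, s1, s2, s3, s4⟩ := hs
        rcases hx with rfl | rfl | rfl | rfl
        · rw [t1, s1]
        · rw [t2, s2]
        · rw [t3, s3]
        · rw [t4, s4]
  have h5 : g ∈ dbl G {a, b, c, d} a b c d := by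
    rw [hT, Finset.mem_filter]
    exact ⟨Finset.mem_univ _, hg, h1, h2, h3, h4⟩
  exact (mem_dbl.mp h5).2.1

theorem Setup.case4 {G : Subgroup (Perm α)} (h : Setup G 4) (hn : 7 ≤ Fintype.card α) : False := by
  classical
  obtain ⟨hA, hh⟩ := h.alt le_rfl
  have hodd : ∀ X : Finset α, X.card = 4 → Odd (Nat.card (fx G X)) := fun X hX =>
    odd_of_alt (G := G) (k := 4) (by omega) (fun S hS => (hA S hS).le) hX
  obtain ⟨X, hX⟩ := Finset.exists_subset_card_eq (s := (Finset.univ : Finset α)) (n := 4) (by rw [Finset.card_univ]; omega)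
  replace hX := hX.2
  have hX' := hX
  obtain ⟨a, b, c, d, hab, hac, had, hbc, hbd, hcd, hXe⟩ := Finset.card_eq_four.mp hX
  have hN : Even (Fintype.card α - 4) := ⟨Nat.card (fx G X), by have := hh X hX; omega⟩
  have key : ∀ a b c d : α, a ≠ b → a ≠ c → a ≠ d → b ≠ c → b ≠ d → c ≠ d → ∀ g ∈ G, g a = b → g b = a → g c = d → g d = c → g * g = 1 := by
    intro a b c d hab hac had hbc hbd hcd g hg h1 h2 h3 h4
    have hXc : ({a, b, c, d} : Finset α).card = 4 := Finset.card_eq_four.mpr ⟨a, b, c, d, hab, hac, had, hbc, hbd, hcd, rfl⟩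
    have h5 := le_two_mul_of_odd h.tr hodd (by omega) hN hXc (a := a) (b := b) (c := c) (d := d) (by simp) (by simp) (by simp) (by simp)
      hab hac had hbc hbd hcd
    have h6 := hh _ hXc
    exact dbl_all (by omega) hg h1 h2 h3 h4
  have hH : ∀ y ∈ ptw G X, y = 1 := by
    intro y hy
    have hya : y a = a := hy.2 a (by rw [hXe]; simp)
    have hyb : y b = b := hy.2 b (by rw [hXe]; simp)
    have hyc : y c = c := hy.2 c (by rw [hXe]; simp)
    have hyd : y d = d := hy.2 d (by rw [hXe]; simp)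
    -- g1 = (ab)(cd), g2 = (ac)(bd)
    obtain ⟨g1, hg1, h1⟩ := h.tr X hX (swap a b * swap c d)
    obtain ⟨g2, hg2, h2⟩ := h.tr X hX (swap a c * swap b d)
    have g1a : g1 a = b := by
      rw [h1 a (by rw [hXe]; simp), Perm.mul_apply, swap_apply_of_ne_of_ne hac had, swap_apply_left]
    have g1b : g1 b = a := by
      rw [h1 b (by rw [hXe]; simp), Perm.mul_apply, swap_apply_of_ne_of_ne hbc hbd, swap_apply_right]
    have g1c : g1 c = d := by
      rw [h1 c (by rw [hXe]; simp), Perm.mul_apply, swap_apply_left, swap_apply_of_ne_of_ne had.symm hbd.symm]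
    have g1d : g1 d = c := by
      rw [h1 d (by rw [hXe]; simp), Perm.mul_apply, swap_apply_right, swap_apply_of_ne_of_ne hac.symm hbc.symm]
    have g2a : g2 a = c := by
      rw [h2 a (by rw [hXe]; simp), Perm.mul_apply, swap_apply_of_ne_of_ne hab had, swap_apply_left]
    have g2c : g2 c = a := by
      rw [h2 c (by rw [hXe]; simp), Perm.mul_apply, swap_apply_of_ne_of_ne hbc.symm hcd, swap_apply_right]
    have g2b : g2 b = d := by
      rw [h2 b (by rw [hXe]; simp), Perm.mul_apply, swap_apply_left, swap_apply_of_ne_of_ne had.symm hcd.symm]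
    have g2d : g2 d = b := by
      rw [h2 d (by rw [hXe]; simp), Perm.mul_apply, swap_apply_right, swap_apply_of_ne_of_ne hab.symm hbc]
    have e1 : g1 * g1 = 1 := key a b c d hab hac had hbc hbd hcd g1 hg1 g1a g1b g1c g1d
    have e2 : g2 * g2 = 1 := key a c b d hac hab had hbc.symm hcd hbd g2 hg2 g2a g2c g2b g2d
    have e1y : (g1 * y) * (g1 * y) = 1 := key a b c d hab hac had hbc hbd hcd _ (G.mul_mem hg1 hy.1)
      (by rw [Perm.mul_apply, hya, g1a]) (by rw [Perm.mul_apply, hyb, g1b]) (by rw [Perm.mul_apply, hyc, g1c]) (by rw [Perm.mul_apply, hyd, g1d])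
    have e2y : (g2 * y) * (g2 * y) = 1 := key a c b d hac hab had hbc.symm hcd hbd _ (G.mul_mem hg2 hy.1)
      (by rw [Perm.mul_apply, hya, g2a]) (by rw [Perm.mul_apply, hyc, g2c]) (by rw [Perm.mul_apply, hyb, g2b]) (by rw [Perm.mul_apply, hyd, g2d])
    have e3 : (g1 * g2) * (g1 * g2) = 1 := key a d b c had hab hac hbd.symm hcd.symm hbc _ (G.mul_mem hg1 hg2)
      (by rw [Perm.mul_apply, g2a, g1c]) (by rw [Perm.mul_apply, g2d, g1b]) (by rw [Perm.mul_apply, g2b, g1d]) (by rw [Perm.mul_apply, g2c, g1a])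
    have e3y : (g1 * g2 * y) * (g1 * g2 * y) = 1 := key a d b c had hab hac hbd.symm hcd.symm hbc _ (G.mul_mem (G.mul_mem hg1 hg2) hy.1)
      (by rw [Perm.mul_apply, hya, Perm.mul_apply, g2a, g1c]) (by rw [Perm.mul_apply, hyd, Perm.mul_apply, g2d, g1b])
      (by rw [Perm.mul_apply, hyb, Perm.mul_apply, g2b, g1d]) (by rw [Perm.mul_apply, hyc, Perm.mul_apply, g2c, g1a])
    -- all three invert y
    have i1 : g1⁻¹ = g1 := inv_eq_of_mul_eq_one_left e1
    have i2 : g2⁻¹ = g2 := inv_eq_of_mul_eq_one_left e2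
    have f1 : g1 * y * g1⁻¹ = y⁻¹ := by
      rw [i1]
      apply eq_inv_of_mul_eq_one_left
      rw [← e1y]; group
    have f2 : g2 * y * g2⁻¹ = y⁻¹ := by
      rw [i2]
      apply eq_inv_of_mul_eq_one_left
      rw [← e2y]; group
    have i3 : (g1 * g2)⁻¹ = g1 * g2 := inv_eq_of_mul_eq_one_left e3
    have f3 : (g1 * g2) * y * (g1 * g2)⁻¹ = y⁻¹ := by
      rw [i3]
      apply eq_inv_of_mul_eq_one_left
      rw [← e3y]; group
    have f4 : (g1 * g2) * y * (g1 * g2)⁻¹ = y := by
      calc (g1 * g2) * y * (g1 * g2)⁻¹ = g1 * (g2 * y * g2⁻¹) * g1⁻¹ := by group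
        _ = (g1 * y * g1⁻¹)⁻¹ := by rw [f2]; group
        _ = y := by rw [f1, inv_inv]
    rw [f4] at f3
    have f5 : y * y = 1 := by nth_rewrite 2 [f3]; simp
    exact eq_one_of_odd (hodd X hX) hy.1 f5 hy.2
  have h1 : Nat.card (fx G X) = 1 := by
    rw [← card_ptw, Nat.card_eq_one_iff_unique]
    exact ⟨⟨fun u v => Subtype.ext (by rw [hH _ u.2, hH _ v.2])⟩, ⟨1⟩⟩
  have := hh X hX
  omega

end H16.LW
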