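import Mathlib
import Cfsg.Agent.Lib.H16.LW7

set_option autoImplicit false

/-! Livingstone–Wagner, part 8: the exceptional case `k = 3`. -/

namespace H16.LW

open Equiv MulAction

set_option linter.unusedSectionVars false

variable {α : Type*} [Fintype α] [DecidableEq α]

theorem Setup.odd3 {G : Subgroup (Perm α)} (h : Setup G 3) {X : Finset α} (hX : X.card = 3) : Odd (Nat.card (fx G X)) := by
  rw [← Nat.not_even_iff_odd]
  intro he
  have hle := h.le
  have h1 := le_two_mul_of_even h.tr h.reg (by omega) hX he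
  obtain ⟨S, hS⟩ := Finset.exists_subset_card_eq (s := (Finset.univ : Finset α)) (n := 4) (by rw [Finset.card_univ]; omega)
  have h2 := h.rel1 hX hS.2
  have h3 := h.lt hX
  have h4 := card_stS_dvd h.reg (S := S) (by rw [hS.2])
  rw [hS.2] at h4
  have hpos : 0 < Nat.card (fx G X) := Nat.card_pos
  have h5 : Nat.card (stS G S) = 12 := by
    obtain ⟨gS, hgS⟩ : ∃ gS, gS = Nat.card (stS G S) := ⟨_, rfl⟩
    obtain ⟨h', hh'⟩ : ∃ h', h' = Nat.card (fx G X) := ⟨_, rfl⟩
    obtain ⟨m, hm⟩ : ∃ m, m = Fintype.card α - 3 := ⟨_, rfl⟩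
    rw [← hh', ← hm] at h1 h3
    rw [← hh'] at hpos
    rw [← hh', ← hgS, ← hm] at h2
    rw [← hgS] at h4 ⊢
    rw [show Nat.factorial (3 + 1) = 24 from rfl] at h2
    rw [show Nat.factorial 4 = 24 from rfl] at h4
    have h6 : gS ≤ 24 := Nat.le_of_dvd (by decide) h4
    have h7 : gS < 24 := by
      by_contra hcon
      have : gS = 24 := by omega
      subst this
      omega
    have h8 : gS ≤ 12 := by
      by_contra hcon
      clear h2 hgS
      interval_cases gS <;> revert h4 <;> decide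
    have h9 : 12 ≤ gS := by
      by_contra hcon
      have h10 : gS * m ≤ 11 * m := Nat.mul_le_mul_right _ (by omega)
      omega
    omega
  have h6 := odd_of_alt (G := G) (k := 3) (by omega) (fun S' hS' => (alt_of_card h.reg hS' (by
    rw [card_stS_eq h.hom1 (by omega) hS' hS.2, h5]; rfl)).le) hX
  exact (Nat.not_even_iff_odd.mpr h6) he

theorem Setup.even3 {G : Subgroup (Perm α)} (h : Setup G 3) (hn : 6 ≤ Fintype.card α) (hev : Even (Fintype.card α))
    {X : Finset α} (hX : X.card = 3) :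
    (Fintype.card α - 2) * Nat.card (fx G X) ≤ 2 * (Nat.card (fx G X) + (Fintype.card α - 3)) := by
  classical
  obtain ⟨a, b, c₀, hab, hac₀, hbc₀, hXe⟩ := Finset.card_eq_three.mp hX
  obtain ⟨Ω, hΩ⟩ : ∃ Ω : Finset α, Ω = ({a, b} : Finset α)ᶜ := ⟨_, rfl⟩
  have hΩc : Ω.card = Fintype.card α - 2 := by rw [hΩ, Finset.card_compl, Finset.card_pair hab]
  have hΩm : ∀ x, x ∈ Ω ↔ x ≠ a ∧ x ≠ b := by
    intro x; rw [hΩ, Finset.mem_compl, Finset.mem_insert, Finset.mem_singleton, not_or]
  obtain ⟨I, hI⟩ : ∃ I : Finset (Perm α), I = Finset.univ.filter (fun t => t ∈ G ∧ t * t = 1 ∧ t a = b) := ⟨_, rfl⟩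
  have hIm : ∀ t, t ∈ I ↔ t ∈ G ∧ t * t = 1 ∧ t a = b := by
    intro t; rw [hI, Finset.mem_filter]; simp
  have htb : ∀ t ∈ I, t b = a := by
    intro t ht
    obtain ⟨-, h2, h3⟩ := (hIm t).mp ht
    rw [← h3, invol_apply h2]
  have hne1 : ∀ t ∈ I, t ≠ 1 := by
    rintro t ht rfl
    exact hab ((hIm _).mp ht).2.2
  have hΩt : ∀ t ∈ I, ∀ x ∈ Ω, t x ∈ Ω := by
    intro t ht x hx
    rw [hΩm] at hx ⊢
    refine ⟨fun h1 => hx.2 (t.injective (h1.trans (htb t ht).symm)), fun h1 => hx.1 (t.injective (h1.trans ((hIm t).mp ht).2.2.symm))⟩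
  have hfix3 : ∀ t ∈ I, (Ω.filter fun x => t x = x).card ≤ 3 := by
    intro t ht
    by_contra hcon
    obtain ⟨Y, hY, hYc⟩ := Finset.exists_subset_card_eq (show 4 ≤ (Ω.filter fun x => t x = x).card by omega)
    exact hne1 t ht (h.reg t ((hIm t).mp ht).1 Y hYc (fun y hy => (Finset.mem_filter.mp (hY hy)).2))
  have hfixe : ∀ t ∈ I, (Ω.filter fun x => t x = x).card % 2 = 0 := by
    intro t ht
    rw [← card_fix_mod ((hIm t).mp ht).2.1 Ω (hΩt t ht), hΩc]
    obtain ⟨r, hr⟩ := hev
    omega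
  have hfix : ∀ t ∈ I, (Ω.filter fun x => t x = x).card ≤ 2 := by
    intro t ht
    have := hfix3 t ht
    have := hfixe t ht
    omega
  -- the sets `F c`
  have hF : ∀ c ∈ Ω, Nat.card (fx G X) ≤ (I.filter fun t => t c = c).card := by
    intro c hc
    obtain ⟨hca, hcb⟩ := (hΩm c).mp hc
    have hXc : ({a, b, c} : Finset α).card = 3 := Finset.card_eq_three.mpr ⟨a, b, c, hab, hca.symm, hcb.symm, rfl⟩
    rw [card_fx_eq h.tr hX hXc, ← card_ptw]
    obtain ⟨t, ht, ht2, htx⟩ := exists_invol h.tr hXc (h.odd3 hXc) (swap a b) (by simp) (by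
      intro x hx
      simp only [Finset.mem_insert, Finset.mem_singleton] at hx ⊢
      rcases hx with rfl | rfl | rfl
      · right; left; rw [swap_apply_left]
      · left; rw [swap_apply_right]
      · right; right; rw [swap_apply_of_ne_of_ne hca hcb])
    have hta : t a = b := by rw [htx a (by simp), swap_apply_left]
    have htc : t c = c := by rw [htx c (by simp), swap_apply_of_ne_of_ne hca hcb]
    have htI : t ∈ I := (hIm t).mpr ⟨ht, ht2, hta⟩
    -- the other fixed point
    have h1 : 1 < (Ω.filter fun x => t x = x).card := by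
      have h2 := hfixe t htI
      have h3 : 0 < (Ω.filter fun x => t x = x).card := Finset.card_pos.mpr ⟨c, Finset.mem_filter.mpr ⟨hc, htc⟩⟩
      omega
    obtain ⟨d, hd, hdc⟩ := Finset.exists_mem_ne h1 c
    have hfixcd : (Ω.filter fun x => t x = x) = {c, d} := by
      symm
      apply Finset.eq_of_subset_of_card_le
      · intro x hx
        rw [Finset.mem_insert, Finset.mem_singleton] at hx
        rcases hx with rfl | rfl
        · exact Finset.mem_filter.mpr ⟨hc, htc⟩
        · exact hd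
      · rw [Finset.card_pair hdc.symm]
        exact hfix t htI
    rw [Finset.mem_filter] at hd
    have hcard : (I.filter fun t => t c = c).card = Nat.card ↥(I.filter fun t => t c = c) := by
      rw [Nat.card_eq_fintype_card, Fintype.card_coe]
    rw [hcard]
    have hyx : ∀ y ∈ ptw G {a, b, c}, y a = a ∧ y b = b ∧ y c = c := fun y hy =>
      ⟨hy.2 a (by simp), hy.2 b (by simp), hy.2 c (by simp)⟩
    apply Nat.card_le_card_of_injective (fun y : ptw G {a, b, c} => (⟨(y : Perm α) * t * (y : Perm α)⁻¹, by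
      obtain ⟨y, hy⟩ := y
      obtain ⟨y1, y2, y3⟩ := hyx y hy
      have z1 : y⁻¹ a = a := by rw [Perm.inv_eq_iff_eq]; exact y1.symm
      have z3 : y⁻¹ c = c := by rw [Perm.inv_eq_iff_eq]; exact y3.symm
      rw [Finset.mem_filter, hIm]
      refine ⟨⟨G.mul_mem (G.mul_mem hy.1 ht) (G.inv_mem hy.1), ?_, ?_⟩, ?_⟩
      · simp only
        calc y * t * y⁻¹ * (y * t * y⁻¹) = y * (t * t) * y⁻¹ := by group
          _ = 1 := by rw [ht2]; group
      · simp only
        rw [Perm.mul_apply, Perm.mul_apply, z1, hta, y2]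
      · simp only
        rw [Perm.mul_apply, Perm.mul_apply, z3, htc, y3]⟩ : ↥(I.filter fun t => t c = c)))
    rintro ⟨y, hy⟩ ⟨z, hz⟩ hyz
    have hyz' : y * t * y⁻¹ = z * t * z⁻¹ := congrArg Subtype.val hyz
    have hw : z⁻¹ * y ∈ ptw G {a, b, c} := (ptw G {a, b, c}).mul_mem ((ptw G {a, b, c}).inv_mem hz) hy
    have hwt : t * (z⁻¹ * y) = (z⁻¹ * y) * t := by
      calc t * (z⁻¹ * y) = z⁻¹ * (z * t * z⁻¹) * y := by group
        _ = (z⁻¹ * y) * t := by rw [← hyz']; group
    obtain ⟨w, hwe⟩ : ∃ w, w = z⁻¹ * y := ⟨_, rfl⟩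
    rw [← hwe] at hw hwt
    obtain ⟨w1, w2, w3⟩ := hyx w hw
    have hwd : w d = d := by
      have h4 : t (w d) = w d := by
        rw [← Perm.mul_apply, hwt, Perm.mul_apply, hd.2]
      have h5 : w d ∈ Ω.filter fun x => t x = x := by
        rw [Finset.mem_filter, hΩm]
        obtain ⟨hda, hdb⟩ := (hΩm d).mp hd.1
        exact ⟨⟨fun h => hda (w.injective (h.trans w1.symm)), fun h => hdb (w.injective (h.trans w2.symm))⟩, h4⟩
      rw [hfixcd, Finset.mem_insert, Finset.mem_singleton] at h5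
      rcases h5 with h5 | h5
      · exact absurd (w.injective (h5.trans w3.symm)) hdc
      · exact h5
    obtain ⟨hda, hdb⟩ := (hΩm d).mp hd.1
    have h6 : w = 1 := h.reg w hw.1 {a, b, c, d} (Finset.card_eq_four.mpr ⟨a, b, c, d, hab, hca.symm, hda.symm, hcb.symm, hdb.symm, hdc.symm, rfl⟩) (by
      intro y hy
      simp only [Finset.mem_insert, Finset.mem_singleton] at hy
      rcases hy with rfl | rfl | rfl | rfl
      · exact w1
      · exact w2
      · exact w3
      · exact hwd)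
    rw [hwe] at h6
    apply Subtype.ext
    exact (inv_mul_eq_one.mp h6).symm
  -- bound on `I`
  have hc₀ : c₀ ∈ Ω := (hΩm c₀).mpr ⟨hac₀.symm, hbc₀.symm⟩
  have hI1 : (I.filter fun t => t c₀ = c₀).card ≤ Nat.card (fx G X) := by
    apply card_coset_le
    · intro t ht; exact ((hIm t).mp (Finset.mem_filter.mp ht).1).1
    · intro t ht s hs x hx
      rw [Finset.mem_filter] at ht hs
      rw [hXe] at hx
      simp only [Finset.mem_insert, Finset.mem_singleton] at hx
      rcases hx with rfl | rfl | rfl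
      · rw [((hIm t).mp ht.1).2.2, ((hIm s).mp hs.1).2.2]
      · rw [htb t ht.1, htb s hs.1]
      · rw [ht.2, hs.2]
  have hI2 : (I.filter fun t => ¬ t c₀ = c₀).card ≤ Fintype.card α - 3 := by
    have h1 : (Ω.erase c₀).card = Fintype.card α - 3 := by
      rw [Finset.card_erase_of_mem hc₀, hΩc]
      omega
    rw [← h1]
    apply Finset.card_le_card_of_injOn (fun t => t c₀)
    · intro t ht
      rw [Finset.mem_coe, Finset.mem_filter] at ht
      rw [Finset.mem_coe, Finset.mem_erase]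
      exact ⟨ht.2, hΩt t ht.1 _ hc₀⟩
    · intro t ht s hs hts
      rw [Finset.mem_coe, Finset.mem_filter] at ht hs
      simp only at hts
      obtain ⟨t1, t2, t3⟩ := (hIm t).mp ht.1
      obtain ⟨s1, s2, s3⟩ := (hIm s).mp hs.1
      have t4 := htb t ht.1
      have s4 := htb s hs.1
      obtain ⟨e, he⟩ : ∃ e, e = t c₀ := ⟨_, rfl⟩
      have t5 : t e = c₀ := by rw [he, invol_apply t2]
      have s5 : s e = c₀ := by rw [he, hts, invol_apply s2]
      have hec : e ≠ c₀ := by rw [he]; exact ht.2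
      have heΩ : e ∈ Ω := by rw [he]; exact hΩt t ht.1 _ hc₀
      obtain ⟨hea, heb⟩ := (hΩm e).mp heΩ
      rw [← he] at hts
      have h6 : s * t = 1 := h.reg (s * t) (G.mul_mem s1 t1) {a, b, c₀, e} (Finset.card_eq_four.mpr ⟨a, b, c₀, e, hab, hac₀, hea.symm, hbc₀, heb.symm, hec.symm, rfl⟩) (by
        intro y hy
        simp only [Finset.mem_insert, Finset.mem_singleton] at hy
        rw [Perm.mul_apply]
        rcases hy with h7 | h7 | h7 | h7
        · rw [h7, t3, s4]
        · rw [h7, t4, s3]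
        · rw [h7, ← he, s5]
        · rw [h7, t5, ← hts])
      have h7 : s⁻¹ = s := inv_eq_of_mul_eq_one_left s2
      have h8 : t = s⁻¹ := eq_inv_of_mul_eq_one_right h6
      rw [h8, h7]
  have hI3 : I.card ≤ Nat.card (fx G X) + (Fintype.card α - 3) := by
    have h1 : (I.filter fun t => t c₀ = c₀).card + (I.filter fun t => ¬ t c₀ = c₀).card = I.card :=
      Finset.card_filter_add_card_filter_not (s := I) (fun t => t c₀ = c₀)
    omega
  -- double counting
  have hsum : ∑ c ∈ Ω, (I.filter fun t => t c = c).card = ∑ t ∈ I, (Ω.filter fun x => t x = x).card := by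
    simp only [Finset.card_filter]
    rw [Finset.sum_comm]
  calc (Fintype.card α - 2) * Nat.card (fx G X) = ∑ c ∈ Ω, Nat.card (fx G X) := by rw [Finset.sum_const, hΩc, smul_eq_mul]
    _ ≤ ∑ c ∈ Ω, (I.filter fun t => t c = c).card := Finset.sum_le_sum hF
    _ = ∑ t ∈ I, (Ω.filter fun x => t x = x).card := hsum
    _ ≤ ∑ t ∈ I, 2 := Finset.sum_le_sum hfix
    _ = 2 * I.card := by rw [Finset.sum_const, smul_eq_mul, mul_comm]
    _ ≤ _ := by omega

/-- degree 7 does not occur -/
theorem Setup.seven3 {G : Subgroup (Perm α)} (h : Setup G 3) (hn : Fintype.card α = 7)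
    {X : Finset α} (hX : X.card = 3) (h1 : Nat.card (fx G X) = 1) : False := by
  classical
  have hreg : ∀ g ∈ G, ∀ Y : Finset α, Y.card = 3 → (∀ y ∈ Y, g y = y) → g = 1 := by
    intro g hg Y hY hgY
    have h2 : Nat.card (fx G Y) = 1 := by rw [card_fx_eq h.tr hY hX, h1]
    have h3 := pow_card_fx hg hgY
    rw [h2, pow_one] at h3
    exact h3
  obtain ⟨S, hS⟩ := Finset.exists_subset_card_eq (s := (Finset.univ : Finset α)) (n := 4) (by rw [Finset.card_univ]; omega)
  replace hS := hS.2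
  have hS' := hS
  obtain ⟨a, b, d, e, hab, had, hae, hbd, hbe, hde, hSe⟩ := Finset.card_eq_four.mp hS
  have h24 := h.rel1 hX hS
  rw [h1, hn, show Nat.factorial (3 + 1) = 24 from rfl] at h24
  have hgS : Nat.card (stS G S) = 6 := by omega
  -- elements swapping two points are involutions
  have key : ∀ a b : α, a ≠ b → ∀ g ∈ G, g a = b → g b = a → g * g = 1 := by
    intro a b hab g hg hga hgb
    obtain ⟨Ω, hΩ⟩ : ∃ Ω : Finset α, Ω = ({a, b} : Finset α)ᶜ := ⟨_, rfl⟩
    have hΩc : Ω.card = 5 := by rw [hΩ, Finset.card_compl, Finset.card_pair hab, hn]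
    have hΩm : ∀ x, x ∈ Ω ↔ x ≠ a ∧ x ≠ b := by
      intro x; rw [hΩ, Finset.mem_compl, Finset.mem_insert, Finset.mem_singleton, not_or]
    obtain ⟨C, hC⟩ : ∃ C : Finset (Perm α), C = Finset.univ.filter (fun t => t ∈ G ∧ t a = b ∧ t b = a) := ⟨_, rfl⟩
    have hCm : ∀ t, t ∈ C ↔ t ∈ G ∧ t a = b ∧ t b = a := by
      intro t; rw [hC, Finset.mem_filter]; simp
    obtain ⟨c₀, hc₀⟩ := Finset.card_pos.mp (show 0 < Ω.card by omega)
    have hCc : C.card ≤ 5 := by
      rw [← hΩc]
      apply Finset.card_le_card_of_injOn (fun t => t c₀)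
      · intro t ht
        rw [Finset.mem_coe] at ht
        rw [Finset.mem_coe, hΩm]
        obtain ⟨t1, t2, t3⟩ := (hCm t).mp ht
        obtain ⟨hca, hcb⟩ := (hΩm c₀).mp hc₀
        exact ⟨fun h => hcb (t.injective (h.trans t3.symm)), fun h => hca (t.injective (h.trans t2.symm))⟩
      · intro t ht s hs hts
        rw [Finset.mem_coe] at ht hs
        simp only at hts
        obtain ⟨t1, t2, t3⟩ := (hCm t).mp ht
        obtain ⟨s1, s2, s3⟩ := (hCm s).mp hs
        obtain ⟨hca, hcb⟩ := (hΩm c₀).mp hc₀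
        have h6 : s⁻¹ * t = 1 := hreg _ (G.mul_mem (G.inv_mem s1) t1) {a, b, c₀} (Finset.card_eq_three.mpr ⟨a, b, c₀, hab, hca.symm, hcb.symm, rfl⟩) (by
          intro y hy
          simp only [Finset.mem_insert, Finset.mem_singleton] at hy
          rw [Perm.mul_apply, Perm.inv_eq_iff_eq]
          rcases hy with rfl | rfl | rfl
          · rw [t2, s2]
          · rw [t3, s3]
          · exact hts)
        exact (inv_mul_eq_one.mp h6).symm
    -- the elements `t c`
    have hex : ∀ c ∈ Ω, ∃ t ∈ C, t c = c := by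
      intro c hc
      obtain ⟨hca, hcb⟩ := (hΩm c).mp hc
      obtain ⟨t, ht, htx⟩ := h.tr {a, b, c} (Finset.card_eq_three.mpr ⟨a, b, c, hab, hca.symm, hcb.symm, rfl⟩) (swap a b)
      refine ⟨t, (hCm t).mpr ⟨ht, ?_, ?_⟩, ?_⟩
      · rw [htx a (by simp), swap_apply_left]
      · rw [htx b (by simp), swap_apply_right]
      · rw [htx c (by simp), swap_apply_of_ne_of_ne hca hcb]
    choose! T hT hTc using hex
    have hinv : ∀ t ∈ C, ∀ c ∈ Ω, t c = c → t * t = 1 := by
      intro t ht c hc htc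
      obtain ⟨t1, t2, t3⟩ := (hCm t).mp ht
      obtain ⟨hca, hcb⟩ := (hΩm c).mp hc
      apply hreg _ (G.mul_mem t1 t1) {a, b, c} (Finset.card_eq_three.mpr ⟨a, b, c, hab, hca.symm, hcb.symm, rfl⟩)
      intro y hy
      simp only [Finset.mem_insert, Finset.mem_singleton] at hy
      rw [Perm.mul_apply]
      rcases hy with rfl | rfl | rfl
      · rw [t2, t3]
      · rw [t3, t2]
      · rw [htc, htc]
    have huniq : ∀ t ∈ C, ∀ c ∈ Ω, ∀ c' ∈ Ω, t c = c → t c' = c' → c = c' := by
      intro t ht c hc c' hc' h2 h3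
      by_contra hne
      obtain ⟨t1, t2, t3⟩ := (hCm t).mp ht
      have ht2 := hinv t ht c hc h2
      have hΩt : ∀ x ∈ Ω, t x ∈ Ω := by
        intro x hx
        rw [hΩm] at hx ⊢
        exact ⟨fun h => hx.2 (t.injective (h.trans t3.symm)), fun h => hx.1 (t.injective (h.trans t2.symm))⟩
      have h4 := card_fix_mod ht2 Ω hΩt
      rw [hΩc] at h4
      have h5 : 2 ≤ (Ω.filter fun x => t x = x).card := by
        rw [← Finset.card_pair hne]
        apply Finset.card_le_card
        intro x hx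
        rw [Finset.mem_insert, Finset.mem_singleton] at hx
        rcases hx with rfl | rfl
        · exact Finset.mem_filter.mpr ⟨hc, h2⟩
        · exact Finset.mem_filter.mpr ⟨hc', h3⟩
      obtain ⟨Y, hY, hYc⟩ := Finset.exists_subset_card_eq (show 3 ≤ (Ω.filter fun x => t x = x).card by omega)
      have h6 := hreg t t1 Y hYc (fun y hy => (Finset.mem_filter.mp (hY hy)).2)
      rw [h6] at t2
      exact hab t2
    have himg : Ω.image T = C := by
      apply Finset.eq_of_subset_of_card_le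
      · intro t ht
        rw [Finset.mem_image] at ht
        obtain ⟨c, hc, rfl⟩ := ht
        exact hT c hc
      · rw [Finset.card_image_of_injOn, hΩc]
        · exact hCc
        · intro c hc c' hc' hcc'
          have h7 := hTc c' hc'
          rw [← hcc'] at h7
          exact huniq (T c) (hT c hc) c hc c' hc' (hTc c hc) h7
    have hgC : g ∈ Ω.image T := by rw [himg]; exact (hCm g).mpr ⟨hg, hga, hgb⟩
    rw [Finset.mem_image] at hgC
    obtain ⟨c, hc, hcg⟩ := hgC
    exact hinv g ((hCm g).mpr ⟨hg, hga, hgb⟩) c hc (by rw [← hcg]; exact hTc c hc)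
  -- double transpositions on S
  have hdt : ∀ a b d e : α, a ≠ b → a ≠ d → b ≠ d → d ≠ e → a ≠ e → b ≠ e → ∃ g ∈ G, g a = b ∧ g b = a ∧ g d = e ∧ g e = d := by
    intro a b d e hab had hbd hde hae hbe
    obtain ⟨g, hg, hgx⟩ := h.tr {a, b, d} (Finset.card_eq_three.mpr ⟨a, b, d, hab, had, hbd, rfl⟩) (swap a b * swap d e)
    have g1 : g a = b := by
      rw [hgx a (by simp), Perm.mul_apply, swap_apply_of_ne_of_ne had hae, swap_apply_left]
    have g2 : g b = a := by
      rw [hgx b (by simp), Perm.mul_apply, swap_apply_of_ne_of_ne hbd hbe, swap_apply_right]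
    have g3 : g d = e := by
      rw [hgx d (by simp), Perm.mul_apply, swap_apply_left, swap_apply_of_ne_of_ne hae.symm hbe.symm]
    have g4 := key a b hab g hg g1 g2
    exact ⟨g, hg, g1, g2, g3, by rw [← g3, invol_apply g4]⟩
  have hmem : ∀ x, x ∈ S ↔ x = a ∨ x = b ∨ x = d ∨ x = e := by
    intro x; rw [hSe]; simp
  have horb : orbit (stS G S) a = (S : Set α) := by
    apply Set.Subset.antisymm
    · rintro y ⟨g, rfl⟩
      exact (g.2.2 a).mp ((hmem a).mpr (by tauto))
    · intro y hy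
      rw [Finset.mem_coe, hmem] at hy
      rcases hy with hy | hy | hy | hy
      · rw [hy]; exact mem_orbit_self _
      · obtain ⟨g, hg, g1, g2, g3, g4⟩ := hdt a b d e hab had hbd hde hae hbe
        refine ⟨⟨g, mem_stS_of hg ?_⟩, ?_⟩
        · intro x hx
          rw [hmem] at hx ⊢
          rcases hx with rfl | rfl | rfl | rfl
          · tauto
          · tauto
          · tauto
          · tauto
        · exact g1.trans hy.symm
      · obtain ⟨g, hg, g1, g2, g3, g4⟩ := hdt a d b e had hab hbd.symm hbe hae hde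
        refine ⟨⟨g, mem_stS_of hg ?_⟩, ?_⟩
        · intro x hx
          rw [hmem] at hx ⊢
          rcases hx with rfl | rfl | rfl | rfl
          · tauto
          · tauto
          · tauto
          · tauto
        · exact g1.trans hy.symm
      · obtain ⟨g, hg, g1, g2, g3, g4⟩ := hdt a e b d hae hab hbe.symm hbd had hde.symm
        refine ⟨⟨g, mem_stS_of hg ?_⟩, ?_⟩
        · intro x hx
          rw [hmem] at hx ⊢
          rcases hx with rfl | rfl | rfl | rfl
          · tauto
          · tauto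
          · tauto
          · tauto
        · exact g1.trans hy.symm
  have h2 := MulAction.index_stabilizer (stS G S) a
  have h3 := (MulAction.stabilizer (stS G S) a).index_dvd_card
  rw [h2, horb, Set.ncard_coe_finset, hS', hgS] at h3
  omega

theorem Setup.case3 {G : Subgroup (Perm α)} (h : Setup G 3) (hn : 6 ≤ Fintype.card α) :
    (Fintype.card α = 6 ∧ Nat.card G = 120) ∨ (Fintype.card α = 9 ∧ (Nat.card G = 504 ∨ Nat.card G = 1512)) := by
  obtain ⟨X, hX⟩ := Finset.exists_subset_card_eq (s := (Finset.univ : Finset α)) (n := 3) (by rw [Finset.card_univ]; omega)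
  obtain ⟨S, hS⟩ := Finset.exists_subset_card_eq (s := (Finset.univ : Finset α)) (n := 4) (by rw [Finset.card_univ]; omega)
  obtain ⟨T, hT⟩ := Finset.exists_subset_card_eq (s := (Finset.univ : Finset α)) (n := 5) (by rw [Finset.card_univ]; omega)
  have h1 := h.lt hX.2
  have h2 := h.rel1 hX.2 hS.2
  have h3 := h.rel2 hS.2 hT.2
  have h4 := card_stS_dvd h.reg (S := S) (by rw [hS.2])
  have h5 := card_tr h.tr hX.2
  have h6 := h.odd3 hX.2
  have h7 := fun he => h.even3 hn he hX.2
  have h8 := fun he => h.seven3 he hX.2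
  rw [hS.2] at h4
  obtain ⟨gS, hgS⟩ : ∃ gS, gS = Nat.card (stS G S) := ⟨_, rfl⟩
  obtain ⟨gT, hgT⟩ : ∃ gT, gT = Nat.card (stS G T) := ⟨_, rfl⟩
  have hgT0 : 0 < gT := by rw [hgT]; exact Nat.card_pos
  obtain ⟨h', hh'⟩ : ∃ h', h' = Nat.card (fx G X) := ⟨_, rfl⟩
  obtain ⟨n, hn'⟩ : ∃ n, n = Fintype.card α := ⟨_, rfl⟩
  rw [← hn'] at h1 h2 h3 hn h5 h7 h8 ⊢
  rw [← hh'] at h1 h2 h5 h6 h7 h8
  rw [← hgS] at h2 h3 h4
  rw [← hgT] at h3
  clear hgS hgT hh'
  rw [show Nat.factorial (3 + 1) = 24 from rfl] at h2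
  rw [show Nat.factorial 4 = 24 from rfl] at h4
  have h9 : gS ≤ 24 := Nat.le_of_dvd (by decide) h4
  have h10 : gS < 24 := by
    by_contra hcon
    have : gS = 24 := by omega
    subst this
    omega
  have h11 : n ≤ 124 := by
    by_contra hcon
    have : 1 * (n - (3 + 1)) ≤ gT * (n - (3 + 1)) := Nat.mul_le_mul_right _ hgT0
    omega
  have h12 : gS = 1 ∨ gS = 2 ∨ gS = 3 ∨ gS = 4 ∨ gS = 6 ∨ gS = 8 ∨ gS = 12 := by
    clear h2 h3
    interval_cases gS <;> omega
  have h13 : (n = 6 ∧ h' = 1) ∨ (n = 7 ∧ h' = 1) ∨ (n = 9 ∧ (h' = 1 ∨ h' = 3)) ∨ (n = 12 ∧ h' = 3) ∨ (n = 24 ∧ h' = 7) := by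
    obtain ⟨r, hr⟩ := h6
    clear h7 h8 h5
    rcases h12 with h12 | h12 | h12 | h12 | h12 | h12 | h12 <;> subst h12 <;> interval_cases n <;> omega
  rcases h13 with ⟨h13, h14⟩ | ⟨h13, h14⟩ | ⟨h13, h14⟩ | ⟨h13, h14⟩ | ⟨h13, h14⟩
  · left
    refine ⟨h13, ?_⟩
    rw [h5, h13, h14]
    rfl
  · exact absurd h14 (fun h => h8 h13 h)
  · right
    refine ⟨h13, ?_⟩
    rcases h14 with h14 | h14
    · left; rw [h5, h13, h14]; rfl
    · right; rw [h5, h13, h14]; rfl
  · exfalso
    have := h7 (by rw [h13]; decide)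
    rw [h13, h14] at this
    omega
  · exfalso
    have := h7 (by rw [h13]; decide)
    rw [h13, h14] at this
    omega

end H16.LW
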