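import Mathlib
import Cfsg.Agent.Lib.H16.LW8
import Cfsg.Agent.Lib.H27.GenSub

set_option autoImplicit false

/-! Livingstone–Wagner, part 9: `k`-homogeneous groups are `k`-transitive for `k ≥ 5`. -/

namespace H16.LW

open Equiv MulAction

set_option linter.unusedSectionVars false

variable {α : Type*} [Fintype α] [DecidableEq α]

/-- if one `k`-set induces the alternating group, all do -/
theorem alt_all {G : Subgroup (Perm α)} {k : ℕ} (hh : IsPretransitive G (Set.powersetCard α k)) {Δ : Finset α} (hΔ : Δ.card = k)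
    (h : ∀ σ : Perm ↥Δ, σ ∈ alternatingGroup ↥Δ → ∃ g ∈ G, ∀ x : ↥Δ, g (x : α) = σ x) {S : Finset α} (hS : S.card = k) :
    alternatingGroup ↥S ≤ ind (stS G S) S := by
  intro σ hσ
  obtain ⟨g0, hg0, hg0S⟩ := H16.PermBasic.homog_iff.mp hh S Δ hS hΔ
  have hmem : ∀ x, x ∈ S ↔ g0 x ∈ Δ := by
    intro x
    rw [← hg0S, Finset.mem_image]
    exact ⟨fun hx => ⟨x, hx, rfl⟩, fun ⟨y, hy, hyx⟩ => by rw [← g0.injective hyx]; exact hy⟩
  let e : ↥S ≃ ↥Δ := g0.subtypeEquiv hmem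
  have h1 : e.permCongr σ ∈ alternatingGroup ↥Δ := by
    rw [Perm.mem_alternatingGroup, Perm.sign_permCongr]
    exact Perm.mem_alternatingGroup.mp hσ
  obtain ⟨g, hg, hgx⟩ := h _ h1
  have h2 : ∀ x : ↥S, (g0⁻¹ * g * g0) (x : α) = σ x := by
    intro x
    rw [Perm.mul_apply, Perm.mul_apply, Perm.inv_eq_iff_eq]
    have h3 := hgx (e x)
    rw [Equiv.permCongr_apply, Equiv.symm_apply_apply] at h3
    exact h3
  exact ⟨g0⁻¹ * g * g0, mem_stS_of (G.mul_mem (G.mul_mem (G.inv_mem hg0) hg) hg0) (fun x hx => by rw [h2 ⟨x, hx⟩]; exact (σ ⟨x, hx⟩).2), h2⟩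

theorem two_classes {G : Subgroup (Perm α)} {k : ℕ} (hh : IsPretransitive G (Set.powersetCard α k))
    (hAlt : ∀ S : Finset α, S.card = k → alternatingGroup ↥S ≤ ind (stS G S) S) {S : Finset α} (hS : S.card = k) (τ : Perm α)
    {s s' : α} (hs : s ∈ S) (hs' : s' ∈ S) (hne : s ≠ s') :
    (∃ g ∈ G, ∀ x ∈ S, g x = τ x) ∨ (∃ g ∈ G, ∀ x ∈ S, g x = τ (swap s s' x)) := by
  obtain ⟨g0, hg0, hg0S⟩ := H16.PermBasic.homog_iff.mp hh S (S.image τ) hS (by rw [Finset.card_image_of_injective _ τ.injective, hS])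
  have hmem : ∀ x, (g0⁻¹ * τ) x ∈ S ↔ x ∈ S := by
    intro x
    have h1 : x ∈ S ↔ τ x ∈ S.image τ := by
      rw [Finset.mem_image]
      exact ⟨fun hx => ⟨x, hx, rfl⟩, fun ⟨y, hy, hyx⟩ => by rw [← τ.injective hyx]; exact hy⟩
    rw [h1, ← hg0S, Finset.mem_image, Perm.mul_apply]
    constructor
    · intro h2
      exact ⟨_, h2, by simp⟩
    · rintro ⟨y, hy, hyx⟩
      rw [← hyx]
      simpa using hy
  rcases Int.units_eq_one_or (Perm.sign (Perm.subtypePerm (g0⁻¹ * τ) hmem)) with h1 | h1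
  · left
    obtain ⟨h, hh1, hh2⟩ := hAlt S hS (Perm.mem_alternatingGroup.mpr h1)
    refine ⟨g0 * h, G.mul_mem hg0 hh1.1, fun x hx => ?_⟩
    have h3 := hh2 ⟨x, hx⟩
    rw [Perm.mul_apply]
    change h x = (g0⁻¹ * τ) x at h3
    rw [h3, Perm.mul_apply]
    simp
  · right
    obtain ⟨h, hh1, hh2⟩ := hAlt S hS (x := Perm.subtypePerm (g0⁻¹ * τ) hmem * swap ⟨s, hs⟩ ⟨s', hs'⟩) (by
      rw [Perm.mem_alternatingGroup, Perm.sign_mul, h1, Perm.sign_swap (by rw [Ne, Subtype.mk.injEq]; exact hne)]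
      decide)
    refine ⟨g0 * h, G.mul_mem hg0 hh1.1, fun x hx => ?_⟩
    have h3 := hh2 ⟨x, hx⟩
    rw [Perm.mul_apply]
    have h4 : ((swap (⟨s, hs⟩ : ↥S) ⟨s', hs'⟩ ⟨x, hx⟩ : ↥S) : α) = swap s s' x := by
      by_cases e1 : x = s
      · subst e1
        rw [swap_apply_left, swap_apply_left]
      · by_cases e2 : x = s'
        · subst e2
          rw [swap_apply_right, swap_apply_right]
        · rw [swap_apply_of_ne_of_ne e1 e2, swap_apply_of_ne_of_ne]
          · rw [Ne, Subtype.mk.injEq]; exact e1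
          · rw [Ne, Subtype.mk.injEq]; exact e2
    have h5 : h x = (g0⁻¹ * τ) (swap s s' x) := by rw [← h4]; exact h3
    rw [h5, Perm.mul_apply]
    simp

/-- if an odd permutation is induced, the group is `k`-transitive -/
theorem tr_of_odd {G : Subgroup (Perm α)} {k : ℕ} (hh : IsPretransitive G (Set.powersetCard α k))
    (hAlt : ∀ S : Finset α, S.card = k → alternatingGroup ↥S ≤ ind (stS G S) S) {S : Finset α} (hS : S.card = k)
    (hodd : ¬ ind (stS G S) S ≤ alternatingGroup ↥S) : Tr G k := by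
  have htop : ∀ π : Perm ↥S, π ∈ ind (stS G S) S := by
    rw [SetLike.not_le_iff_exists] at hodd
    obtain ⟨τ, hτ, hτ'⟩ := hodd
    rw [Perm.mem_alternatingGroup] at hτ'
    have hτ1 : Perm.sign τ = -1 := (Int.units_eq_one_or _).resolve_left hτ'
    intro π
    rcases Int.units_eq_one_or (Perm.sign π) with h1 | h1
    · exact hAlt S hS (Perm.mem_alternatingGroup.mpr h1)
    · have h2 : π * τ ∈ ind (stS G S) S := hAlt S hS (by
        rw [Perm.mem_alternatingGroup, Perm.sign_mul, h1, hτ1]; decide)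
      have h3 := (ind (stS G S) S).mul_mem h2 ((ind (stS G S) S).inv_mem hτ)
      rwa [mul_inv_cancel_right] at h3
  intro X hX σ
  obtain ⟨g1, hg1, hg1S⟩ := H16.PermBasic.homog_iff.mp hh X S hX hS
  obtain ⟨g2, hg2, hg2S⟩ := H16.PermBasic.homog_iff.mp hh S (X.image σ) hS (by rw [Finset.card_image_of_injective _ σ.injective, hX])
  have hmem : ∀ x, (g2⁻¹ * σ * g1⁻¹) x ∈ S ↔ x ∈ S := by
    intro x
    have e1 : x ∈ S ↔ g1⁻¹ x ∈ X := by
      rw [← hg1S, Finset.mem_image]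
      constructor
      · rintro ⟨y, hy, rfl⟩; simpa using hy
      · intro h; exact ⟨_, h, by simp⟩
    have e2 : g1⁻¹ x ∈ X ↔ σ (g1⁻¹ x) ∈ X.image σ := by
      rw [Finset.mem_image]
      exact ⟨fun hx => ⟨_, hx, rfl⟩, fun ⟨y, hy, hyx⟩ => by rw [← σ.injective hyx]; exact hy⟩
    rw [e1, e2, ← hg2S, Finset.mem_image, Perm.mul_apply, Perm.mul_apply]
    constructor
    · intro h2
      exact ⟨_, h2, by simp⟩
    · rintro ⟨y, hy, hyx⟩
      rw [← hyx]
      simpa using hy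
  obtain ⟨h, hh1, hh2⟩ := htop (Perm.subtypePerm (g2⁻¹ * σ * g1⁻¹) hmem)
  refine ⟨g2 * h * g1, G.mul_mem (G.mul_mem hg2 hh1.1) hg1, fun x hx => ?_⟩
  have hx1 : g1 x ∈ S := by rw [← hg1S]; exact Finset.mem_image_of_mem _ hx
  have h3 : h (g1 x) = (g2⁻¹ * σ * g1⁻¹) (g1 x) := hh2 ⟨g1 x, hx1⟩
  rw [Perm.mul_apply, Perm.mul_apply, h3, Perm.mul_apply, Perm.mul_apply]
  simp

end H16.LW
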