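import Mathlib
import Cfsg.Agent.Lib.H16.LW9

set_option autoImplicit false

/-! Livingstone–Wagner, part 10: `k`-homogeneous groups are `k`-transitive for `k ≥ 5`. -/

namespace H16.LW

open Equiv MulAction

set_option linter.unusedSectionVars false

variable {α : Type*} [Fintype α] [DecidableEq α]

/-- an involution acting as a transposition on a set of at least `5` points -/
theorem no_invol {G : Subgroup (Perm α)} {K : ℕ} (hA : ∀ S : Finset α, S.card = K + 1 → ind (stS G S) S ≤ alternatingGroup ↥S)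
    (hK : 5 ≤ K) (hn : K + 3 ≤ Fintype.card α) {X : Finset α} (hX : X.card = K) {a b : α} (ha : a ∈ X) (hb : b ∈ X) (hab : a ≠ b)
    {t : Perm α} (ht : t ∈ G) (ht2 : t * t = 1) (htx : ∀ x ∈ X, t x = swap a b x) : False := by
  have htX : ∀ x, x ∈ X → t x ∈ X := by
    intro x hx
    rw [htx x hx]
    by_cases h1 : x = a
    · rw [h1, swap_apply_left]; exact hb
    · by_cases h2 : x = b
      · rw [h2, swap_apply_right]; exact ha
      · rw [swap_apply_of_ne_of_ne h1 h2]; exact hx
  have htX' : ∀ x, x ∉ X → t x ∉ X := by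
    intro x hx h1
    have := htX _ h1
    rw [invol_apply ht2] at this
    exact hx this
  -- no fixed points outside `X`
  have hnf : ∀ z, z ∉ X → t z ≠ z := by
    intro z hz hzz
    have hza : z ≠ a := fun h => hz (h ▸ ha)
    have hzb : z ≠ b := fun h => hz (h ▸ hb)
    have h1 := sign_of_alt (hA (insert z X) (by rw [Finset.card_insert_of_notMem hz, hX])) (g := t) (σ := swap a b) ht
      (by
        intro x hx
        by_cases h1 : x = a
        · rw [h1, swap_apply_left]; exact Finset.mem_insert_of_mem hb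
        · by_cases h2 : x = b
          · rw [h2, swap_apply_right]; exact Finset.mem_insert_of_mem ha
          · rw [swap_apply_of_ne_of_ne h1 h2]; exact hx)
      (by
        intro x hx
        by_cases h1 : x = a
        · rw [h1]; exact Finset.mem_insert_of_mem ha
        · by_cases h2 : x = b
          · rw [h2]; exact Finset.mem_insert_of_mem hb
          · rw [swap_apply_of_ne_of_ne h1 h2] at hx; exact absurd rfl hx)
      (by
        intro x hx
        rcases Finset.mem_insert.mp hx with h1 | h1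
        · rw [h1, hzz, swap_apply_of_ne_of_ne hza hzb]
        · exact htx x h1)
    rw [Perm.sign_swap hab] at h1
    exact absurd h1 (by decide)
  -- two 2-cycles outside `X`
  have hcompl : Xᶜ.card = Fintype.card α - K := by rw [Finset.card_compl, hX]
  obtain ⟨c, hc⟩ := Finset.card_pos.mp (show 0 < Xᶜ.card by omega)
  obtain ⟨e, he, hen⟩ : ∃ e ∈ Xᶜ, e ∉ ({c, t c} : Finset α) := by
    apply Finset.exists_mem_notMem_of_card_lt_card
    have := Finset.card_le_two (a := c) (b := t c)
    omega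
  rw [Finset.mem_compl] at hc he
  rw [Finset.mem_insert, Finset.mem_singleton, not_or] at hen
  have hc' := htX' c hc
  have he' := htX' e he
  obtain ⟨c', hc'e⟩ : ∃ c', c' = t c := ⟨_, rfl⟩
  obtain ⟨e', he'e⟩ : ∃ e', e' = t e := ⟨_, rfl⟩
  have htc' : t c' = c := by rw [hc'e, invol_apply ht2]
  have hte' : t e' = e := by rw [he'e, invol_apply ht2]
  rw [← hc'e] at hc' hen
  rw [← he'e] at he'
  have hcc' : c ≠ c' := by rw [hc'e]; exact (hnf c hc).symm
  have hee' : e ≠ e' := by rw [he'e]; exact (hnf e he).symm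
  have hec' : e ≠ c' := hen.2
  have hec : e ≠ c := hen.1
  have he'c' : e' ≠ c' := by
    intro h1
    rw [he'e, hc'e] at h1
    exact hec (t.injective h1)
  have he'c : e' ≠ c := by
    intro h1
    have := congrArg t h1
    rw [hte', ← hc'e] at this
    exact hec' this
  obtain ⟨Y, hYX, hY⟩ := Finset.exists_subset_card_eq (s := (X.erase a).erase b) (n := K - 5) (by
    rw [Finset.card_erase_of_mem (Finset.mem_erase.mpr ⟨hab.symm, hb⟩), Finset.card_erase_of_mem ha]
    omega)
  have hYX' : ∀ y ∈ Y, y ∈ X := fun y hy => Finset.mem_of_mem_erase (Finset.mem_of_mem_erase (hYX hy))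
  have hYa : ∀ y ∈ Y, y ≠ a := fun y hy h => by
    have := Finset.mem_of_mem_erase (hYX hy)
    rw [h] at this
    exact absurd this (Finset.notMem_erase a X)
  have hYb : ∀ y ∈ Y, y ≠ b := fun y hy h => by
    have := hYX hy
    rw [h] at this
    exact absurd this (Finset.notMem_erase b _)
  have hac : a ≠ c := fun h => hc (h ▸ ha)
  have hac' : a ≠ c' := fun h => hc' (h ▸ ha)
  have hae : a ≠ e := fun h => he (h ▸ ha)
  have hae' : a ≠ e' := fun h => he' (h ▸ ha)
  have hbc : b ≠ c := fun h => hc (h ▸ hb)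
  have hbc' : b ≠ c' := fun h => hc' (h ▸ hb)
  have hbe : b ≠ e := fun h => he (h ▸ hb)
  have hbe' : b ≠ e' := fun h => he' (h ▸ hb)
  obtain ⟨S, hS⟩ : ∃ S, S = insert a (insert b (insert c (insert c' (insert e (insert e' Y))))) := ⟨_, rfl⟩
  have hSc : S.card = K + 1 := by
    rw [hS, Finset.card_insert_of_notMem, Finset.card_insert_of_notMem, Finset.card_insert_of_notMem,
      Finset.card_insert_of_notMem, Finset.card_insert_of_notMem, Finset.card_insert_of_notMem]
    · omega
    · exact fun h => he' (hYX' _ h)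
    · simp only [Finset.mem_insert, not_or]
      exact ⟨hee', fun h => he (hYX' _ h)⟩
    · simp only [Finset.mem_insert, not_or]
      exact ⟨hec'.symm, he'c'.symm, fun h => hc' (hYX' _ h)⟩
    · simp only [Finset.mem_insert, not_or]
      exact ⟨hcc', hec.symm, he'c.symm, fun h => hc (hYX' _ h)⟩
    · simp only [Finset.mem_insert, not_or]
      exact ⟨hbc, hbc', hbe, hbe', fun h => hYb _ h rfl⟩
    · simp only [Finset.mem_insert, not_or]
      exact ⟨hab, hac, hac', hae, hae', fun h => hYa _ h rfl⟩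
  obtain ⟨σ, hσ⟩ : ∃ σ : Perm α, σ = swap a b * swap c c' * swap e e' := ⟨_, rfl⟩
  have hσa : σ a = b := by
    rw [hσ, Perm.mul_apply, Perm.mul_apply, swap_apply_of_ne_of_ne hae hae', swap_apply_of_ne_of_ne hac hac', swap_apply_left]
  have hσb : σ b = a := by
    rw [hσ, Perm.mul_apply, Perm.mul_apply, swap_apply_of_ne_of_ne hbe hbe', swap_apply_of_ne_of_ne hbc hbc', swap_apply_right]
  have hσc : σ c = c' := by
    rw [hσ, Perm.mul_apply, Perm.mul_apply, swap_apply_of_ne_of_ne hec.symm he'c.symm, swap_apply_left,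
      swap_apply_of_ne_of_ne hac'.symm hbc'.symm]
  have hσc' : σ c' = c := by
    rw [hσ, Perm.mul_apply, Perm.mul_apply, swap_apply_of_ne_of_ne hec'.symm he'c'.symm, swap_apply_right,
      swap_apply_of_ne_of_ne hac.symm hbc.symm]
  have hσe : σ e = e' := by
    rw [hσ, Perm.mul_apply, Perm.mul_apply, swap_apply_left, swap_apply_of_ne_of_ne he'c he'c',
      swap_apply_of_ne_of_ne hae'.symm hbe'.symm]
  have hσe' : σ e' = e := by
    rw [hσ, Perm.mul_apply, Perm.mul_apply, swap_apply_right, swap_apply_of_ne_of_ne hec hec',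
      swap_apply_of_ne_of_ne hae.symm hbe.symm]
  have hσx : ∀ x, x ≠ a → x ≠ b → x ≠ c → x ≠ c' → x ≠ e → x ≠ e' → σ x = x := by
    intro x h1 h2 h3 h4 h5 h6
    rw [hσ, Perm.mul_apply, Perm.mul_apply, swap_apply_of_ne_of_ne h5 h6, swap_apply_of_ne_of_ne h3 h4, swap_apply_of_ne_of_ne h1 h2]
  have hmem : a ∈ S ∧ b ∈ S ∧ c ∈ S ∧ c' ∈ S ∧ e ∈ S ∧ e' ∈ S := by
    rw [hS]
    simp
  obtain ⟨m1, m2, m3, m4, m5, m6⟩ := hmem
  have h1 := sign_of_alt (hA S hSc) (g := t) (σ := σ) ht
    (by
      intro x hx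
      by_cases h1 : x = a
      · rw [h1, hσa]; exact m2
      by_cases h2 : x = b
      · rw [h2, hσb]; exact m1
      by_cases h3 : x = c
      · rw [h3, hσc]; exact m4
      by_cases h4 : x = c'
      · rw [h4, hσc']; exact m3
      by_cases h5 : x = e
      · rw [h5, hσe]; exact m6
      by_cases h6 : x = e'
      · rw [h6, hσe']; exact m5
      rw [hσx x h1 h2 h3 h4 h5 h6]; exact hx)
    (by
      intro x hx
      by_contra hcon
      apply hx
      apply hσx
      · rintro rfl; exact hcon m1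
      · rintro rfl; exact hcon m2
      · rintro rfl; exact hcon m3
      · rintro rfl; exact hcon m4
      · rintro rfl; exact hcon m5
      · rintro rfl; exact hcon m6)
    (by
      intro x hx
      rw [hS] at hx
      simp only [Finset.mem_insert] at hx
      rcases hx with rfl | rfl | rfl | rfl | rfl | rfl | hx
      · rw [hσa, htx _ ha, swap_apply_left]
      · rw [hσb, htx _ hb, swap_apply_right]
      · rw [hσc, hc'e]
      · rw [hσc', htc']
      · rw [hσe, he'e]
      · rw [hσe', hte']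
      · have hxX := hYX' x hx
        rw [hσx x (hYa x hx) (hYb x hx) (fun h => hc (h ▸ hxX)) (fun h => hc' (h ▸ hxX)) (fun h => he (h ▸ hxX)) (fun h => he' (h ▸ hxX)),
          htx x hxX, swap_apply_of_ne_of_ne (hYa x hx) (hYb x hx)])
  rw [hσ, Perm.sign_mul, Perm.sign_mul, Perm.sign_swap hab, Perm.sign_swap hcc', Perm.sign_swap hee'] at h1
  exact absurd h1 (by decide)


/-- from transitivity we get an involution acting as a transposition -/
theorem exists_invol_swap {G : Subgroup (Perm α)} {K : ℕ} (hT : Tr G K) (hA : ∀ S : Finset α, S.card = K + 1 → ind (stS G S) S ≤ alternatingGroup ↥S)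
    (hK : 3 ≤ K) {X : Finset α} (hX : X.card = K) {a b : α} (ha : a ∈ X) (hb : b ∈ X) (hab : a ≠ b) :
    ∃ t ∈ G, t * t = 1 ∧ ∀ x ∈ X, t x = swap a b x := by
  obtain ⟨g, hg, hgx⟩ := hT X hX (swap a b)
  have hsX : ∀ x ∈ X, swap a b x ∈ X := by
    intro x hx
    by_cases h1 : x = a
    · rw [h1, swap_apply_left]; exact hb
    · by_cases h2 : x = b
      · rw [h2, swap_apply_right]; exact ha
      · rw [swap_apply_of_ne_of_ne h1 h2]; exact hx
  have hpow : ∀ n : ℕ, ∀ x ∈ X, (g ^ n) x = (swap a b ^ n) x ∧ (swap a b ^ n) x ∈ X := by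
    intro n
    induction n with
    | zero => intro x hx; exact ⟨rfl, hx⟩
    | succ n ih =>
      intro x hx
      rw [pow_succ', pow_succ', Perm.mul_apply, Perm.mul_apply, (ih x hx).1]
      exact ⟨hgx _ (ih x hx).2, hsX _ (ih x hx).2⟩
  obtain ⟨e, m, hm, hem⟩ := Nat.exists_eq_two_pow_mul_odd (orderOf_pos g).ne'
  obtain ⟨t, ht⟩ : ∃ t, t = g ^ m := ⟨_, rfl⟩
  have htG : t ∈ G := by rw [ht]; exact G.pow_mem hg m
  have htx : ∀ x ∈ X, t x = swap a b x := by
    intro x hx
    rw [ht, (hpow m x hx).1]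
    obtain ⟨r, hr⟩ := hm
    rw [hr, pow_succ, pow_mul, pow_two, swap_mul_self, one_pow, one_mul]
  have htp : t ^ (2 ^ e) = 1 := by
    rw [ht, ← pow_mul, mul_comm, ← hem]
    exact pow_orderOf_eq_one g
  refine ⟨t, htG, ?_, htx⟩
  obtain ⟨e', -, he'⟩ := (Nat.dvd_prime_pow Nat.prime_two).mp (orderOf_dvd_of_pow_eq_one htp)
  by_contra hcon
  have he2 : 2 ≤ e' := by
    by_contra hlt
    apply hcon
    have h1 : t ^ (2 ^ e') = 1 := by rw [← he']; exact pow_orderOf_eq_one t
    have h2 : e' = 0 ∨ e' = 1 := by omega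
    rcases h2 with rfl | rfl
    · rw [pow_zero, pow_one] at h1
      rw [h1, one_mul]
    · rw [pow_one, pow_two] at h1
      exact h1
  obtain ⟨f, rfl⟩ : ∃ f, e' = f + 2 := ⟨e' - 2, by omega⟩
  obtain ⟨h, hh⟩ : ∃ h, h = t ^ (2 ^ f) := ⟨_, rfl⟩
  have h4 : h ^ 4 = 1 := by
    rw [hh, ← pow_mul]
    have : 2 ^ f * 4 = 2 ^ (f + 2) := by ring
    rw [this, ← he']
    exact pow_orderOf_eq_one t
  have h2 : h ^ 2 ≠ 1 := by
    intro h2
    rw [hh, ← pow_mul] at h2
    have h3 := orderOf_dvd_of_pow_eq_one h2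
    rw [he'] at h3
    have h5 := Nat.le_of_dvd (by positivity) h3
    have h6 : 0 < 2 ^ f := by positivity
    rw [pow_add] at h5
    omega
  obtain ⟨x, hx⟩ := exists_moved h2
  have hhG : h ∈ G := by rw [hh]; exact G.pow_mem htG _
  have hfx : ∀ y ∈ X, y ≠ a → y ≠ b → h y = y := by
    intro y hy hya hyb
    have h1 : t y = y := by rw [htx y hy, swap_apply_of_ne_of_ne hya hyb]
    rw [hh]
    exact Perm.pow_apply_eq_self_of_apply_eq_self h1 _
  obtain ⟨x1, hx1⟩ : ∃ x1, x1 = h x := ⟨_, rfl⟩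
  obtain ⟨x2, hx2⟩ : ∃ x2, x2 = h x1 := ⟨_, rfl⟩
  obtain ⟨x3, hx3⟩ : ∃ x3, x3 = h x2 := ⟨_, rfl⟩
  have hx4 : h x3 = x := by
    rw [hx3, hx2, hx1]
    have := congrArg (fun p : Perm α => p x) h4
    simpa [pow_succ, Perm.mul_apply] using this
  have n02 : x ≠ x2 := by
    intro h5
    apply hx
    rw [pow_two, Perm.mul_apply, ← hx1, ← hx2, ← h5]
  have n01 : x ≠ x1 := by
    intro h5
    apply n02
    rw [hx2, ← h5, ← hx1, ← h5]
  have n12 : x1 ≠ x2 := by
    intro h5
    rw [hx1, hx2] at h5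
    exact n01 (h.injective h5)
  have n23 : x2 ≠ x3 := by
    intro h5
    rw [hx2, hx3] at h5
    exact n12 (h.injective h5)
  have n13 : x1 ≠ x3 := by
    intro h5
    rw [hx1, hx3] at h5
    exact n02 (h.injective h5)
  have n03 : x ≠ x3 := by
    intro h5
    apply n01
    rw [hx1, h5, hx4, ← h5]
  obtain ⟨Y, hYX, hY⟩ := Finset.exists_subset_card_eq (s := (X.erase a).erase b) (n := K - 3) (by
    rw [Finset.card_erase_of_mem (Finset.mem_erase.mpr ⟨hab.symm, hb⟩), Finset.card_erase_of_mem ha]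
    omega)
  have hYf : ∀ y ∈ Y, h y = y := by
    intro y hy
    have h1 := hYX hy
    rw [Finset.mem_erase, Finset.mem_erase] at h1
    exact hfx y h1.2.2 h1.2.1 h1.1
  have y0 : x ∉ Y := fun h5 => n01 (by rw [hx1, hYf x h5])
  have y1 : x1 ∉ Y := fun h5 => n12 (by rw [hx2, hYf x1 h5])
  have y2 : x2 ∉ Y := fun h5 => n23 (by rw [hx3, hYf x2 h5])
  have y3 : x3 ∉ Y := fun h5 => n03 (by rw [← hx4, hYf x3 h5])
  obtain ⟨S, hS⟩ : ∃ S, S = insert x (insert x1 (insert x2 (insert x3 Y))) := ⟨_, rfl⟩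
  have hSc : S.card = K + 1 := by
    rw [hS, Finset.card_insert_of_notMem, Finset.card_insert_of_notMem, Finset.card_insert_of_notMem, Finset.card_insert_of_notMem y3]
    · omega
    · simp only [Finset.mem_insert, not_or]
      exact ⟨n23, y2⟩
    · simp only [Finset.mem_insert, not_or]
      exact ⟨n12, n13, y1⟩
    · simp only [Finset.mem_insert, not_or]
      exact ⟨n01, n02, n03, y0⟩
  obtain ⟨σ, hσ⟩ : ∃ σ : Perm α, σ = swap x x1 * swap x1 x2 * swap x2 x3 := ⟨_, rfl⟩
  have s0 : σ x = x1 := by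
    rw [hσ, Perm.mul_apply, Perm.mul_apply, swap_apply_of_ne_of_ne n02 n03, swap_apply_of_ne_of_ne n01 n02, swap_apply_left]
  have s1 : σ x1 = x2 := by
    rw [hσ, Perm.mul_apply, Perm.mul_apply, swap_apply_of_ne_of_ne n12 n13, swap_apply_left, swap_apply_of_ne_of_ne n02.symm n12.symm]
  have s2 : σ x2 = x3 := by
    rw [hσ, Perm.mul_apply, Perm.mul_apply, swap_apply_left, swap_apply_of_ne_of_ne n13.symm n23.symm, swap_apply_of_ne_of_ne n03.symm n13.symm]
  have s3 : σ x3 = x := by
    rw [hσ, Perm.mul_apply, Perm.mul_apply, swap_apply_right, swap_apply_right, swap_apply_right]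
  have sx : ∀ y, y ≠ x → y ≠ x1 → y ≠ x2 → y ≠ x3 → σ y = y := by
    intro y h0 h1 h2 h3
    rw [hσ, Perm.mul_apply, Perm.mul_apply, swap_apply_of_ne_of_ne h2 h3, swap_apply_of_ne_of_ne h1 h2, swap_apply_of_ne_of_ne h0 h1]
  have hmem : x ∈ S ∧ x1 ∈ S ∧ x2 ∈ S ∧ x3 ∈ S := by
    rw [hS]; simp
  obtain ⟨m0, m1, m2, m3⟩ := hmem
  have h7 := sign_of_alt (hA S hSc) (g := h) (σ := σ) hhG
    (by
      intro y hy
      by_cases h0 : y = x
      · rw [h0, s0]; exact m1
      by_cases h1 : y = x1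
      · rw [h1, s1]; exact m2
      by_cases h2 : y = x2
      · rw [h2, s2]; exact m3
      by_cases h3 : y = x3
      · rw [h3, s3]; exact m0
      rw [sx y h0 h1 h2 h3]; exact hy)
    (by
      intro y hy
      by_contra hcon
      apply hy
      apply sx
      · rintro rfl; exact hcon m0
      · rintro rfl; exact hcon m1
      · rintro rfl; exact hcon m2
      · rintro rfl; exact hcon m3)
    (by
      intro y hy
      rw [hS] at hy
      simp only [Finset.mem_insert] at hy
      rcases hy with h5 | h5 | h5 | h5 | h5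
      · rw [h5, s0, hx1]
      · rw [h5, s1, hx2]
      · rw [h5, s2, hx3]
      · rw [h5, s3, hx4]
      · rw [hYf y h5, sx y (fun h => y0 (h ▸ h5)) (fun h => y1 (h ▸ h5)) (fun h => y2 (h ▸ h5)) (fun h => y3 (h ▸ h5))])
  rw [hσ, Perm.sign_mul, Perm.sign_mul, Perm.sign_swap n01, Perm.sign_swap n12, Perm.sign_swap n23] at h7
  exact absurd h7 (by decide)

end H16.LW
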