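import Mathlib
import Cfsg.Agent.Lib.H16.LW10

set_option autoImplicit false

/-! Livingstone–Wagner, part 11: the case `k = 5`. -/

namespace H16.LW

open Equiv MulAction

set_option linter.unusedSectionVars false

variable {α : Type*} [Fintype α] [DecidableEq α]

/-- involutions fix at most two points -/
theorem fix_le_two {G : Subgroup (Perm α)} (hA : ∀ S : Finset α, S.card = 5 → ind (stS G S) S ≤ alternatingGroup ↥S)
    {t : Perm α} (ht : t ∈ G) (ht2 : t * t = 1) (ht1 : t ≠ 1) (F : Finset α) (hF : ∀ x ∈ F, t x = x) : F.card ≤ 2 := by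
  by_contra hcon
  obtain ⟨Y, hYF, hY⟩ := Finset.exists_subset_card_eq (show 3 ≤ F.card by omega)
  obtain ⟨c, hc⟩ := exists_moved ht1
  have hcY : c ∉ Y := fun h => hc (hF c (hYF h))
  have hdY : t c ∉ Y := fun h => hc (t.injective (hF _ (hYF h)))
  have hc1 : c ∉ insert (t c) Y := by
    rw [Finset.mem_insert, not_or]
    exact ⟨hc.symm, hcY⟩
  have hSc : (insert c (insert (t c) Y)).card = 5 := by
    rw [Finset.card_insert_of_notMem hc1, Finset.card_insert_of_notMem hdY, hY]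
  have h1 := sign_of_alt (hA _ hSc) (g := t) (σ := swap c (t c)) ht (by
      intro x hx
      by_cases h1 : x = c
      · rw [h1, swap_apply_left]; simp
      · by_cases h2 : x = t c
        · rw [h2, swap_apply_right]; simp
        · rw [swap_apply_of_ne_of_ne h1 h2]; exact hx) (by
      intro x hx
      by_cases h1 : x = c
      · rw [h1]; simp
      · by_cases h2 : x = t c
        · rw [h2]; simp
        · rw [swap_apply_of_ne_of_ne h1 h2] at hx
          exact absurd rfl hx) (by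
      intro x hx
      by_cases h1 : x = c
      · rw [h1, swap_apply_left]
      · by_cases h2 : x = t c
        · rw [h2, swap_apply_right, invol_apply ht2]
        · rw [swap_apply_of_ne_of_ne h1 h2]
          rcases Finset.mem_insert.mp hx with h3 | h3
          · exact absurd h3 h1
          · rcases Finset.mem_insert.mp h3 with h4 | h4
            · exact absurd h4 h2
            · exact hF x (hYF h4))
  rw [Perm.sign_swap hc.symm] at h1
  exact absurd h1 (by decide)

/-- even elements preserve the orbits of the pointwise stabiliser -/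
theorem pres {G : Subgroup (Perm α)} (hh : IsPretransitive G (Set.powersetCard α 5))
    (hAlt : ∀ S : Finset α, S.card = 5 → alternatingGroup ↥S ≤ ind (stS G S) S)
    (hA : ∀ S : Finset α, S.card = 5 → ind (stS G S) S ≤ alternatingGroup ↥S) {R : Finset α} (hR : R.card = 4)
    {a b : α} (ha : a ∈ R) (hb : b ∈ R) (hab : a ≠ b) {σ : Perm α} (hσR : ∀ x ∈ R, σ x ∈ R) (hσR' : ∀ x, σ x ≠ x → x ∈ R)
    (hσ : Perm.sign σ = 1) {g : Perm α} (hg : g ∈ G) (hgσ : ∀ x ∈ R, g x = σ x) {y : α} (hy : y ∉ R) :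
    ∃ w ∈ ptw G R, w y = g y := by
  have hgR : ∀ x, x ∈ R → g x ∈ R := fun x hx => by rw [hgσ x hx]; exact hσR x hx
  have hgst := mem_stS_of hg hgR
  have hgy : g y ∉ R := fun h => hy ((hgst.2 y).mpr h)
  have hya : y ≠ a := fun h => hy (h ▸ ha)
  have hyb : y ≠ b := fun h => hy (h ▸ hb)
  have hgya : g y ≠ a := fun h => hgy (h ▸ ha)
  have hgyb : g y ≠ b := fun h => hgy (h ▸ hb)
  have hne : ∀ x ∈ R, x ≠ y ∧ x ≠ g y := fun x hx => ⟨fun h => hy (h ▸ hx), fun h => hgy (h ▸ hx)⟩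
  have hswR : ∀ x ∈ R, swap a b x ∈ R := by
    intro x hx
    by_cases h1 : x = a
    · rw [h1, swap_apply_left]; exact hb
    · by_cases h2 : x = b
      · rw [h2, swap_apply_right]; exact ha
      · rw [swap_apply_of_ne_of_ne h1 h2]; exact hx
  rcases two_classes hh hAlt (S := insert y R) (by rw [Finset.card_insert_of_notMem hy, hR]) (swap y (g y)) (s := a) (s' := b)
    (Finset.mem_insert_of_mem ha) (Finset.mem_insert_of_mem hb) hab with ⟨w, hw, hwx⟩ | ⟨w, hw, hwx⟩
  · refine ⟨w, ⟨hw, fun x hx => ?_⟩, ?_⟩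
    · rw [hwx x (Finset.mem_insert_of_mem hx), swap_apply_of_ne_of_ne (hne x hx).1 (hne x hx).2]
    · rw [hwx y (Finset.mem_insert_self _ _), swap_apply_left]
  · exfalso
    have hw1 : ∀ x ∈ R, w x = swap a b x := by
      intro x hx
      have h1 := hswR x hx
      rw [hwx x (Finset.mem_insert_of_mem hx), swap_apply_of_ne_of_ne (hne _ h1).1 (hne _ h1).2]
    have hwy : w y = g y := by
      rw [hwx y (Finset.mem_insert_self _ _), swap_apply_of_ne_of_ne hya hyb, swap_apply_left]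
    have hσy : σ y = y := by
      by_contra h
      exact hy (hσR' y h)
    have h1 := sign_of_alt (hA (insert y R) (by rw [Finset.card_insert_of_notMem hy, hR])) (g := w⁻¹ * g) (σ := swap a b * σ)
      (G.mul_mem (G.inv_mem hw) hg)
      (by
        intro x hx
        rw [Perm.mul_apply]
        rcases Finset.mem_insert.mp hx with h2 | h2
        · rw [h2, hσy, swap_apply_of_ne_of_ne hya hyb]
          exact Finset.mem_insert_self _ _
        · exact Finset.mem_insert_of_mem (hswR _ (hσR x h2)))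
      (by
        intro x hx
        by_contra hcon
        rw [Finset.mem_insert, not_or] at hcon
        apply hx
        have h2 : σ x = x := by
          by_contra h
          exact hcon.2 (hσR' x h)
        have h3 : x ≠ a := fun h => hcon.2 (h ▸ ha)
        have h4 : x ≠ b := fun h => hcon.2 (h ▸ hb)
        rw [Perm.mul_apply, h2, swap_apply_of_ne_of_ne h3 h4])
      (by
        intro x hx
        rw [Perm.mul_apply, Perm.mul_apply, Perm.inv_eq_iff_eq]
        rcases Finset.mem_insert.mp hx with h2 | h2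
        · rw [h2, hσy, swap_apply_of_ne_of_ne hya hyb, hwy]
        · rw [hgσ x h2, hw1 _ (hswR _ (hσR x h2))]
          simp)
    rw [Perm.sign_mul, hσ, Perm.sign_swap hab] at h1
    exact absurd h1 (by decide)

theorem fix_all {G : Subgroup (Perm α)} (hh : IsPretransitive G (Set.powersetCard α 5))
    (hAlt : ∀ S : Finset α, S.card = 5 → alternatingGroup ↥S ≤ ind (stS G S) S)
    (hA : ∀ S : Finset α, S.card = 5 → ind (stS G S) S ≤ alternatingGroup ↥S) (hT : Tr G 4) {R : Finset α} (hR : R.card = 4)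
    {x : α} (hx : x ∉ R) : ∀ w ∈ ptw G R, w x = x := by
  classical
  obtain ⟨a, b, c, d, hab, hac, had, hbc, hbd, hcd, hRe⟩ := Finset.card_eq_four.mp hR
  have hodd : Odd (Nat.card (fx G R)) := odd_of_alt (G := G) (k := 4) (by omega) hA hR
  have hmR : ∀ z, z ∈ R ↔ z = a ∨ z = b ∨ z = c ∨ z = d := by
    intro z; rw [hRe]; simp
  have ha : a ∈ R := (hmR a).mpr (by tauto)
  have hb : b ∈ R := (hmR b).mpr (by tauto)
  have hc : c ∈ R := (hmR c).mpr (by tauto)
  have hd : d ∈ R := (hmR d).mpr (by tauto)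
  obtain ⟨σ1, hσ1⟩ : ∃ σ1 : Perm α, σ1 = swap a b * swap c d := ⟨_, rfl⟩
  obtain ⟨σ2, hσ2⟩ : ∃ σ2 : Perm α, σ2 = swap a c * swap b d := ⟨_, rfl⟩
  have s1a : σ1 a = b := by rw [hσ1, Perm.mul_apply, swap_apply_of_ne_of_ne hac had, swap_apply_left]
  have s1b : σ1 b = a := by rw [hσ1, Perm.mul_apply, swap_apply_of_ne_of_ne hbc hbd, swap_apply_right]
  have s1c : σ1 c = d := by rw [hσ1, Perm.mul_apply, swap_apply_left, swap_apply_of_ne_of_ne had.symm hbd.symm]
  have s1d : σ1 d = c := by rw [hσ1, Perm.mul_apply, swap_apply_right, swap_apply_of_ne_of_ne hac.symm hbc.symm]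
  have s2a : σ2 a = c := by rw [hσ2, Perm.mul_apply, swap_apply_of_ne_of_ne hab had, swap_apply_left]
  have s2c : σ2 c = a := by rw [hσ2, Perm.mul_apply, swap_apply_of_ne_of_ne hbc.symm hcd, swap_apply_right]
  have s2b : σ2 b = d := by rw [hσ2, Perm.mul_apply, swap_apply_left, swap_apply_of_ne_of_ne had.symm hcd.symm]
  have s2d : σ2 d = b := by rw [hσ2, Perm.mul_apply, swap_apply_right, swap_apply_of_ne_of_ne hab.symm hbc]
  have s1x : ∀ z, z ∉ R → σ1 z = z := by
    intro z hz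
    rw [hmR] at hz
    push Not at hz
    rw [hσ1, Perm.mul_apply, swap_apply_of_ne_of_ne hz.2.2.1 hz.2.2.2, swap_apply_of_ne_of_ne hz.1 hz.2.1]
  have s2x : ∀ z, z ∉ R → σ2 z = z := by
    intro z hz
    rw [hmR] at hz
    push Not at hz
    rw [hσ2, Perm.mul_apply, swap_apply_of_ne_of_ne hz.2.1 hz.2.2.2, swap_apply_of_ne_of_ne hz.1 hz.2.2.1]
  have s1R : ∀ z ∈ R, σ1 z ∈ R := by
    intro z hz
    rw [hmR] at hz
    rcases hz with rfl | rfl | rfl | rfl
    · rw [s1a]; exact hb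
    · rw [s1b]; exact ha
    · rw [s1c]; exact hd
    · rw [s1d]; exact hc
  have s2R : ∀ z ∈ R, σ2 z ∈ R := by
    intro z hz
    rw [hmR] at hz
    rcases hz with rfl | rfl | rfl | rfl
    · rw [s2a]; exact hc
    · rw [s2b]; exact hd
    · rw [s2c]; exact ha
    · rw [s2d]; exact hb
  have s11 : σ1 * σ1 = 1 := by
    ext z
    rw [Perm.mul_apply, Perm.one_apply]
    by_cases hz : z ∈ R
    · rw [hmR] at hz
      rcases hz with rfl | rfl | rfl | rfl
      · rw [s1a, s1b]
      · rw [s1b, s1a]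
      · rw [s1c, s1d]
      · rw [s1d, s1c]
    · rw [s1x z hz, s1x z hz]
  have s22 : σ2 * σ2 = 1 := by
    ext z
    rw [Perm.mul_apply, Perm.one_apply]
    by_cases hz : z ∈ R
    · rw [hmR] at hz
      rcases hz with rfl | rfl | rfl | rfl
      · rw [s2a, s2c]
      · rw [s2b, s2d]
      · rw [s2c, s2a]
      · rw [s2d, s2b]
    · rw [s2x z hz, s2x z hz]
  obtain ⟨g1, hg1, hg12, hg1x⟩ := exists_invol hT hR hodd σ1 s11 s1R
  obtain ⟨g0, hg0, hg02, hg0x⟩ := exists_invol hT hR hodd σ2 s22 s2R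
  have hg0i : g0⁻¹ = g0 := inv_eq_of_mul_eq_one_left hg02
  -- conjugate to make them commute
  obtain ⟨w, hw, hwt⟩ := conj_in_coset hodd (t := g0 * g1 * g0⁻¹) (t' := g1) (G.mul_mem (G.mul_mem hg0 hg1) (G.inv_mem hg0)) hg1
    (by
      calc g0 * g1 * g0⁻¹ * (g0 * g1 * g0⁻¹) = g0 * (g1 * g1) * g0⁻¹ := by group
        _ = 1 := by rw [hg12]; group) hg12
    (by
      intro z hz
      rw [hg0i, Perm.mul_apply, Perm.mul_apply, hg0x z hz, hg1x _ (s2R z hz), hg0x _ (s1R _ (s2R z hz)), hg1x _ (s2R _ (s1R _ (s2R z hz)))]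
      rw [hmR] at hz
      rcases hz with rfl | rfl | rfl | rfl
      · rw [s2a, s1c, s2d, s1b]
      · rw [s2b, s1d, s2c, s1a]
      · rw [s2c, s1a, s2b, s1d]
      · rw [s2d, s1b, s2a, s1c])
  obtain ⟨u, hu⟩ : ∃ u, u = w * g0 := ⟨_, rfl⟩
  have huG : u ∈ G := by rw [hu]; exact G.mul_mem hw.1 hg0
  have hug : u * g1 = g1 * u := by
    have : u * g1 * u⁻¹ = g1 := by
      calc u * g1 * u⁻¹ = w * (g0 * g1 * g0⁻¹) * w⁻¹ := by rw [hu]; group
        _ = g1 := hwt
    calc u * g1 = (u * g1 * u⁻¹) * u := by group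
      _ = g1 * u := by rw [this]
  have hux : ∀ z ∈ R, u z = σ2 z := by
    intro z hz
    rw [hu, Perm.mul_apply, hg0x z hz, hw.2 _ (s2R z hz)]
  have huu : u * u ∈ ptw G R := by
    refine ⟨G.mul_mem huG huG, fun z hz => ?_⟩
    rw [Perm.mul_apply, hux z hz, hux _ (s2R z hz)]
    exact invol_apply s22 z
  have hodd' := hodd
  obtain ⟨r, hr⟩ := hodd'
  have hup : (u * u) ^ (2 * r + 1) = 1 := by
    rw [← hr]
    exact pow_card_fx huu.1 huu.2
  obtain ⟨g2, hg2e⟩ : ∃ g2, g2 = u ^ (2 * r + 1) := ⟨_, rfl⟩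
  have hg2 : g2 ∈ G := by rw [hg2e]; exact G.pow_mem huG _
  have hg22 : g2 * g2 = 1 := by
    rw [hg2e, ← (Commute.refl u).mul_pow, hup]
  have hg2x : ∀ z ∈ R, g2 z = σ2 z := by
    intro z hz
    have h1 : g2 = (u * u) ^ r * u := by
      rw [hg2e, pow_succ, pow_mul, pow_two]
    rw [h1, Perm.mul_apply, hux z hz]
    exact ((ptw G R).pow_mem huu r).2 _ (s2R z hz)
  have hcom : g1 * g2 = g2 * g1 := by
    rw [hg2e]
    exact (Commute.pow_right (show Commute g1 u from hug.symm) _).eq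
  have hg12a : g1 a = b := by rw [hg1x a ha, s1a]
  have hg22a : g2 a = c := by rw [hg2x a ha, s2a]
  have hne1 : g1 ≠ 1 := by rintro rfl; exact hab hg12a
  have hne2 : g2 ≠ 1 := by rintro rfl; exact hac hg22a
  have hg3 : g1 * g2 ∈ G := G.mul_mem hg1 hg2
  have hg32 : (g1 * g2) * (g1 * g2) = 1 := by
    calc (g1 * g2) * (g1 * g2) = g1 * (g2 * g1) * g2 := by group
      _ = (g1 * g1) * (g2 * g2) := by rw [← hcom]; group
      _ = 1 := by rw [hg12, hg22, one_mul]
  have hne3 : g1 * g2 ≠ 1 := by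
    intro h
    have h1 : (g1 * g2) a = d := by rw [Perm.mul_apply, hg22a, hg1x c hc, s1c]
    rw [h] at h1
    exact had h1
  -- the orbit
  obtain ⟨O, hO⟩ : ∃ O : Finset α, O = Finset.univ.filter (fun y => ∃ w ∈ ptw G R, w x = y) := ⟨_, rfl⟩
  have hOm : ∀ y, y ∈ O ↔ ∃ w ∈ ptw G R, w x = y := by
    intro y; rw [hO, Finset.mem_filter]; simp
  have hOR : ∀ y ∈ O, y ∉ R := by
    intro y hy hyR
    obtain ⟨w, hw, rfl⟩ := (hOm y).mp hy
    have h1 := hw.2 _ hyR
    rw [w.injective h1] at hyR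
    exact hx hyR
  have hOodd : O.card % 2 = 1 := by
    have h1 : (O : Set α) = orbit (ptw G R) x := by
      ext y
      rw [Finset.mem_coe, hOm]
      constructor
      · rintro ⟨w, hw, hwy⟩; exact ⟨⟨w, hw⟩, hwy⟩
      · rintro ⟨w, hwy⟩; exact ⟨w, w.2, hwy⟩
    have h2 := MulAction.index_stabilizer (ptw G R) x
    rw [← h1, Set.ncard_coe_finset] at h2
    have h3 := (MulAction.stabilizer (ptw G R) x).index_dvd_card
    rw [h2, card_ptw] at h3
    exact Nat.odd_iff.mp (Odd.of_dvd_nat hodd h3)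
  have hsg1 : Perm.sign σ1 = 1 := by
    rw [hσ1, Perm.sign_mul, Perm.sign_swap hab, Perm.sign_swap hcd]; decide
  have hsg2 : Perm.sign σ2 = 1 := by
    rw [hσ2, Perm.sign_mul, Perm.sign_swap hac, Perm.sign_swap hbd]; decide
  have hO1 : ∀ y ∈ O, g1 y ∈ O := by
    intro y hy
    obtain ⟨w', hw', hwy'⟩ := pres hh hAlt hA hR ha hb hab s1R (fun z hz => by
      by_contra h; exact hz (s1x z h)) hsg1 hg1 hg1x (hOR y hy)
    obtain ⟨w, hw, rfl⟩ := (hOm y).mp hy
    rw [hOm]
    exact ⟨w' * w, (ptw G R).mul_mem hw' hw, hwy'⟩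
  have hO2 : ∀ y ∈ O, g2 y ∈ O := by
    intro y hy
    obtain ⟨w', hw', hwy'⟩ := pres hh hAlt hA hR ha hb hab s2R (fun z hz => by
      by_contra h; exact hz (s2x z h)) hsg2 hg2 hg2x (hOR y hy)
    obtain ⟨w, hw, rfl⟩ := (hOm y).mp hy
    rw [hOm]
    exact ⟨w' * w, (ptw G R).mul_mem hw' hw, hwy'⟩
  have hO3 : ∀ y ∈ O, (g1 * g2) y ∈ O := fun y hy => hO1 _ (hO2 y hy)
  -- unique fixed points
  have huniq : ∀ g ∈ G, g * g = 1 → g ≠ 1 → (∀ y ∈ O, g y ∈ O) → (∃ z ∈ O, g z = z) ∧ ∀ y ∈ O, ∀ z ∈ O, g y = y → g z = z → y = z := by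
    intro g hg hg2 hg1 hgO
    have h1 := card_fix_mod hg2 O hgO
    have h2 := fix_le_two hA hg hg2 hg1 (O.filter fun x => g x = x) (fun y hy => (Finset.mem_filter.mp hy).2)
    have h3 : (O.filter fun x => g x = x).card = 1 := by omega
    obtain ⟨z, hz⟩ := Finset.card_eq_one.mp h3
    have h4 : ∀ y ∈ O, g y = y → y = z := by
      intro y hy hgy
      have : y ∈ O.filter fun x => g x = x := Finset.mem_filter.mpr ⟨hy, hgy⟩
      rw [hz, Finset.mem_singleton] at this
      exact this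
    have h5 : z ∈ O.filter fun x => g x = x := by rw [hz]; exact Finset.mem_singleton_self z
    rw [Finset.mem_filter] at h5
    exact ⟨⟨z, h5⟩, fun y hy z hz h6 h7 => by rw [h4 y hy h6, h4 z hz h7]⟩
  obtain ⟨⟨x1, hx1, hx1g1⟩, hu1⟩ := huniq g1 hg1 hg12 hne1 hO1
  obtain ⟨-, hu2⟩ := huniq g2 hg2 hg22 hne2 hO2
  obtain ⟨-, hu3⟩ := huniq (g1 * g2) hg3 hg32 hne3 hO3
  have hx1g2 : g2 x1 = x1 := by
    apply hu1 _ (hO2 x1 hx1) _ hx1 _ hx1g1
    rw [← Perm.mul_apply, hcom, Perm.mul_apply, hx1g1]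
  have hx1g3 : (g1 * g2) x1 = x1 := by rw [Perm.mul_apply, hx1g2, hx1g1]
  have hOw : ∀ w ∈ ptw G R, ∀ y ∈ O, w y ∈ O := by
    intro w hw y hy
    obtain ⟨v, hv, rfl⟩ := (hOm y).mp hy
    rw [hOm]
    exact ⟨w * v, (ptw G R).mul_mem hw hv, rfl⟩
  have hcen : ∀ g : Perm α, g x1 = x1 → (∀ y ∈ O, ∀ z ∈ O, g y = y → g z = z → y = z) → ∀ w ∈ ptw G R, w * g = g * w → w x1 = x1 := by
    intro g hgx hgu w hw hwg
    apply hgu _ (hOw w hw x1 hx1) _ hx1 _ hgx
    rw [← Perm.mul_apply, ← hwg, Perm.mul_apply, hgx]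
  -- generation
  have hst1 : g1 ∈ stS G R := mem_stS_of hg1 (fun z hz => by rw [hg1x z hz]; exact s1R z hz)
  have hst2 : g2 ∈ stS G R := mem_stS_of hg2 (fun z hz => by rw [hg2x z hz]; exact s2R z hz)
  obtain ⟨A, hAe⟩ : ∃ A : Subgroup (Perm α), A = Subgroup.closure {g1, g2} := ⟨_, rfl⟩
  have hAst : A ≤ stS G R := by
    rw [hAe, Subgroup.closure_le]
    rintro z (rfl | rfl)
    · exact hst1
    · exact hst2
  have hcomm : ∀ z ∈ ({g1, g2} : Set (Perm α)), ∀ w ∈ ({g1, g2} : Set (Perm α)), z * w = w * z := by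
    rintro z (rfl | rfl) w (rfl | rfl)
    · rfl
    · exact hcom
    · exact hcom.symm
    · rfl
  have hA2 : ∀ z ∈ A, z * z = 1 := by
    intro z hz
    rw [hAe] at hz
    induction hz using Subgroup.closure_induction with
    | mem z hz =>
      rcases hz with rfl | rfl
      · exact hg12
      · exact hg22
    | one => rw [one_mul]
    | mul z w hz hw h1 h2 =>
      have h3 : w * z = z * w :=
        congrArg Subtype.val ((Subgroup.closureCommGroupOfComm hcomm).mul_comm ⟨w, hw⟩ ⟨z, hz⟩)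
      calc z * w * (z * w) = z * (w * z) * w := by group
        _ = (z * z) * (w * w) := by rw [h3]; group
        _ = 1 := by rw [h1, h2, one_mul]
    | inv z hz h1 => rw [← mul_inv_rev, h1, inv_one]
  have hA2' : IsPGroup 2 A := by
    intro z
    refine ⟨1, Subtype.ext ?_⟩
    rw [pow_one, pow_two]
    exact hA2 z z.2
  have hAn : A ≤ Subgroup.normalizer ((ptw G R : Subgroup (Perm α)) : Set (Perm α)) := by
    apply H1.Coprime.le_normalizer_of_conj_mem
    intro z hz k hk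
    have hz1 := hAst hz
    refine ⟨G.mul_mem (G.mul_mem hz1.1 hk.1) (G.inv_mem hz1.1), fun y hy => ?_⟩
    have h1 := ((stS G R).inv_mem hz1).2 y
    rw [Perm.mul_apply, Perm.mul_apply, hk.2 _ (h1.mp hy)]
    simp
  have hKM : ptw G R ≤ MulAction.stabilizer (Perm α) x1 := by
    apply H27.GenSub.le_of_lines 2 A (ptw G R) hA2' hAn (by
      rw [card_ptw]
      intro h
      have := Nat.odd_iff.mp hodd
      omega) g1 g2 (by rw [hAe]; exact Subgroup.subset_closure (by simp)) (by rw [hAe]; exact Subgroup.subset_closure (by simp)) hcom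
      (by rw [pow_two, hg12]; exact Subgroup.one_mem _) (by rw [pow_two, hg22]; exact Subgroup.one_mem _)
    · rintro w ⟨hw, hwc⟩
      rw [MulAction.mem_stabilizer_iff]
      exact hcen g1 hx1g1 hu1 w hw (by
        have := Subgroup.mem_centralizer_iff.mp hwc g1 rfl
        exact this.symm)
    · intro i
      rintro w ⟨hw, hwc⟩
      rw [MulAction.mem_stabilizer_iff]
      have hwc' := (Subgroup.mem_centralizer_iff.mp hwc _ rfl).symm
      rcases Nat.even_or_odd i with ⟨j, hj⟩ | ⟨j, hj⟩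
      · have h1 : g1 ^ i = 1 := by rw [hj, ← two_mul, pow_mul, pow_two, hg12, one_pow]
        rw [h1, one_mul] at hwc'
        exact hcen g2 hx1g2 hu2 w hw hwc'
      · have h1 : g1 ^ i = g1 := by rw [hj, pow_succ, pow_mul, pow_two, hg12, one_pow, one_mul]
        rw [h1] at hwc'
        exact hcen (g1 * g2) hx1g3 hu3 w hw hwc'
  obtain ⟨v, hv, hvx⟩ := (hOm x1).mp hx1
  have hvx1 : v x1 = x1 := hKM hv
  have hxx : x = x1 := v.injective (hvx.trans hvx1.symm)
  intro w hw
  rw [hxx]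
  exact hKM hw

theorem case_five {G : Subgroup (Perm α)} (hh : IsPretransitive G (Set.powersetCard α 5))
    (hAlt : ∀ S : Finset α, S.card = 5 → alternatingGroup ↥S ≤ ind (stS G S) S)
    (hA : ∀ S : Finset α, S.card = 5 → ind (stS G S) S ≤ alternatingGroup ↥S) (hT : Tr G 4) (hn : 7 ≤ Fintype.card α) : False := by
  obtain ⟨R, hR⟩ := Finset.exists_subset_card_eq (s := (Finset.univ : Finset α)) (n := 4) (by rw [Finset.card_univ]; omega)
  replace hR := hR.2
  obtain ⟨a, b, c, d, hab, hac, had, hbc, hbd, hcd, hRe⟩ := Finset.card_eq_four.mp hR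
  have ha : a ∈ R := by rw [hRe]; simp
  have hb : b ∈ R := by rw [hRe]; simp
  obtain ⟨x, hx, y, hy, z, hz, hxy, hxz, hyz⟩ := Finset.two_lt_card.mp (show 2 < Rᶜ.card by rw [Finset.card_compl, hR]; omega)
  rw [Finset.mem_compl] at hx hy hz
  have hswR : ∀ x ∈ R, swap a b x ∈ R := by
    intro x hx
    by_cases h1 : x = a
    · rw [h1, swap_apply_left]; exact hb
    · by_cases h2 : x = b
      · rw [h2, swap_apply_right]; exact ha
      · rw [swap_apply_of_ne_of_ne h1 h2]; exact hx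
  have key : ∀ x y, x ∉ R → y ∉ R → x ≠ y → ∃ u ∈ G, (∀ z ∈ R, u z = swap a b z) ∧ u x = y := by
    intro x y hx hy hxy
    have hne : ∀ z ∈ R, z ≠ x ∧ z ≠ y := fun z hz => ⟨fun h => hx (h ▸ hz), fun h => hy (h ▸ hz)⟩
    rcases two_classes hh hAlt (S := insert x R) (by rw [Finset.card_insert_of_notMem hx, hR]) (swap x y) (s := a) (s' := b)
      (Finset.mem_insert_of_mem ha) (Finset.mem_insert_of_mem hb) hab with ⟨w, hw, hwx⟩ | ⟨w, hw, hwx⟩
    · exfalso
      have h1 : w ∈ ptw G R := ⟨hw, fun z hz => by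
        rw [hwx z (Finset.mem_insert_of_mem hz), swap_apply_of_ne_of_ne (hne z hz).1 (hne z hz).2]⟩
      have h2 := fix_all hh hAlt hA hT hR hx w h1
      rw [hwx x (Finset.mem_insert_self _ _), swap_apply_left] at h2
      exact hxy h2.symm
    · refine ⟨w, hw, fun z hz => ?_, ?_⟩
      · rw [hwx z (Finset.mem_insert_of_mem hz), swap_apply_of_ne_of_ne (hne _ (hswR z hz)).1 (hne _ (hswR z hz)).2]
      · have h3 : x ≠ a := fun h => hx (h ▸ ha)
        have h4 : x ≠ b := fun h => hx (h ▸ hb)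
        rw [hwx x (Finset.mem_insert_self _ _), swap_apply_of_ne_of_ne h3 h4, swap_apply_left]
  obtain ⟨u, hu, hu1, hu2⟩ := key x y hx hy hxy
  obtain ⟨v, hv, hv1, hv2⟩ := key y z hy hz hyz
  have h1 : v * u ∈ ptw G R := ⟨G.mul_mem hv hu, fun z hz => by
    rw [Perm.mul_apply, hu1 z hz, hv1 _ (hswR z hz)]
    simp⟩
  have h2 := fix_all hh hAlt hA hT hR hx _ h1
  rw [Perm.mul_apply, hu2, hv2] at h2
  exact hxz h2.symm

end H16.LW
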