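import Cfsg.Agent.Lib.H16.NA1
import Cfsg.Agent.S0205

/-! Involution centralizers in groups with abelian Sylow 2-subgroups. -/

set_option autoImplicit false
set_option maxHeartbeats 400000

namespace H16.NA

open Subgroup

/-- centralizers of involutions normalize a 2-group acting regularly on odd elements -/
def BT (G : Type*) [Group G] : Prop := ∀ x : G, orderOf x = 2 → ∃ R : Subgroup G, IsPGroup 2 ↥R ∧
  (∀ c, c * x = x * c → ∀ r ∈ R, c * r * c⁻¹ ∈ R) ∧
  ∀ y, y * x = x * y → Odd (orderOf y) → (∀ r ∈ R, y * r = r * y) → y = 1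

variable {G : Type*} [Group G] [Finite G]

theorem solvable_of_sylow_normal (P : Sylow 2 G) (hP : (P : Subgroup G).Normal) : Group.IsSolvable G := by
  haveI : Fact (Nat.Prime 2) := ⟨Nat.prime_two⟩
  rw [Group.isSolvable_iff_subgroup_quotient (P : Subgroup G)]
  constructor
  · have h1 := P.2.isNilpotent
    infer_instance
  · apply Cfsg.Agent.S0205.result
    rw [← Nat.not_even_iff_odd, even_iff_two_dvd]
    exact P.not_dvd_index

theorem pow_odd (y : G) : ∃ k : ℕ, Odd (orderOf (y ^ (2 ^ k))) := by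
  have hpos : orderOf y ≠ 0 := (orderOf_pos y).ne'
  obtain ⟨k, m, hm, hk⟩ := Nat.exists_eq_two_pow_mul_odd hpos
  refine ⟨k, ?_⟩
  have h1 : orderOf (y ^ (2 ^ k)) = m := by
    rw [orderOf_pow, hk]
    rw [Nat.gcd_eq_right (Dvd.intro _ rfl)]
    exact Nat.mul_div_cancel_left m (by positivity)
  rw [h1]
  exact hm

theorem cent_solvable (h : AbS G) (hb : BT G) (t : G) (ht : orderOf t = 2) :
    Group.IsSolvable ↥(centralizer ({t} : Set G)) := by
  haveI : Fact (Nat.Prime 2) := ⟨Nat.prime_two⟩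
  obtain ⟨R, hR, hn, hy⟩ := hb t ht
  set C := centralizer ({t} : Set G) with hC
  have hmem : ∀ c : G, c ∈ C ↔ c * t = t * c := by
    intro c
    rw [hC, mem_centralizer_singleton_iff]
  let N : Subgroup ↥C := (centralizer (R : Set G)).subgroupOf C
  have hNm : ∀ c : ↥C, c ∈ N ↔ ∀ r ∈ R, r * c.1 = c.1 * r := by
    intro c
    rw [mem_subgroupOf, mem_centralizer_iff]
    rfl
  have hNn : N.Normal := by
    constructor
    intro n hn' g
    rw [hNm] at hn' ⊢
    intro r hr
    have hg' : g.1⁻¹ * t = t * g.1⁻¹ := by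
      have := (hmem _).mp (C.inv_mem g.2)
      exact this
    have h1 := hn g.1⁻¹ hg' r hr
    have h2 := hn' _ h1
    rw [inv_inv] at h2
    have h3 : (g * n * g⁻¹ : ↥C).1 = g.1 * n.1 * g.1⁻¹ := rfl
    rw [h3]
    calc r * (g.1 * n.1 * g.1⁻¹) = g.1 * ((g.1⁻¹ * r * g.1) * n.1) * g.1⁻¹ := by group
      _ = g.1 * (n.1 * (g.1⁻¹ * r * g.1)) * g.1⁻¹ := by rw [h2]
      _ = g.1 * n.1 * g.1⁻¹ * r := by group
  have hN2 : IsPGroup 2 ↥N := by
    rintro ⟨⟨c, hc⟩, hcN⟩
    obtain ⟨k, hk⟩ := pow_odd c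
    refine ⟨k, ?_⟩
    have h1 := (hNm ⟨c, hc⟩).mp hcN
    have hcomm : c * t = t * c := (hmem c).mp hc
    have h2 : c ^ (2 ^ k) = 1 := by
      apply hy _ _ hk
      · intro r hr
        have h3 : Commute r c := h1 r hr
        exact (h3.pow_right _).symm
      · have h3 : Commute c t := hcomm
        exact h3.pow_left _
    apply Subtype.ext
    apply Subtype.ext
    exact h2
  obtain ⟨P⟩ : Nonempty (Sylow 2 ↥C) := inferInstance
  have hPN : (P : Subgroup ↥C) ≤ N := by
    intro c hc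
    rw [hNm]
    intro r hr
    obtain ⟨k, hk⟩ := P.isPGroup' ⟨c, hc⟩
    have hk' : c.1 ^ (2 ^ k) = 1 := by
      have := congrArg (fun x : ↥(P : Subgroup ↥C) => x.1.1) hk
      exact this
    exact (comm_of_norm h R hR hk' (fun y hy => hn c.1 ((hmem _).mp c.2) y hy) r hr).symm
  have hPeq : (P : Subgroup ↥C) = N := (P.is_maximal' hN2 hPN).symm
  exact solvable_of_sylow_normal P (by rw [hPeq]; exact hNn)

/-- an odd cyclic subgroup of a centralizer that is normalized by it is trivial -/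
theorem odd_normal (h : AbS G) (hb : BT G) (t : G) (ht : orderOf t = 2) (a : G) (ha : Odd (orderOf a))
    (hat : a * t = t * a)
    (hn : ∀ c, c * t = t * c → c * a * c⁻¹ = a ∨ c * a * c⁻¹ = a⁻¹) : a = 1 := by
  haveI : Fact (Nat.Prime 2) := ⟨Nat.prime_two⟩
  obtain ⟨R, hR, hnR, hy⟩ := hb t ht
  have ht2 : t ^ (2 ^ 1) = 1 := by rw [pow_one, ← ht]; exact pow_orderOf_eq_one t
  have htR : ∀ r ∈ R, t * r = r * t := comm_of_norm h R hR ht2 (fun y hy => hnR t rfl y hy)
  apply hy a hat ha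
  intro r hr
  rcases hn r (htR r hr).symm with h1 | h1
  · calc a * r = (r * a * r⁻¹) * r := by rw [h1]
      _ = r * a := by group
  · -- a r a⁻¹ r⁻¹ = a * a
    have h2 : a * r * a⁻¹ * r⁻¹ = a * a := by
      have : r * a⁻¹ * r⁻¹ = a := by
        calc r * a⁻¹ * r⁻¹ = (r * a * r⁻¹)⁻¹ := by group
          _ = a := by rw [h1, inv_inv]
      calc a * r * a⁻¹ * r⁻¹ = a * (r * a⁻¹ * r⁻¹) := by group
        _ = a * a := by rw [this]
    have h4 : a * a ∈ R := by
      rw [← h2]
      exact R.mul_mem (hnR a hat r hr) (R.inv_mem hr)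
    obtain ⟨k, hk⟩ := hR ⟨a * a, h4⟩
    have hk' : (a * a) ^ (2 ^ k) = 1 := congrArg Subtype.val hk
    have h5 : a ^ (2 ^ (k + 1)) = 1 := by
      rw [← pow_two, ← pow_mul] at hk'
      rw [pow_succ, mul_comm]
      exact hk'
    have h6 : orderOf a = 1 := by
      have h7 := orderOf_dvd_of_pow_eq_one h5
      have h8 : Nat.Coprime (orderOf a) (2 ^ (k + 1)) := by
        apply Nat.Coprime.pow_right
        rw [Nat.coprime_comm, Nat.Prime.coprime_iff_not_dvd Nat.prime_two]
        exact fun h => (Nat.not_even_iff_odd.mpr ha) (even_iff_two_dvd.mpr h)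
      exact Nat.eq_one_of_dvd_coprimes h8 dvd_rfl h7
    rw [orderOf_eq_one_iff] at h6
    rw [h6, one_mul, mul_one]

end H16.NA
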