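import Cfsg.Agent.Lib.H16.NA2
import Cfsg.Agent.S2117
import Cfsg.Agent.S2118

/-! Covers of `PSL2(q)`. -/

set_option autoImplicit false
set_option maxHeartbeats 400000

namespace H16.NA
open Cfsg Matrix

theorem sl2_perfect (F : Type*) [Field F] [Fintype F] (hF : 4 ≤ Fintype.card F) :
    commutator (SpecialLinearGroup (Fin 2) F) = ⊤ := by
  classical
  have : ∃ a : F, a ∉ ({0, 1, -1} : Finset F) := by
    by_contra hcon
    push Not at hcon
    have h1 : (Finset.univ : Finset F) ⊆ {0, 1, -1} := fun a _ => hcon a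
    have h2 := Finset.card_le_card h1
    rw [Finset.card_univ] at h2
    have h3 : ({0, 1, -1} : Finset F).card ≤ 3 := Finset.card_le_three
    omega
  obtain ⟨a, ha⟩ := this
  simp only [Finset.mem_insert, Finset.mem_singleton, not_or] at ha
  refine Matrix.SL2.commutator_eq_top ha.1 (fun h => ?_)
  rcases (sq_eq_one_iff (a := a)).mp h with h | h
  · exact ha.2.1 h
  · exact ha.2.2 h

/-- `K/Z(K) ≅ PSL2(F)`, `Z(K)` a 2-group: `SL2(F)` maps onto `K`. -/
theorem sl2_onto {K : Type*} [Group K] [Finite K] (hK : IsQuasisimple K)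
    (h2 : IsPGroup 2 ↥(Subgroup.center K)) {F : Type} [Field F] [Fintype F]
    (hF : 4 < Fintype.card F)
    (e : (K ⧸ Subgroup.center K) ≃* Matrix.ProjectiveSpecialLinearGroup (Fin 2) F) :
    ∃ f : Matrix.SpecialLinearGroup (Fin 2) F →* K, Function.Surjective f := by
  classical
  haveI : Finite (Matrix.SpecialLinearGroup (Fin 2) F) := Subtype.finite
  by_cases h9 : Fintype.card F = 9
  · obtain ⟨f, hf, -⟩ := exists_cover hK h2 (sl2_perfect F (by omega))
      (QuotientGroup.mk' (Subgroup.center (Matrix.SpecialLinearGroup (Fin 2) F)))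
      (QuotientGroup.mk'_surjective _) e (n := 3) (by decide) (Cfsg.Agent.S2118.result h9)
    exact ⟨f, hf⟩
  · obtain ⟨f, hf, -⟩ := exists_cover hK h2 (sl2_perfect F (by omega))
      (QuotientGroup.mk' (Subgroup.center (Matrix.SpecialLinearGroup (Fin 2) F)))
      (QuotientGroup.mk'_surjective _) e (n := 1) (by decide) (Cfsg.Agent.S2117.result (by omega) h9)
    exact ⟨f, hf⟩

theorem card_center_sl2_le (F : Type) [Field F] [Fintype F] :
    Nat.card ↥(Subgroup.center (Matrix.SpecialLinearGroup (Fin 2) F)) ≤ 2 := by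
  classical
  have e : ↥(Subgroup.center (Matrix.SpecialLinearGroup (Fin 2) F)) ≃*
      rootsOfUnity (max (Fintype.card (Fin 2)) 1) F :=
    Matrix.SpecialLinearGroup.center_equiv_rootsOfUnity
  rw [Nat.card_congr e.toEquiv]
  have : max (Fintype.card (Fin 2)) 1 = 2 := by simp
  rw [this]
  exact card_rootsOfUnity F 2

theorem card_center_sl2_char2 (F : Type) [Field F] [Fintype F] {n : ℕ} (hF : Fintype.card F = 2 ^ n)
    (hn : n ≠ 0) : Nat.card ↥(Subgroup.center (Matrix.SpecialLinearGroup (Fin 2) F)) = 1 := by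
  classical
  haveI : Fact (Nat.Prime 2) := ⟨Nat.prime_two⟩
  haveI : CharP F 2 := charP_of_card_eq_prime_pow (f := n) hF
  rw [Subgroup.card_eq_one, eq_bot_iff]
  intro A hA
  rw [Matrix.SpecialLinearGroup.mem_center_iff] at hA
  obtain ⟨r, hr, hA⟩ := hA
  have h1 : r ^ 2 = 1 := by simpa using hr
  have h2 : (r - 1) ^ 2 = 0 := by
    have h3 : (2 : F) = 0 := by exact_mod_cast CharP.cast_eq_zero F 2
    have : (r - 1) ^ 2 = r ^ 2 - 1 - 2 * (r - 1) := by ring
    rw [this, h1, h3]; ring
  have h4 : r = 1 := by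
    have := pow_eq_zero_iff (two_ne_zero) |>.mp h2
    linear_combination this
  rw [Subgroup.mem_bot]
  apply Subtype.ext
  rw [← hA, h4]
  simp

theorem card_le_of_onto {K : Type*} [Group K] [Finite K] {F : Type} [Field F] [Fintype F]
    (e : (K ⧸ Subgroup.center K) ≃* Matrix.ProjectiveSpecialLinearGroup (Fin 2) F)
    (f : Matrix.SpecialLinearGroup (Fin 2) F →* K) (hf : Function.Surjective f) :
    Nat.card ↥(Subgroup.center K) ≤
      Nat.card ↥(Subgroup.center (Matrix.SpecialLinearGroup (Fin 2) F)) ∧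
    (Nat.card ↥(Subgroup.center K) =
      Nat.card ↥(Subgroup.center (Matrix.SpecialLinearGroup (Fin 2) F)) →
      Nonempty (K ≃* Matrix.SpecialLinearGroup (Fin 2) F)) := by
  classical
  haveI : Finite (Matrix.SpecialLinearGroup (Fin 2) F) := Subtype.finite
  have h1 : Nat.card K ≤ Nat.card (Matrix.SpecialLinearGroup (Fin 2) F) :=
    Nat.card_le_card_of_surjective f hf
  have h2 := Subgroup.card_eq_card_quotient_mul_card_subgroup (Subgroup.center K)
  have h3 := Subgroup.card_eq_card_quotient_mul_card_subgroup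
    (Subgroup.center (Matrix.SpecialLinearGroup (Fin 2) F))
  have h4 : Nat.card (K ⧸ Subgroup.center K) =
      Nat.card (Matrix.SpecialLinearGroup (Fin 2) F ⧸
        Subgroup.center (Matrix.SpecialLinearGroup (Fin 2) F)) := Nat.card_congr e.toEquiv
  have hpos : 0 < Nat.card (K ⧸ Subgroup.center K) := Nat.card_pos
  constructor
  · rw [h2, h3, ← h4] at h1
    exact Nat.le_of_mul_le_mul_left h1 hpos
  · intro h5
    have h6 : Nat.card (Matrix.SpecialLinearGroup (Fin 2) F) = Nat.card K := by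
      rw [h2, h3, h4, h5]
    have hbij : Function.Bijective f :=
      (Nat.bijective_iff_surjective_and_card f).mpr ⟨hf, h6⟩
    exact ⟨(MulEquiv.ofBijective f hbij).symm⟩

/-- odd `q` : `Z(K) = 1` or `K ≅ SL2(q)` -/
theorem psl2_odd {K : Type*} [Group K] [Finite K] (hK : IsQuasisimple K)
    (h2 : IsPGroup 2 ↥(Subgroup.center K)) {F : Type} [Field F] [Fintype F]
    (hF : 4 < Fintype.card F)
    (e : (K ⧸ Subgroup.center K) ≃* Matrix.ProjectiveSpecialLinearGroup (Fin 2) F)
    (hex : ¬ Nonempty (K ≃* Matrix.SpecialLinearGroup (Fin 2) F)) : Subgroup.center K = ⊥ := by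
  obtain ⟨f, hf⟩ := sl2_onto hK h2 hF e
  obtain ⟨h3, h4⟩ := card_le_of_onto e f hf
  have h5 := card_center_sl2_le F
  have h6 : Nat.card ↥(Subgroup.center K) ≠
      Nat.card ↥(Subgroup.center (Matrix.SpecialLinearGroup (Fin 2) F)) := fun h => hex (h4 h)
  have h7 : 0 < Nat.card ↥(Subgroup.center K) := Nat.card_pos
  apply Subgroup.eq_bot_of_card_eq
  omega

theorem psl2_even {K : Type*} [Group K] [Finite K] (hK : IsQuasisimple K)
    (h2 : IsPGroup 2 ↥(Subgroup.center K)) {F : Type} [Field F] [Fintype F]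
    (hF : 4 < Fintype.card F) {n : ℕ} (hn : n ≠ 0) (hFn : Fintype.card F = 2 ^ n)
    (e : (K ⧸ Subgroup.center K) ≃* Matrix.ProjectiveSpecialLinearGroup (Fin 2) F) :
    Subgroup.center K = ⊥ := by
  obtain ⟨f, hf⟩ := sl2_onto hK h2 hF e
  obtain ⟨h3, -⟩ := card_le_of_onto e f hf
  rw [card_center_sl2_char2 F hFn hn] at h3
  have h7 : 0 < Nat.card ↥(Subgroup.center K) := Nat.card_pos
  apply Subgroup.eq_bot_of_card_eq
  omega

end H16.NA
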