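import Cfsg.Agent.Lib.H16.NA1
import Cfsg.Agent.S0144
import Cfsg.Agent.Lib.H25.SL2Card
import Mathlib

/-! Small cases: `PSL2(3)`, `A2`, `A4`. -/

set_option autoImplicit false
set_option maxHeartbeats 400000

namespace H16.NA

theorem solv_of_card {X : Type*} [Group X] [Finite X] {a b : ℕ} (h : Nat.card X = 2 ^ a * 3 ^ b) :
    Group.IsSolvable X :=
  Cfsg.Agent.S0144.result 2 3 a b Nat.prime_two Nat.prime_three h

theorem psl2_three_solv {F : Type} [Field F] [Fintype F] (hF : Fintype.card F = 3) :
    Group.IsSolvable (Matrix.ProjectiveSpecialLinearGroup (Fin 2) F) := by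
  classical
  haveI : Finite (Matrix.SpecialLinearGroup (Fin 2) F) := Subtype.finite
  have h1 : Nat.card (Matrix.SpecialLinearGroup (Fin 2) F) = 2 ^ 3 * 3 ^ 1 := by
    rw [H25.SL2Card.card_SL2, hF]
    norm_num
  haveI := solv_of_card h1
  exact (inferInstance : Group.IsSolvable (Matrix.SpecialLinearGroup (Fin 2) F ⧸
    Subgroup.center (Matrix.SpecialLinearGroup (Fin 2) F)))

theorem alt_solv {n : ℕ} (hn : n = 2 ∨ n = 4) : Group.IsSolvable (alternatingGroup (Fin n)) := by
  rcases hn with rfl | rfl
  · apply solv_of_card (a := 0) (b := 0)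
    rw [nat_card_alternatingGroup]
    simp
  · apply solv_of_card (a := 2) (b := 1)
    rw [nat_card_alternatingGroup]
    simp [Nat.factorial]

end H16.NA
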