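import Mathlib
import Cfsg.Agent.Lib.H16.BdFin1

/-!
# Split BN pairs of rank one in odd degree (S0349), part 1: midpoints
-/

set_option autoImplicit false
set_option linter.unusedVariables false

namespace H16.SB

open H57.Bd H16.BD MulAction

/-- two-transitive action whose point stabilisers have normal Sylow 2-subgroups `S a` -/
structure Ctx (G Ω : Type*) [Group G] [MulAction G Ω] (S O : Ω → Subgroup G) : Prop where
  sfix : ∀ a, ∀ g ∈ S a, g • a = a
  smem : ∀ a g, g • a = a → (∃ k : ℕ, g ^ 2 ^ k = 1) → g ∈ S a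
  stwo : ∀ a, IsPGroup 2 (S a)
  ofix : ∀ a, ∀ g ∈ O a, g • a = a
  oodd : ∀ a, Odd (Nat.card (O a))
  oconj : ∀ a g, ∀ x ∈ O a, g * x * g⁻¹ ∈ O (g • a)
  comm : ∀ a, ∀ x ∈ S a, ∀ y ∈ O a, x * y = y * x
  trans : ∀ a b c, b ≠ a → c ≠ a → ∃ x ∈ S a, ∃ y ∈ O a, (x * y) • b = c
  faith : ∀ g : G, (∀ x : Ω, g • x = x) → g = 1
  three : ∀ a b : Ω, ∃ c, c ≠ a ∧ c ≠ b
  odd : Odd (Nat.card Ω)
  sne : ∀ a, ∃ g ∈ S a, g ≠ 1

section

variable {G Ω : Type*} [Group G] [MulAction G Ω]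

/-- `Ω_1(Z(S_a))` -/
def Az (S : Ω → Subgroup G) (a : Ω) : Subgroup G where
  carrier := {z | z ∈ S a ∧ z * z = 1 ∧ ∀ s ∈ S a, s * z = z * s}
  mul_mem' := by
    rintro z w ⟨h1, h2, h3⟩ ⟨k1, k2, k3⟩
    refine ⟨(S a).mul_mem h1 k1, ?_, ?_⟩
    · calc z * w * (z * w) = z * (w * z) * w := by group
        _ = z * (z * w) * w := by rw [h3 w k1]
        _ = (z * z) * (w * w) := by group
        _ = 1 := by rw [h2, k2, mul_one]
    · intro s hs
      rw [← mul_assoc, h3 s hs, mul_assoc, k3 s hs, mul_assoc]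
  one_mem' := ⟨(S a).one_mem, one_mul 1, fun s _ => by rw [mul_one, one_mul]⟩
  inv_mem' := by
    rintro z ⟨h1, h2, h3⟩
    have : z⁻¹ = z := inv_eq_of_mul_eq_one_left h2
    simp only [Set.mem_setOf_eq]
    rw [this]
    exact ⟨h1, h2, h3⟩

theorem mem_Az {S : Ω → Subgroup G} {a : Ω} {z : G} :
    z ∈ Az S a ↔ z ∈ S a ∧ z * z = 1 ∧ ∀ s ∈ S a, s * z = z * s := Iff.rfl

variable {S O : Ω → Subgroup G} (C : Ctx G Ω S O)

namespace Ctx

include C

theorem sconj {a : Ω} {s : G} (hs : s ∈ S a) (g : G) : g * s * g⁻¹ ∈ S (g • a) := by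
  apply C.smem
  · rw [mul_smul, mul_smul, inv_smul_smul, C.sfix a s hs]
  · obtain ⟨k, hk⟩ := C.stwo a ⟨s, hs⟩
    refine ⟨k, ?_⟩
    rw [conj_pow]
    have : s ^ 2 ^ k = 1 := congrArg Subtype.val hk
    rw [this]; group

theorem sconj' {a : Ω} {s g : G} (hs : s ∈ S (g • a)) : g⁻¹ * s * g ∈ S a := by
  have := C.sconj hs g⁻¹
  rwa [inv_smul_smul, inv_inv] at this

theorem aconj {a : Ω} {z : G} (hz : z ∈ Az S a) (g : G) : g * z * g⁻¹ ∈ Az S (g • a) := by
  obtain ⟨h1, h2, h3⟩ := hz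
  refine ⟨C.sconj h1 g, ?_, ?_⟩
  · calc g * z * g⁻¹ * (g * z * g⁻¹) = g * (z * z) * g⁻¹ := by group
      _ = 1 := by rw [h2]; group
  · intro s hs
    have h4 := h3 _ (C.sconj' hs)
    calc s * (g * z * g⁻¹) = g * (g⁻¹ * s * g * z) * g⁻¹ := by group
      _ = g * (z * (g⁻¹ * s * g)) * g⁻¹ := by rw [h4]
      _ = g * z * g⁻¹ * s := by group

theorem afix {a b : Ω} {z : G} (hz : z ∈ Az S a) (hz1 : z ≠ 1) (hb : z • b = b) : b = a := by
  by_contra hba
  apply hz1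
  apply C.faith
  intro c
  by_cases hca : c = a
  · rw [hca]; exact C.sfix a z hz.1
  · obtain ⟨x, hx, y, hy, hxy⟩ := C.trans a b c hba hca
    rw [← hxy, ← mul_smul]
    have h1 := hz.2.2 x hx
    have h2 := C.comm a z hz.1 y hy
    have h3 : z * (x * y) = x * y * z := by rw [← mul_assoc, ← h1, mul_assoc, h2, mul_assoc]
    rw [h3, mul_smul, hb]

theorem comm_fix {a : Ω} {z g : G} (hz : z ∈ Az S a) (hz1 : z ≠ 1) (h : z * g = g * z) : g • a = a := by
  apply C.afix hz hz1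
  rw [← mul_smul, h, mul_smul, C.sfix a z hz.1]

theorem same {a b : Ω} {z w : G} (hz : z ∈ Az S a) (hz1 : z ≠ 1) (hw : w ∈ Az S b) (hw1 : w ≠ 1)
    (h : z * w = w * z) : a = b :=
  C.afix hw hw1 (C.comm_fix hz hz1 h ▸ by
    have := C.comm_fix hz hz1 h
    rw [this]; exact this)

theorem ane [Finite G] (a : Ω) : ∃ z ∈ Az S a, z ≠ 1 := by
  haveI : Fact (Nat.Prime 2) := ⟨Nat.prime_two⟩
  obtain ⟨g, hg, hg1⟩ := C.sne a
  haveI : Nontrivial (S a) := ⟨⟨⟨g, hg⟩, 1, fun h => hg1 (congrArg Subtype.val h)⟩⟩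
  have h1 := (C.stwo a).center_nontrivial
  have h2 : IsPGroup 2 (Subgroup.center (S a)) := (C.stwo a).to_subgroup _
  obtain ⟨n, hn0, hn⟩ := (IsPGroup.nontrivial_iff_card h2).mp h1
  obtain ⟨z, hz⟩ := exists_prime_orderOf_dvd_card' (G := Subgroup.center (S a)) 2 (by
    rw [hn]; exact dvd_pow_self 2 (by omega))
  have h3 : orderOf ((z : S a) : G) = 2 := by rw [Subgroup.orderOf_coe, Subgroup.orderOf_coe, hz]
  refine ⟨((z : S a) : G), ⟨(z : S a).2, sq_one_of_order h3, ?_⟩, ne_one_of_order h3⟩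
  intro s hs
  have := Subgroup.mem_center_iff.mp z.2 ⟨s, hs⟩
  exact congrArg Subtype.val this

omit C in
theorem inv_pow_conj {x y : G} (hx : x * x = 1) (hy : y * y = 1) (j : ℕ) :
    ((x * y) ^ j)⁻¹ * x * (x * y) ^ j = x * (x * y) ^ (2 * j) := by
  have hx' : x⁻¹ = x := inv_eq_of_mul_eq_one_left hx
  have hy' : y⁻¹ = y := inv_eq_of_mul_eq_one_left hy
  have h1 : x * (x * y) ^ j * x⁻¹ = ((x * y) ^ j)⁻¹ := by
    rw [← conj_pow, ← inv_pow]
    congr 1
    rw [mul_inv_rev, hx', hy', ← mul_assoc, hx, one_mul]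
  rw [← h1, two_mul, pow_add]
  group

omit C in
theorem comm_pow_x {x y w : G} (hx : x * x = 1) (hy : y * y = 1) {k : ℕ} (hw : w = (x * y) ^ k) (hww : w * w = 1) :
    x * w = w * x := by
  have hx' : x⁻¹ = x := inv_eq_of_mul_eq_one_left hx
  have hy' : y⁻¹ = y := inv_eq_of_mul_eq_one_left hy
  have h1 : x * w * x⁻¹ = w⁻¹ := by
    rw [hw, ← conj_pow, ← inv_pow]
    congr 1
    rw [mul_inv_rev, hx', hy', ← mul_assoc, hx, one_mul]
  rw [inv_eq_of_mul_eq_one_left hww] at h1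
  calc x * w = x * w * x⁻¹ * x := by group
    _ = w * x := by rw [h1]

theorem odd_mul [Finite G] {a b : Ω} (hab : a ≠ b) {x y : G} (hx : x ∈ Az S a) (hx1 : x ≠ 1) (hy : y ∈ Az S b)
    (hy1 : y ≠ 1) : Odd (orderOf (x * y)) := by
  rw [← Nat.not_even_iff_odd]
  rintro ⟨k, hk⟩
  have hx2 := hx.2.1
  have hy2 := hy.2.1
  have hpos : 0 < orderOf (x * y) := orderOf_pos _
  set w := (x * y) ^ k with hw
  have hw1 : w ≠ 1 := by
    intro h
    have := orderOf_dvd_of_pow_eq_one h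
    have := Nat.le_of_dvd (by omega) this
    omega
  have hww : w * w = 1 := by rw [hw, ← pow_add, ← hk, pow_orderOf_eq_one]
  have hxw : x * w = w * x := comm_pow_x hx2 hy2 hw hww
  have hyw : y * w = w * y := by
    have h1 : x * (x * y) = y := by rw [← mul_assoc, hx2, one_mul]
    have h2 : (x * y) * w = w * (x * y) := by rw [hw]; exact (Commute.refl (x * y)).pow_right k
    calc y * w = x * ((x * y) * w) := by rw [← mul_assoc, h1]
      _ = x * w * (x * y) := by rw [h2, mul_assoc]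
      _ = w * (x * (x * y)) := by rw [hxw]; group
      _ = w * y := by rw [h1]
  have hwa : w • a = a := C.comm_fix hx hx1 hxw
  have hwb : w • b = b := C.comm_fix hy hy1 hyw
  rcases Nat.even_or_odd k with ⟨j, hj⟩ | ⟨j, hj⟩
  · have h1 : ((x * y) ^ j)⁻¹ * x * (x * y) ^ j = x * w := by
      rw [inv_pow_conj hx2 hy2, hw, hj, two_mul]
    have h2 := C.aconj hx ((x * y) ^ j)⁻¹
    rw [inv_inv, h1] at h2
    have h3 : x * w ≠ 1 := by
      intro h
      apply hab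
      symm
      apply C.afix hx hx1
      have : x⁻¹ = w := inv_eq_of_mul_eq_one_right h
      rw [← inv_inv x, this, inv_eq_of_mul_eq_one_left hww]; exact hwb
    have h4 := C.same hx hx1 h2 h3 (by rw [← mul_assoc, mul_assoc x w x, ← hxw, ← mul_assoc])
    rw [← h4] at h2
    have h5 : w ∈ Az S a := by
      have := (Az S a).mul_mem hx h2
      rwa [← mul_assoc, hx2, one_mul] at this
    exact hab (C.afix h5 hw1 hwb).symm
  · have h1 : ((x * y) ^ (j + 1))⁻¹ * x * (x * y) ^ (j + 1) = y * w := by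
      rw [inv_pow_conj hx2 hy2, hw, hj, show 2 * (j + 1) = 1 + (2 * j + 1) by ring, pow_add, pow_one]
      rw [← mul_assoc, ← mul_assoc, hx2, one_mul]
    have h2 := C.aconj hx ((x * y) ^ (j + 1))⁻¹
    rw [inv_inv, h1] at h2
    have h3 : y * w ≠ 1 := by
      intro h
      apply hab
      apply C.afix hy hy1
      have : y⁻¹ = w := inv_eq_of_mul_eq_one_right h
      rw [← inv_inv y, this, inv_eq_of_mul_eq_one_left hww]; exact hwa
    have h4 := C.same hy hy1 h2 h3 (by rw [← mul_assoc, mul_assoc y w y, ← hyw, ← mul_assoc])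
    rw [← h4] at h2
    have h5 : w ∈ Az S b := by
      have := (Az S b).mul_mem hy h2
      rwa [← mul_assoc, hy2, one_mul] at this
    exact hab (C.afix h5 hw1 hwa)

/-- existence of midpoints -/
theorem exists_mid [Finite G] {a b : Ω} (hab : a ≠ b) {x y : G} (hx : x ∈ Az S a) (hx1 : x ≠ 1) (hy : y ∈ Az S b)
    (hy1 : y ≠ 1) : ∃ s c, s ∈ Az S c ∧ s ≠ 1 ∧ s * x * s = y ∧ (∀ t, t * x = x * t → t * y = y * t → t * s = s * t) ∧
      ∀ r, r * r = 1 → r * x * r = y → r * s = s * r := by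
  obtain ⟨m, hm⟩ := C.odd_mul hab hx hx1 hy hy1
  have hx2 := hx.2.1
  have hy2 := hy.2.1
  have hpow : (x * y) ^ (2 * m + 1) = 1 := by rw [← hm, pow_orderOf_eq_one]
  have h2 : (x * y) ^ (2 * (m + 1)) = x * y := by
    rw [show 2 * (m + 1) = 2 * m + 1 + 1 by ring, pow_succ, hpow, one_mul]
  have h3 : (x * y) ^ (2 * ((m + 1) * (m + 1))) = (x * y) ^ (m + 1) := by
    rw [← mul_assoc, pow_mul, h2]
  set s := x * (x * y) ^ (m + 1) with hs
  have hsx : ((x * y) ^ ((m + 1) * (m + 1)))⁻¹ * x * (x * y) ^ ((m + 1) * (m + 1)) = s := by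
    rw [inv_pow_conj hx2 hy2, h3]
  have h4 := C.aconj hx ((x * y) ^ ((m + 1) * (m + 1)))⁻¹
  rw [inv_inv, hsx] at h4
  refine ⟨s, _, h4, ?_, ?_, ?_, ?_⟩
  · intro h
    rw [h] at hsx
    apply hx1
    calc x = (x * y) ^ ((m + 1) * (m + 1)) * (((x * y) ^ ((m + 1) * (m + 1)))⁻¹ * x * (x * y) ^ ((m + 1) * (m + 1)))
        * ((x * y) ^ ((m + 1) * (m + 1)))⁻¹ := by group
      _ = 1 := by rw [hsx]; group
  · calc s * x * s = x * ((x * y) ^ (m + 1) * (x * x) * (x * y) ^ (m + 1)) := by rw [hs]; group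
      _ = x * (x * y) ^ (2 * (m + 1)) := by rw [hx2, mul_one, ← pow_add, two_mul (m + 1)]
      _ = y := by rw [h2, ← mul_assoc, hx2, one_mul]
  · intro t htx hty
    have h5 : Commute t (x * y) := Commute.mul_right htx hty
    have h6 : Commute t s := Commute.mul_right htx (h5.pow_right _)
    exact h6
  · intro r hr hrx
    have hr' : r⁻¹ = r := inv_eq_of_mul_eq_one_left hr
    have hry : r * y * r = x := by
      rw [← hrx]
      calc r * (r * x * r) * r = (r * r) * x * (r * r) := by group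
        _ = x := by rw [hr]; group
    have h5 : r * (x * y) * r⁻¹ = (x * y)⁻¹ := by
      rw [mul_inv_rev, inv_eq_of_mul_eq_one_left hx2, inv_eq_of_mul_eq_one_left hy2, hr']
      calc r * (x * y) * r = (r * x * r) * ((r * r)⁻¹ * (r * y * r)) := by group
        _ = y * x := by rw [hr, hrx, hry]; group
    have h6 : r * s * r⁻¹ = s := by
      calc r * s * r⁻¹ = (r * x * r⁻¹) * (r * (x * y) ^ (m + 1) * r⁻¹) := by rw [hs]; group
        _ = y * ((x * y) ^ (m + 1))⁻¹ := by rw [← conj_pow, h5, inv_pow, hr', hrx]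
        _ = x * ((x * y) ^ 1 * ((x * y) ^ (m + 1))⁻¹) := by
            rw [pow_one, ← mul_assoc, ← mul_assoc, hx2, one_mul]
        _ = x * (x * y) ^ (m + 1) := by
            congr 1
            rw [mul_inv_eq_iff_eq_mul, ← pow_add, pow_one, ← two_mul, h2]
        _ = s := rfl
    calc r * s = r * s * r⁻¹ * r := by group
      _ = s * r := by rw [h6]

/-- midpoints are unique -/
theorem mid_unique [Finite G] {a b c c' : Ω} (hab : a ≠ b) {x y s s' : G} (hx : x ∈ Az S a) (hx1 : x ≠ 1)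
    (hy : y ∈ Az S b) (hy1 : y ≠ 1) (hs : s ∈ Az S c) (hs1 : s ≠ 1) (hs' : s' ∈ Az S c') (hs1' : s' ≠ 1)
    (h : s * x * s = y) (h' : s' * x * s' = y) : s = s' := by
  obtain ⟨r, e, hr, hr1, hrx, -, hrc⟩ := C.exists_mid hab hx hx1 hy hy1
  have key : ∀ (c : Ω) (s : G), s ∈ Az S c → s ≠ 1 → s * x * s = y → s = r := by
    intro c s hs hs1 h
    have hs2 := hs.2.1
    have hr2 := hr.2.1
    have h1 := hrc s hs2 h
    have h2 := C.same hs hs1 hr hr1 h1
    subst h2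
    have h3 : s * r ∈ Az S c := (Az S c).mul_mem hs hr
    by_contra hne
    have h4 : s * r ≠ 1 := by
      intro h5
      apply hne
      rw [← inv_eq_of_mul_eq_one_left hr2]; exact eq_inv_of_mul_eq_one_left h5
    have hsy : s * y * s = x := by
      rw [← h]
      calc s * (s * x * s) * s = (s * s) * x * (s * s) := by group
        _ = x := by rw [hs2]; group
    have hry : r * y * r = x := by
      rw [← hrx]
      calc r * (r * x * r) * r = (r * r) * x * (r * r) := by group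
        _ = x := by rw [hr2]; group
    have h6 : s * r * x = x * (s * r) := by
      calc s * r * x = s * (r * x * r) * r * ((r * r)⁻¹ ) := by group
        _ = (s * y * s) * ((s * s)⁻¹ * s) * r := by rw [hrx, hr2]; group
        _ = x * (s * r) := by rw [hsy, hs2]; group
    have h7 : s * r * y = y * (s * r) := by
      calc s * r * y = s * (r * y * r) * r * ((r * r)⁻¹ ) := by group
        _ = (s * x * s) * ((s * s)⁻¹ * s) * r := by rw [hry, hr2]; group
        _ = y * (s * r) := by rw [h, hs2]; group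
    have h8 := C.afix h3 h4 (C.comm_fix hx hx1 h6.symm)
    have h9 := C.afix h3 h4 (C.comm_fix hy hy1 h7.symm)
    exact hab (h8.trans h9.symm)
  rw [key c s hs hs1 h, key c' s' hs' hs1' h']

end Ctx

/-- the involutions of `X` mapping `a` to `b` -/
def M (S : Ω → Subgroup G) (a b : Ω) : Set G := {s | (∃ c, s ∈ Az S c) ∧ s ≠ 1 ∧ s • a = b}

theorem M_sq {a b : Ω} {s : G} (hs : s ∈ M S a b) : s * s = 1 := by
  obtain ⟨⟨c, hc⟩, -, -⟩ := hs
  exact hc.2.1

theorem M_inv {a b : Ω} {s : G} (hs : s ∈ M S a b) : s⁻¹ = s := inv_eq_of_mul_eq_one_left (M_sq hs)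

theorem M_symm {a b : Ω} {s : G} (hs : s ∈ M S a b) : s • b = a := by
  rw [← hs.2.2, ← mul_smul, M_sq hs, one_smul]

theorem M_symm' {a b : Ω} {s : G} (hs : s ∈ M S a b) : s ∈ M S b a := ⟨hs.1, hs.2.1, M_symm hs⟩

namespace Ctx

include C

theorem mconj {a b : Ω} {s : G} (hs : s ∈ M S a b) (g : G) : g * s * g⁻¹ ∈ M S (g • a) (g • b) := by
  obtain ⟨⟨c, hc⟩, h1, h2⟩ := hs
  refine ⟨⟨g • c, C.aconj hc g⟩, ?_, ?_⟩
  · intro h
    apply h1
    calc s = g⁻¹ * (g * s * g⁻¹) * g := by group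
      _ = 1 := by rw [h]; group
  · rw [mul_smul, mul_smul, inv_smul_smul, h2]

theorem m_map {a b : Ω} {x s : G} (hx : x ∈ Az S a) (hx1 : x ≠ 1) (hs : s ∈ M S a b) :
    s * x * s ∈ Az S b ∧ s * x * s ≠ 1 := by
  have h1 := C.aconj hx s
  rw [M_inv hs, hs.2.2] at h1
  refine ⟨h1, ?_⟩
  intro h
  apply hx1
  calc x = (s * s)⁻¹ * (s * (s * x * s) * s) * (s * s)⁻¹ := by group
    _ = 1 := by rw [M_sq hs, h, mul_one, M_sq hs]; group

theorem m_comm [Finite G] {a b : Ω} (hab : a ≠ b) {s t : G} (hs : s ∈ M S a b) (hta : t ∈ S a) (htb : t ∈ S b) :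
    t * s = s * t := by
  obtain ⟨x, hx, hx1⟩ := C.ane a
  obtain ⟨hy, hy1⟩ := C.m_map hx hx1 hs
  obtain ⟨r, e, hr, hr1, hrx, hrc, -⟩ := C.exists_mid hab hx hx1 hy hy1
  obtain ⟨⟨c, hc⟩, h1, h2⟩ := hs
  rw [C.mid_unique hab hx hx1 hy hy1 hc h1 hr hr1 rfl hrx]
  exact hrc t (hx.2.2 t hta) (hy.2.2 t htb)

theorem m_inj [Finite G] {a b : Ω} (hab : a ≠ b) {s s' x : G} (hs : s ∈ M S a b) (hs' : s' ∈ M S a b) (hx : x ∈ Az S a)
    (hx1 : x ≠ 1) (h : s * x * s = s' * x * s') : s = s' := by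
  obtain ⟨hy, hy1⟩ := C.m_map hx hx1 hs
  obtain ⟨⟨c, hc⟩, h1, h2⟩ := hs
  obtain ⟨⟨c', hc'⟩, h1', h2'⟩ := hs'
  exact C.mid_unique hab hx hx1 hy hy1 hc h1 hc' h1' rfl h.symm

theorem m_surj [Finite G] {a b : Ω} (hab : a ≠ b) {x y : G} (hx : x ∈ Az S a) (hx1 : x ≠ 1) (hy : y ∈ Az S b)
    (hy1 : y ≠ 1) : ∃ s ∈ M S a b, s * x * s = y := by
  obtain ⟨r, e, hr, hr1, hrx, hrc, -⟩ := C.exists_mid hab hx hx1 hy hy1
  refine ⟨r, ⟨⟨e, hr⟩, hr1, ?_⟩, hrx⟩
  apply C.afix hy hy1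
  rw [← hrx, ← mul_smul]
  have : r * x * r * r = r * x := by rw [mul_assoc, hr.2.1, mul_one]
  rw [this, mul_smul, C.sfix a x hx.1]

theorem m_odd [Finite G] {a b : Ω} (hab : a ≠ b) {s s' : G} (hs : s ∈ M S a b) (hs' : s' ∈ M S a b) :
    Odd (orderOf (s * s')) := by
  by_cases hss : s = s'
  · rw [← hss, M_sq hs, orderOf_one]; exact odd_one
  obtain ⟨⟨c, hc⟩, h1, h2⟩ := id hs
  obtain ⟨⟨c', hc'⟩, h1', h2'⟩ := id hs'
  by_cases hcc : c = c'
  · exfalso
    subst hcc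
    have h3 : s * s' ∈ Az S c := (Az S c).mul_mem hc hc'
    have h4 : s * s' ≠ 1 := by
      intro h
      apply hss
      rw [← M_inv hs']; exact eq_inv_of_mul_eq_one_left h
    have h5 := C.afix h3 h4 (b := a) (by rw [mul_smul, h2', M_symm hs])
    apply hab
    rw [← h2, h5]
    exact (C.sfix c s hc.1).symm
  · exact C.odd_mul hcc hc h1 hc' h1'

theorem card_Az [Finite G] {a b : Ω} (hab : a ≠ b) : Nat.card (Az S a) = Nat.card (Az S b) := by
  obtain ⟨x, hx, hx1⟩ := C.ane a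
  obtain ⟨y, hy, hy1⟩ := C.ane b
  obtain ⟨s, hs, -⟩ := C.m_surj hab hx hx1 hy hy1
  have hinv := M_inv hs
  apply Nat.card_congr
  refine ⟨fun z => ⟨s * z * s, ?_⟩, fun z => ⟨s * z * s, ?_⟩, ?_, ?_⟩
  · have := C.aconj z.2 s
    rwa [hinv, hs.2.2] at this
  · have := C.aconj z.2 s
    rwa [hinv, M_symm hs] at this
  · intro z
    apply Subtype.ext
    calc s * (s * (z : G) * s) * s = (s * s) * z * (s * s) := by group
      _ = z := by rw [M_sq hs]; group
  · intro z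
    apply Subtype.ext
    calc s * (s * (z : G) * s) * s = (s * s) * z * (s * s) := by group
      _ = z := by rw [M_sq hs]; group

/-- the number of elements of `M a b` -/
theorem card_M [Finite G] {a b : Ω} (hab : a ≠ b) : Nat.card (M S a b) + 1 = Nat.card (Az S b) := by
  classical
  obtain ⟨x, hx, hx1⟩ := C.ane a
  have h1 : Nat.card (M S a b) = Nat.card {y : Az S b // y ≠ 1} := by
    apply Nat.card_congr
    refine Equiv.ofBijective (fun s => ⟨⟨s * x * s, (C.m_map hx hx1 s.2).1⟩, fun h => (C.m_map hx hx1 s.2).2 (congrArg Subtype.val h)⟩) ⟨?_, ?_⟩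
    · intro s s' h
      have h2 : (s : G) * x * s = s' * x * s' := congrArg (fun z : {y : Az S b // y ≠ 1} => ((z : Az S b) : G)) h
      exact Subtype.ext (C.m_inj hab s.2 s'.2 hx hx1 h2)
    · rintro ⟨⟨y, hy⟩, hy1⟩
      obtain ⟨s, hs, hsx⟩ := C.m_surj hab hx hx1 hy (fun h => hy1 (Subtype.ext h))
      exact ⟨⟨s, hs⟩, Subtype.ext (Subtype.ext hsx)⟩
  haveI := Fintype.ofFinite (Az S b)
  rw [h1, Nat.card_eq_fintype_card, Nat.card_eq_fintype_card, Fintype.card_subtype_compl, Fintype.card_subtype_eq]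
  have : 0 < Fintype.card (Az S b) := Fintype.card_pos
  omega

end Ctx

end

end H16.SB
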