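import Mathlib
import Cfsg.Agent.Lib.H16.SB1

/-!
# Split BN pairs of rank one in odd degree (S0349), part 2: bad involutions, counting
-/

set_option autoImplicit false
set_option linter.unusedVariables false
set_option maxHeartbeats 1000000
set_option synthInstance.maxHeartbeats 200000

namespace H16.SB

open H57.Bd H16.BD MulAction

section

variable {G Ω : Type*} [Group G] [MulAction G Ω]

/-- parity principle -/
theorem exists_fixed_odd {X : Type*} [Finite X] (τ : X → X) (hτ : ∀ x, τ (τ x) = x)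
    (hodd : Odd (Nat.card X)) : ∃ x, τ x = x := by
  classical
  haveI := Fintype.ofFinite X
  by_contra hcon
  push Not at hcon
  have h1 : ∑ x : X, (1 : ZMod 2) = 0 := by
    refine Finset.sum_involution (fun x _ => τ x) ?_ ?_ ?_ ?_
    · intro x _
      show (1 : ZMod 2) + 1 = 0
      decide
    · intro x _ hx h
      exact hcon x h
    · intro x _; exact Finset.mem_univ _
    · intro x _; exact hτ x
  rw [Finset.sum_const, Finset.card_univ, nsmul_eq_mul, mul_one, ← Nat.card_eq_fintype_card,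
    ZMod.natCast_eq_zero_iff_even] at h1
  exact (Nat.not_even_iff_odd.2 hodd) h1

/-- number of fixed points -/
noncomputable def fx (Ω : Type*) {G : Type*} [Group G] [MulAction G Ω] (u : G) : ℕ := Nat.card {c : Ω // u • c = c}

theorem fx_conj (u g : G) : fx Ω (g * u * g⁻¹) = fx Ω u := by
  symm
  apply Nat.card_congr
  refine ⟨fun c => ⟨g • (c : Ω), ?_⟩, fun c => ⟨g⁻¹ • (c : Ω), ?_⟩, ?_, ?_⟩
  · rw [mul_smul, mul_smul, inv_smul_smul, c.2]
  · have := c.2
    rw [mul_smul, mul_smul] at this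
    rw [← eq_inv_smul_iff] at this
    exact this
  · intro c; exact Subtype.ext (inv_smul_smul _ _)
  · intro c; exact Subtype.ext (smul_inv_smul _ _)

variable {S O : Ω → Subgroup G} (C : Ctx G Ω S O)

namespace Ctx

include C

theorem smem2 {u : G} {e : Ω} (hu : u * u = 1) (he : u • e = e) : u ∈ S e :=
  C.smem e u he ⟨1, by rw [pow_one, pow_two, hu]⟩

theorem odd_one {g : G} {c : Ω} (hg : g ∈ S c) (ho : Odd (orderOf g)) : g = 1 := by
  obtain ⟨k, hk⟩ := C.stwo c ⟨g, hg⟩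
  have h1 : g ^ 2 ^ k = 1 := congrArg Subtype.val hk
  have h2 := orderOf_dvd_of_pow_eq_one h1
  obtain ⟨i, hi, h3⟩ := (Nat.dvd_prime_pow Nat.prime_two).mp h2
  rcases Nat.eq_zero_or_pos i with h4 | h4
  · rw [h4, pow_zero] at h3
    exact orderOf_eq_one_iff.mp h3
  · exfalso
    rw [h3, Nat.odd_pow_iff (by omega)] at ho
    exact absurd ho (by decide)

theorem card_Az' [Finite G] (a b : Ω) : Nat.card (Az S a) = Nat.card (Az S b) := by
  by_cases h : a = b
  · rw [h]
  · exact C.card_Az h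

theorem even_Az [Finite G] (a : Ω) : Even (Nat.card (Az S a)) := by
  obtain ⟨z, hz, hz1⟩ := C.ane a
  have h1 : orderOf (⟨z, hz⟩ : Az S a) = 2 := by
    rw [← Subgroup.orderOf_coe]
    exact order_two hz.2.1 hz1
  rw [even_iff_two_dvd, ← h1]
  exact orderOf_dvd_natCard _

theorem odd_M [Finite G] {a b : Ω} (hab : a ≠ b) : Odd (Nat.card (M S a b)) := by
  have h1 := C.card_M hab
  have h2 := C.even_Az b
  rw [← h1] at h2
  rw [← Nat.not_even_iff_odd]
  intro h
  exact (Nat.not_odd_iff_even.mpr h2) h.add_one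

/-- a moved point has a midpoint with its image, commuting with `u` -/
theorem exists_s [Finite G] {u : G} (hu : u * u = 1) {c : Ω} (hc : u • c ≠ c) :
    ∃ s ∈ M S c (u • c), u * s = s * u := by
  classical
  have hu' : u⁻¹ = u := inv_eq_of_mul_eq_one_left hu
  have h1 : ∀ s : M S c (u • c), u * s * u ∈ M S c (u • c) := by
    intro s
    have := C.mconj s.2 u
    rw [hu', ← mul_smul, hu, one_smul] at this
    exact M_symm' this
  obtain ⟨s, hs⟩ := exists_fixed_odd (fun s : M S c (u • c) => (⟨u * s * u, h1 s⟩ : M S c (u • c))) (by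
    intro s
    apply Subtype.ext
    show u * (u * (s : G) * u) * u = s
    calc u * (u * (s : G) * u) * u = (u * u) * s * (u * u) := by group
      _ = s := by rw [hu]; group) (C.odd_M hc.symm)
  refine ⟨s, s.2, ?_⟩
  have h5 : u * (s : G) * u = s := congrArg Subtype.val hs
  calc u * (s : G) = u * s * (u * u) := by rw [hu, mul_one]
    _ = (u * s * u) * u := by group
    _ = s * u := by rw [h5]

theorem s_unique [Finite G] {u : G} (hu : u * u = 1) {c : Ω} (hc : u • c ≠ c) {s s' : G} (hs : s ∈ M S c (u • c))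
    (hs' : s' ∈ M S c (u • c)) (h : u * s = s * u) (h' : u * s' = s' * u) : s = s' := by
  have key : ∀ s ∈ M S c (u • c), u * s = s * u → u * s ∈ S c := by
    intro s hs h
    apply C.smem2
    · calc u * s * (u * s) = u * (s * u) * s := by group
        _ = (u * u) * (s * s) := by rw [← h]; group
        _ = 1 := by rw [hu, M_sq hs, mul_one]
    · rw [mul_smul, hs.2.2, ← mul_smul, hu, one_smul]
  have h1 : s * s' ∈ S c := by
    have := (S c).mul_mem (key s hs h) (key s' hs' h')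
    have h2 : u * s * (u * s') = s * s' := by
      calc u * s * (u * s') = (u * s) * u * s' := by group
        _ = s * (u * u) * s' := by rw [h]; group
        _ = s * s' := by rw [hu, mul_one]
    rwa [h2] at this
  have h2 := C.odd_one h1 (C.m_odd hc.symm hs hs')
  rw [← M_inv hs']
  exact eq_inv_of_mul_eq_one_left h2

/-- `C(u)` is transitive on the elements of `X` which it contains -/
theorem u_trans [Finite G] {u : G} (hu : u * u = 1) {a b : Ω} (hab : a ≠ b) (ha : u • a = a) (hb : u • b = b)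
    {e e' : Ω} (he : u • e = e) (he' : u • e' = e') {s s' : G} (hs : s ∈ Az S e) (hs1 : s ≠ 1) (hs' : s' ∈ Az S e')
    (hs1' : s' ≠ 1) : ∃ g : G, g * u = u * g ∧ g * s * g⁻¹ = s' := by
  have key : ∀ {e e' : Ω} {s s' : G}, e ≠ e' → u • e = e → u • e' = e' → s ∈ Az S e → s ≠ 1 → s' ∈ Az S e' → s' ≠ 1 →
      ∃ g : G, g * u = u * g ∧ g * s * g⁻¹ = s' := by
    intro e e' s s' hee he he' hs hs1 hs' hs1'
    obtain ⟨r, hr, hrs⟩ := C.m_surj hee hs hs1 hs' hs1'
    refine ⟨r, (C.m_comm hee hr (C.smem2 hu he) (C.smem2 hu he')).symm, ?_⟩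
    rw [M_inv hr, hrs]
  by_cases hee : e = e'
  · subst hee
    obtain ⟨d, hd, hde⟩ : ∃ d, u • d = d ∧ e ≠ d := by
      by_cases h : e = a
      · exact ⟨b, hb, by rw [h]; exact hab⟩
      · exact ⟨a, ha, h⟩
    obtain ⟨y, hy, hy1⟩ := C.ane d
    obtain ⟨g, hg, hgs⟩ := key hde he hd hs hs1 hy hy1
    obtain ⟨k, hk, hks⟩ := key hde.symm hd he hy hy1 hs' hs1'
    refine ⟨k * g, ?_, ?_⟩
    · rw [mul_assoc, hg, ← mul_assoc, hk, mul_assoc]
    · calc k * g * s * (k * g)⁻¹ = k * (g * s * g⁻¹) * k⁻¹ := by group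
        _ = s' := by rw [hgs, hks]
  · exact key hee he he' hs hs1 hs' hs1'

theorem fx_us [Finite G] {u : G} (hu : u * u = 1) {a b : Ω} (hab : a ≠ b) (ha : u • a = a) (hb : u • b = b)
    {e e' : Ω} (he : u • e = e) (he' : u • e' = e') {s s' : G} (hs : s ∈ Az S e) (hs1 : s ≠ 1) (hs' : s' ∈ Az S e')
    (hs1' : s' ≠ 1) : fx Ω (u * s) = fx Ω (u * s') := by
  obtain ⟨g, hg, hgs⟩ := C.u_trans hu hab ha hb he he' hs hs1 hs' hs1'
  have h1 : g * (u * s) * g⁻¹ = u * s' := by
    calc g * (u * s) * g⁻¹ = (g * u) * s * g⁻¹ := by group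
      _ = u * (g * s * g⁻¹) := by rw [hg]; group
      _ = u * s' := by rw [hgs]
  rw [← h1, fx_conj]

theorem conj_us [Finite G] {u : G} (hu : u * u = 1) {a b : Ω} (hab : a ≠ b) (ha : u • a = a) (hb : u • b = b)
    {e e' : Ω} (he : u • e = e) (he' : u • e' = e') {s s' : G} (hs : s ∈ Az S e) (hs1 : s ≠ 1) (hs' : s' ∈ Az S e')
    (hs1' : s' ≠ 1) : ∃ g : G, g * (u * s) * g⁻¹ = u * s' := by
  obtain ⟨g, hg, hgs⟩ := C.u_trans hu hab ha hb he he' hs hs1 hs' hs1'
  refine ⟨g, ?_⟩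
  calc g * (u * s) * g⁻¹ = (g * u) * s * g⁻¹ := by group
    _ = u * (g * s * g⁻¹) := by rw [hg]; group
    _ = u * s' := by rw [hgs]

/-- `u` is conjugate to all `u s` -/
theorem u_conj [Finite G] {q : ℕ} (hq : ∀ a : Ω, Nat.card (Az S a) = q) (h4 : 2 < q) {u : G} (hu : u * u = 1)
    (hu1 : u ≠ 1) {a b : Ω} (hab : a ≠ b)
    (ha : u • a = a) (hb : u • b = b) {e : Ω} (he : u • e = e) {s : G} (hs : s ∈ Az S e) (hs1 : s ≠ 1) :
    ∃ g : G, g * u * g⁻¹ = u * s := by
  obtain ⟨c, hc⟩ : ∃ c : Ω, u • c ≠ c := by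
    by_contra h
    push Not at h
    exact hu1 (C.faith u h)
  obtain ⟨r, hr, hur⟩ := C.exists_s hu hc
  obtain ⟨⟨d, hd⟩, hr1, hrc⟩ := id hr
  have hud : u • d = d := C.comm_fix hd hr1 hur.symm
  have hrr : r * r = 1 := M_sq hr
  have hvv : u * r * (u * r) = 1 := by
    calc u * r * (u * r) = u * (r * u) * r := by group
      _ = (u * u) * (r * r) := by rw [← hur]; group
      _ = 1 := by rw [hu, hrr, mul_one]
  set v := u * r with hv
  have hvd : v • d = d := by rw [hv, mul_smul, C.sfix d r hd.1, hud]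
  have hvc : v • c = c := by rw [hv, mul_smul, hrc, ← mul_smul, hu, one_smul]
  have hcd : c ≠ d := by
    intro h
    rw [h] at hc
    exact hc hud
  have hvr : v * r = u := by rw [hv, mul_assoc, hrr, mul_one]
  -- a second element
  obtain ⟨t, ht, ht1, htr⟩ : ∃ t ∈ Az S d, t ≠ 1 ∧ t ≠ r := by
    by_contra hcon
    push Not at hcon
    have h1 : Nat.card (Az S d) ≤ Nat.card ({1, r} : Set G) := by
      have : ((Az S d : Subgroup G) : Set G) ⊆ {1, r} := by
        intro t ht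
        by_cases h : t = 1
        · left; exact h
        · right; exact hcon t ht h
      exact Nat.card_mono (Set.toFinite _) this
    have h2 : Nat.card ({1, r} : Set G) ≤ 2 := by
      rw [Nat.card_coe_set_eq]
      exact Set.ncard_insert_le _ _ |>.trans (by rw [Set.ncard_singleton])
    rw [hq d] at h1
    omega
  obtain ⟨g, hg⟩ := C.conj_us hvv hcd hvc hvd hvd hvd hd hr1 ht ht1
  have hrt : r * t ∈ Az S d := (Az S d).mul_mem hd ht
  have hrt1 : r * t ≠ 1 := by
    intro h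
    apply htr
    rw [← inv_eq_of_mul_eq_one_left hrr]
    exact eq_inv_of_mul_eq_one_right h
  obtain ⟨k, hk⟩ := C.conj_us hu hab ha hb hud he hrt hrt1 hs hs1
  refine ⟨k * g, ?_⟩
  calc k * g * u * (k * g)⁻¹ = k * (g * (v * r) * g⁻¹) * k⁻¹ := by rw [hvr]; group
    _ = k * (u * (r * t)) * k⁻¹ := by rw [hg, hv]; group
    _ = u * s := hk

/-- all `u s` have the same number of fixed points as `u` -/
theorem fx_eq [Finite G] {q : ℕ} (hq : ∀ a : Ω, Nat.card (Az S a) = q) (h4 : 2 < q) {u : G} (hu : u * u = 1)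
    (hu1 : u ≠ 1) {a b : Ω} (hab : a ≠ b)
    (ha : u • a = a) (hb : u • b = b) {e : Ω} (he : u • e = e) {s : G} (hs : s ∈ Az S e) (hs1 : s ≠ 1) :
    fx Ω (u * s) = fx Ω u := by
  obtain ⟨g, hg⟩ := C.u_conj hq h4 hu hu1 hab ha hb he hs hs1
  rw [← hg, fx_conj]

/-- the counting formula -/
theorem count [Finite G] [Finite Ω] {q : ℕ} (hq : ∀ a : Ω, Nat.card (Az S a) = q) (h4 : 2 < q) {u : G} (hu : u * u = 1)
    (hu1 : u ≠ 1) {a b : Ω} (hab : a ≠ b) (ha : u • a = a) (hb : u • b = b) :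
    Nat.card Ω = fx Ω u + fx Ω u * ((q - 1) * (fx Ω u - 1)) := by
  classical
  haveI := Fintype.ofFinite Ω
  have hcu : ∀ {e : Ω} {s : G}, u • e = e → s ∈ Az S e → u * s = s * u := fun he hs => hs.2.2 u (C.smem2 hu he)
  have h1 : Nat.card Ω = fx Ω u + Nat.card {c : Ω // ¬ u • c = c} := by
    rw [fx, Nat.card_eq_fintype_card, Nat.card_eq_fintype_card, Nat.card_eq_fintype_card,
      Fintype.card_subtype_compl]
    have : Fintype.card {c : Ω // u • c = c} ≤ Fintype.card Ω := Fintype.card_subtype_le _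
    omega
  have hcm : ∀ {e : Ω} {s : G} {c : Ω}, u • e = e → s ∈ Az S e → s ≠ 1 → (u * s) • c = c → c ≠ e →
      u • c ≠ c ∧ s ∈ M S c (u • c) := by
    intro e s c he hs hs1 hc hce
    have h2 : s • c = u • c := by
      rw [mul_smul] at hc
      calc s • c = (u * u) • s • c := by rw [hu, one_smul]
        _ = u • c := by rw [mul_smul, hc]
    refine ⟨fun h => hce (C.afix hs hs1 (h2.trans h)), ⟨e, hs⟩, hs1, h2⟩
  have h2 : Nat.card {c : Ω // ¬ u • c = c} = Nat.card (Σ e : {e : Ω // u • e = e}, Σ s : {s : Az S (e : Ω) // s ≠ 1},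
      {c : Ω // (u * ((s : Az S (e : Ω)) : G)) • c = c ∧ c ≠ e}) := by
    symm
    apply Nat.card_congr
    refine Equiv.ofBijective (fun p => ⟨(p.2.2 : Ω), ?_⟩) ⟨?_, ?_⟩
    · obtain ⟨⟨e, he⟩, ⟨⟨s, hs⟩, hs1⟩, ⟨c, hc, hce⟩⟩ := p
      exact (hcm he hs (fun h => hs1 (Subtype.ext h)) hc hce).1
    · rintro ⟨⟨e, he⟩, ⟨⟨s, hs⟩, hs1⟩, ⟨c, hc, hce⟩⟩ ⟨⟨e', he'⟩, ⟨⟨s', hs'⟩, hs1'⟩, ⟨c', hc', hce'⟩⟩ h
      have hcc : c = c' := congrArg Subtype.val h
      subst hcc
      have hs1g : s ≠ 1 := fun h => hs1 (Subtype.ext h)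
      have hs1g' : s' ≠ 1 := fun h => hs1' (Subtype.ext h)
      obtain ⟨h3, h4⟩ := hcm he hs hs1g hc hce
      obtain ⟨h3', h4'⟩ := hcm he' hs' hs1g' hc' hce'
      have h5 : s = s' := C.s_unique hu h3 h4 h4' (hcu he hs) (hcu he' hs')
      subst h5
      have h6 : e = e' := C.same hs hs1g hs' hs1g' rfl
      subst h6
      rfl
    · rintro ⟨c, hc⟩
      obtain ⟨s, hs, hus⟩ := C.exists_s hu hc
      obtain ⟨⟨e, he⟩, hs1, hsc⟩ := id hs
      have hue : u • e = e := C.comm_fix he hs1 hus.symm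
      refine ⟨⟨⟨e, hue⟩, ⟨⟨s, he⟩, fun h => hs1 (congrArg Subtype.val h)⟩, ⟨c, ?_, ?_⟩⟩, rfl⟩
      · show (u * s) • c = c
        rw [mul_smul, hsc, ← mul_smul, hu, one_smul]
      · intro h
        exact hc (by rw [h]; exact hue)
  rw [h1, h2]
  congr 1
  rw [Nat.card_sigma]
  have h3 : ∀ e : {e : Ω // u • e = e}, Nat.card (Σ s : {s : Az S (e : Ω) // s ≠ 1},
      {c : Ω // (u * ((s : Az S (e : Ω)) : G)) • c = c ∧ c ≠ e}) = (q - 1) * (fx Ω u - 1) := by
    rintro ⟨e, he⟩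
    haveI := Fintype.ofFinite (Az S e)
    rw [Nat.card_sigma]
    have h5 : ∀ s : {s : Az S e // s ≠ 1}, Nat.card {c : Ω // (u * ((s : Az S e) : G)) • c = c ∧ c ≠ e} = fx Ω u - 1 := by
      rintro ⟨⟨s, hs⟩, hs1⟩
      have hs1g : s ≠ 1 := fun h => hs1 (Subtype.ext h)
      rw [← C.fx_eq hq h4 hu hu1 hab ha hb he hs hs1g, fx]
      have h6 : Nat.card {c : Ω // (u * s) • c = c ∧ c ≠ e} = Nat.card {c : {c : Ω // (u * s) • c = c} // c ≠ ⟨e, by
          rw [mul_smul, C.sfix e s hs.1, he]⟩} := by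
        apply Nat.card_congr
        refine ⟨fun c => ⟨⟨c, c.2.1⟩, fun h => c.2.2 (congrArg Subtype.val h)⟩, fun c => ⟨c, c.1.2, fun h => c.2 (Subtype.ext h)⟩,
          fun c => rfl, fun c => rfl⟩
      rw [h6, Nat.card_eq_fintype_card, Nat.card_eq_fintype_card, Fintype.card_subtype_compl, Fintype.card_subtype_eq]
    rw [Finset.sum_congr rfl (fun s _ => h5 s), Finset.sum_const, smul_eq_mul, Finset.card_univ]
    congr 1
    rw [Fintype.card_subtype_compl, Fintype.card_subtype_eq, ← Nat.card_eq_fintype_card, hq e]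
  rw [Finset.sum_congr rfl (fun e _ => h3 e), Finset.sum_const, smul_eq_mul, Finset.card_univ, fx,
    Nat.card_eq_fintype_card]

end Ctx

end

end H16.SB
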