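import Mathlib
import Cfsg.Agent.Lib.H16.SB2

/-!
# Split BN pairs of rank one in odd degree (S0349), part 3: Bender's theorem for `C(T)` on `Fix(T)`
-/

set_option autoImplicit false
set_option linter.unusedVariables false

namespace H16.SB

open H57.Bd H16.BD MulAction

universe v

section

variable {G Ω : Type*} [Group G] [MulAction G Ω]

/-- fixed points of a subgroup -/
def F (T : Subgroup G) : Set Ω := {c | ∀ t ∈ T, t • c = c}

variable {S O : Ω → Subgroup G} (C : Ctx G Ω S O)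

namespace Ctx

include C

theorem transG (x y : Ω) : ∃ g : G, g • x = y := by
  by_cases h : x = y
  · exact ⟨1, by rw [one_smul, h]⟩
  · obtain ⟨e, he1, he2⟩ := C.three x y
    obtain ⟨s, hs, o, ho, h1⟩ := C.trans e x y he1.symm he2.symm
    exact ⟨s * o, h1⟩

theorem two_trans {a b c d : Ω} (hab : a ≠ b) (hcd : c ≠ d) : ∃ g : G, g • a = c ∧ g • b = d := by
  obtain ⟨g, hg⟩ := C.transG a c
  have h1 : g • b ≠ c := by
    rw [← hg]
    intro h
    exact hab (smul_left_cancel g h).symm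
  obtain ⟨s, hs, o, ho, h2⟩ := C.trans c (g • b) d h1 hcd.symm
  refine ⟨s * o * g, ?_, ?_⟩
  · rw [mul_smul, hg, mul_smul, C.ofix c o ho, C.sfix c s hs]
  · rw [mul_smul, h2]

theorem tconj {a b : Ω} {t : G} (ht : t ∈ S a ⊓ S b) (g : G) : g * t * g⁻¹ ∈ S (g • a) ⊓ S (g • b) :=
  ⟨C.sconj ht.1 g, C.sconj ht.2 g⟩

theorem card_T {a b c d : Ω} (hab : a ≠ b) (hcd : c ≠ d) :
    Nat.card (S a ⊓ S b : Subgroup G) = Nat.card (S c ⊓ S d : Subgroup G) := by
  obtain ⟨g, rfl, rfl⟩ := C.two_trans hab hcd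
  apply Nat.card_congr
  refine ⟨fun t => ⟨g * t * g⁻¹, C.tconj t.2 g⟩, fun t => ⟨g⁻¹ * t * g, ?_⟩, ?_, ?_⟩
  · exact ⟨C.sconj' t.2.1, C.sconj' t.2.2⟩
  · intro t; apply Subtype.ext; show g⁻¹ * (g * (t : G) * g⁻¹) * g = t; group
  · intro t; apply Subtype.ext; show g * (g⁻¹ * (t : G) * g) * g⁻¹ = t; group

theorem mem_of_pow {a : Ω} {T : Subgroup G} (hT : IsPGroup 2 T) {t : G} (ht : t ∈ T) (h : t • a = a) : t ∈ S a := by
  obtain ⟨k, hk⟩ := hT ⟨t, ht⟩
  exact C.smem a t h ⟨k, congrArg Subtype.val hk⟩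

theorem T_two (a b : Ω) : IsPGroup 2 (S a ⊓ S b : Subgroup G) :=
  (C.stwo a).to_le inf_le_left

theorem T_eq [Finite G] {a b c d : Ω} (hab : a ≠ b) (hc : c ∈ F (S a ⊓ S b)) (hd : d ∈ F (S a ⊓ S b)) (hcd : c ≠ d) :
    S a ⊓ S b = S c ⊓ S d := by
  apply Subgroup.eq_of_le_of_card_ge
  · intro t ht
    exact ⟨C.mem_of_pow (C.T_two a b) ht (hc t ht), C.mem_of_pow (C.T_two a b) ht (hd t ht)⟩
  · exact (C.card_T hab hcd).ge

theorem left_mem (a b : Ω) : a ∈ F (S a ⊓ S b) := fun t ht => C.sfix a t ht.1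

theorem right_mem (a b : Ω) : b ∈ F (S a ⊓ S b) := fun t ht => C.sfix b t ht.2

theorem odd_F [Finite G] [Finite Ω] {T : Subgroup G} (hT : IsPGroup 2 T) : Odd (Nat.card (F (Ω := Ω) T)) := by
  haveI : Fact (Nat.Prime 2) := ⟨Nat.prime_two⟩
  have h1 := hT.card_modEq_card_fixedPoints Ω
  have h2 : Nat.card (fixedPoints T Ω) = Nat.card (F (Ω := Ω) T) := by
    apply Nat.card_congr
    refine ⟨fun c => ⟨c, fun t ht => c.2 ⟨t, ht⟩⟩, fun c => ⟨c, fun t => c.2 t t.2⟩, fun c => rfl, fun c => rfl⟩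
  rw [h2] at h1
  have h3 := C.odd
  rw [Nat.odd_iff] at h3 ⊢
  rw [Nat.ModEq, h3] at h1
  exact h1.symm

end Ctx

end

section bender

variable {G : Type*} {Ω : Type v} [Group G] [MulAction G Ω]

/-- the centraliser of `T` acts on the fixed points -/
def Fs (T : Subgroup G) : SubMulAction (Subgroup.centralizer (T : Set G)) Ω where
  carrier := F T
  smul_mem' := by
    intro g c hc t ht
    have h1 := Subgroup.mem_centralizer_iff.mp g.2 t ht
    show t • ((g : G) • c) = (g : G) • c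
    rw [← mul_smul, h1, mul_smul, hc t ht]

variable {S O : Ω → Subgroup G} (C : Ctx G Ω S O)

namespace Ctx

include C

theorem bd_Fs [Finite G] [Finite Ω] {a b : Ω} (hab : a ≠ b) :
    Bd (MulAction.toPermHom (Subgroup.centralizer ((S a ⊓ S b : Subgroup G) : Set G)) (Fs (Ω := Ω) (S a ⊓ S b))).range
      (Fs (Ω := Ω) (S a ⊓ S b)) where
  trans := by
    rintro ⟨x, hx⟩ ⟨y, hy⟩
    by_cases hxy : x = y
    · subst hxy
      exact ⟨1, one_smul _ _⟩
    · obtain ⟨x0, hx0, hx01⟩ := C.ane x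
      obtain ⟨y0, hy0, hy01⟩ := C.ane y
      obtain ⟨s, hs, -⟩ := C.m_surj hxy hx0 hx01 hy0 hy01
      have h1 : s ∈ Subgroup.centralizer ((S a ⊓ S b : Subgroup G) : Set G) := by
        rw [Subgroup.mem_centralizer_iff]
        intro t ht
        have h2 := C.T_eq hab hx hy hxy
        have ht' : t ∈ S x ⊓ S y := h2 ▸ ht
        exact C.m_comm hxy hs ht'.1 ht'.2
      exact ⟨bar _ ⟨s, h1⟩, Subtype.ext hs.2.2⟩
  uniq := by
    intro y hy
    obtain ⟨g0, rfl⟩ := exists_bar y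
    -- a 2-element lifting
    obtain ⟨g, hg, k, hgk⟩ : ∃ g : Subgroup.centralizer ((S a ⊓ S b : Subgroup G) : Set G),
        bar (Fs (Ω := Ω) (S a ⊓ S b)) g = bar _ g0 ∧ ∃ k : ℕ, g ^ 2 ^ k = 1 := by
      obtain ⟨k, m, hm, hkm⟩ := Nat.exists_eq_two_pow_mul_odd (orderOf_pos g0).ne'
      refine ⟨g0 ^ m, ?_, k, ?_⟩
      · have h1 : bar (Fs (Ω := Ω) (S a ⊓ S b)) (g0 ^ m) = (bar _ g0) ^ m := map_pow (barHom _ _) g0 m
        rw [h1]
        obtain ⟨j, rfl⟩ := hm
        rw [pow_succ, pow_mul, ← hy, pow_orderOf_eq_one, one_pow, one_mul]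
      · rw [← pow_mul, mul_comm, ← hkm, pow_orderOf_eq_one]
    rw [← hg] at hy ⊢
    have hodd : Odd (Nat.card (Fs (Ω := Ω) (S a ⊓ S b))) := C.odd_F (C.T_two a b)
    have hsq : ∀ x : Fs (Ω := Ω) (S a ⊓ S b), g • (g • x) = x := by
      intro x
      have h1 := sq_one_of_order hy
      have h2 : (bar (Fs (Ω := Ω) (S a ⊓ S b)) g * bar _ g) • x = x := by rw [h1, one_smul]
      rwa [mul_smul] at h2
    obtain ⟨x, hx⟩ := exists_fixed_odd (fun x : Fs (Ω := Ω) (S a ⊓ S b) => g • x) hsq hodd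
    refine ⟨x, hx, ?_⟩
    intro x' hx'
    by_contra hne
    apply ne_one_of_order hy
    rw [bar_eq_one]
    have h3 : (g : G) • (x : Ω) = x := congrArg Subtype.val hx
    have h4 : (g : G) • (x' : Ω) = x' := congrArg Subtype.val hx'
    have hgk' : (g : G) ^ 2 ^ k = 1 := congrArg Subtype.val hgk
    have h5 : (g : G) ∈ S (x : Ω) ⊓ S (x' : Ω) := ⟨C.smem _ _ h3 ⟨k, hgk'⟩, C.smem _ _ h4 ⟨k, hgk'⟩⟩
    rw [← C.T_eq hab x.2 x'.2 (fun h => hne (Subtype.ext h.symm))] at h5
    intro z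
    exact Subtype.ext (z.2 _ h5)
  inv := by
    obtain ⟨z, hz, hz1⟩ := C.ane a
    have h1 : z ∈ Subgroup.centralizer ((S a ⊓ S b : Subgroup G) : Set G) := by
      rw [Subgroup.mem_centralizer_iff]
      intro t ht
      exact hz.2.2 t ht.1
    refine ⟨bar _ ⟨z, h1⟩, order_two ?_ ?_⟩
    · rw [← bar_mul]
      have : (⟨z, h1⟩ : Subgroup.centralizer ((S a ⊓ S b : Subgroup G) : Set G)) * ⟨z, h1⟩ = 1 := Subtype.ext hz.2.1
      rw [this, bar_one]
    · intro h
      have h2 := bar_eq_one.mp h ⟨b, C.right_mem a b⟩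
      have h3 : z • b = b := congrArg Subtype.val h2
      exact hab (C.afix hz hz1 h3).symm
  two := ⟨⟨a, C.left_mem a b⟩, ⟨b, C.right_mem a b⟩, fun h => hab (congrArg Subtype.val h)⟩

theorem exists_ne [Finite G] {q : ℕ} {a : Ω} (hq : Nat.card (Az S a) = q) (h4 : 2 < q) {r : G} :
    ∃ t ∈ Az S a, t ≠ 1 ∧ t ≠ r := by
  by_contra hcon
  push Not at hcon
  have h1 : Nat.card (Az S a) ≤ Nat.card ({1, r} : Set G) := by
    have : ((Az S a : Subgroup G) : Set G) ⊆ {1, r} := by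
      intro t ht
      by_cases h : t = 1
      · left; exact h
      · right; exact hcon t ht h
    exact Nat.card_mono (Set.toFinite _) this
  have h2 : Nat.card ({1, r} : Set G) ≤ 2 := by
    rw [Nat.card_coe_set_eq]
    exact Set.ncard_insert_le _ _ |>.trans (by rw [Set.ncard_singleton])
  omega

/-- Bender's theorem applied to `C(T)` on `Fix(T)` -/
theorem card_F (main : BenderThm.{v, v}) [Finite G] [Finite Ω] {q : ℕ} {a b : Ω} (hab : a ≠ b)
    (hq : Nat.card (Az S a) = q) (h4 : 2 < q) : ∃ n : ℕ, Nat.card (F (Ω := Ω) (S a ⊓ S b)) = 1 + 2 ^ n := by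
  have B := C.bd_Fs hab
  have hfour : Four (MulAction.toPermHom (Subgroup.centralizer ((S a ⊓ S b : Subgroup G) : Set G))
      (Fs (Ω := Ω) (S a ⊓ S b))).range := by
    obtain ⟨z, hz, hz1⟩ := C.ane a
    obtain ⟨w, hw, hw1, hwz⟩ := C.exists_ne hq h4 (r := z)
    have hcz : ∀ {z : G}, z ∈ Az S a → z ∈ Subgroup.centralizer ((S a ⊓ S b : Subgroup G) : Set G) := by
      intro z hz
      rw [Subgroup.mem_centralizer_iff]
      intro t ht
      exact hz.2.2 t ht.1
    have hinj : ∀ {z w : G} (hz : z ∈ Az S a) (hw : w ∈ Az S a),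
        bar (Fs (Ω := Ω) (S a ⊓ S b)) (⟨z, hcz hz⟩ : Subgroup.centralizer ((S a ⊓ S b : Subgroup G) : Set G)) =
          bar _ (⟨w, hcz hw⟩ : Subgroup.centralizer ((S a ⊓ S b : Subgroup G) : Set G)) → z = w := by
      intro z w hz hw h
      have h2 := bar_eq.mp h ⟨b, C.right_mem a b⟩
      have h3 : z • b = w • b := congrArg Subtype.val h2
      by_contra hne
      have h5 : w⁻¹ * z ∈ Az S a := (Az S a).mul_mem ((Az S a).inv_mem hw) hz
      have h6 : w⁻¹ * z ≠ 1 := fun h => hne (by rw [inv_mul_eq_one] at h; exact h.symm)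
      exact hab (C.afix h5 h6 (by rw [mul_smul, h3, inv_smul_smul])).symm
    have hone : ∀ {z : G} (hz : z ∈ Az S a), z ≠ 1 → orderOf (bar (Fs (Ω := Ω) (S a ⊓ S b))
        (⟨z, hcz hz⟩ : Subgroup.centralizer ((S a ⊓ S b : Subgroup G) : Set G))) = 2 := by
      intro z hz hz1
      apply order_two
      · rw [← bar_mul]
        have : (⟨z, hcz hz⟩ : Subgroup.centralizer ((S a ⊓ S b : Subgroup G) : Set G)) * ⟨z, hcz hz⟩ = 1 :=
          Subtype.ext hz.2.1
        rw [this, bar_one]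
      · intro h
        apply hz1
        apply hinj hz (Az S a).one_mem
        rw [h]
        exact bar_one.symm
    refine ⟨bar _ (⟨z, hcz hz⟩ : Subgroup.centralizer ((S a ⊓ S b : Subgroup G) : Set G)),
      bar _ (⟨w, hcz hw⟩ : Subgroup.centralizer ((S a ⊓ S b : Subgroup G) : Set G)),
      fun h => hwz (hinj hz hw h).symm, hone hz hz1, hone hw hw1, ?_⟩
    rw [← bar_mul, ← bar_mul]
    congr 1
    exact Subtype.ext (hw.2.2 z hz.1)
  obtain ⟨n, -, hn⟩ := (main _ _ B hfour).card_pts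
  exact ⟨n, hn⟩

/-- `O_a` fixes all points -/
theorem o_trivial (main : BenderThm.{v, v}) [Finite G] [Finite Ω] {q : ℕ} {a : Ω}
    (hq : Nat.card (Az S a) = q) (h4 : 2 < q) {y : G} (hy : y ∈ O a) : y = 1 := by
  classical
  obtain ⟨b, hba, -⟩ := C.three a a
  obtain ⟨n, hn⟩ := C.card_F main hba.symm hq h4
  -- stabilisers
  have hnorm : ∀ g, (∃ x ∈ S a, ∃ z ∈ O a, g = x * z) → ∀ o, o ∈ O a → g * o * g⁻¹ ∈ O a := by
    rintro g ⟨x, hx, z, hz, rfl⟩ o ho
    have := C.oconj a (x * z) o ho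
    rwa [mul_smul, C.ofix a z hz, C.sfix a x hx] at this
  have hnorm' : ∀ g, (∃ x ∈ S a, ∃ z ∈ O a, g = x * z) → ∀ o, o ∈ O a → g⁻¹ * o * g ∈ O a := by
    rintro g ⟨x, hx, z, hz, rfl⟩ o ho
    have := C.oconj a (x * z)⁻¹ o ho
    have h1 : (x * z)⁻¹ • a = a := by
      rw [inv_smul_eq_iff, mul_smul, C.ofix a z hz, C.sfix a x hx]
    rwa [h1, inv_inv] at this
  have hst : ∀ c : Ω, c ≠ a → Nat.card {o : O a // (o : G) • c = c} = Nat.card {o : O a // (o : G) • b = b} := by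
    intro c hc
    obtain ⟨x, hx, z, hz, hxz⟩ := C.trans a c b hc hba
    set g := x * z with hg
    apply Nat.card_congr
    refine ⟨fun o => ⟨⟨g * o * g⁻¹, hnorm g ⟨x, hx, z, hz, hg⟩ _ o.1.2⟩, ?_⟩,
      fun o => ⟨⟨g⁻¹ * o * g, hnorm' g ⟨x, hx, z, hz, hg⟩ _ o.1.2⟩, ?_⟩, ?_, ?_⟩
    · show (g * ((o : O a) : G) * g⁻¹) • b = b
      rw [← hxz, mul_smul, mul_smul, inv_smul_smul, o.2]
    · show (g⁻¹ * ((o : O a) : G) * g) • c = c
      rw [mul_smul, mul_smul, hxz, o.2, ← hxz, inv_smul_smul]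
    · intro o; apply Subtype.ext; apply Subtype.ext; show g⁻¹ * (g * ((o : O a) : G) * g⁻¹) * g = _; group
    · intro o; apply Subtype.ext; apply Subtype.ext; show g * (g⁻¹ * ((o : O a) : G) * g) * g⁻¹ = _; group
  -- the action of `O a` on the fixed points of `T`
  have hact : ∀ (o : O a) (c : Ω), c ∈ F (S a ⊓ S b) ∧ c ≠ a → (o : G) • c ∈ F (S a ⊓ S b) ∧ (o : G) • c ≠ a := by
    rintro ⟨o, ho⟩ c ⟨hc, hca⟩
    refine ⟨?_, ?_⟩
    · intro t ht
      show t • (o • c) = o • c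
      rw [← mul_smul, C.comm a t ht.1 o ho, mul_smul, hc t ht]
    · intro h
      apply hca
      have h1 := C.ofix a o ho
      exact smul_left_cancel o (h.trans h1.symm)
  let X := {c : Ω // c ∈ F (S a ⊓ S b) ∧ c ≠ a}
  letI : MulAction (O a) X :=
    { smul := fun o c => ⟨(o : G) • (c : Ω), hact o c c.2⟩
      one_smul := fun c => Subtype.ext (one_smul G (c : Ω))
      mul_smul := fun o o' c => Subtype.ext (mul_smul (o : G) (o' : G) (c : Ω)) }
  haveI : Fintype X := Fintype.ofFinite _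
  haveI : Fintype (O a) := Fintype.ofFinite _
  haveI : Fintype (Quotient (orbitRel (O a) X)) := Fintype.ofFinite _
  haveI : ∀ c : X, Fintype (stabilizer (O a) c) := fun c => Fintype.ofFinite _
  have h1 := MulAction.card_eq_sum_card_group_div_card_stabilizer (O a) X
  have h2 : ∀ c : X, Fintype.card (stabilizer (O a) c) = Nat.card {o : O a // (o : G) • b = b} := by
    intro c
    rw [← hst c c.2.2, ← Nat.card_eq_fintype_card]
    apply Nat.card_congr
    exact Equiv.subtypeEquivRight (fun o => ⟨fun h => congrArg Subtype.val h, fun h => Subtype.ext h⟩)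
  rw [Finset.sum_congr rfl (fun ω _ => by rw [h2]), Finset.sum_const, smul_eq_mul] at h1
  have h3 : Fintype.card X = 2 ^ n := by
    have h4 : Nat.card X + 1 = Nat.card (F (Ω := Ω) (S a ⊓ S b)) := by
      haveI := Fintype.ofFinite (F (Ω := Ω) (S a ⊓ S b))
      have h5 : Nat.card X = Nat.card {c : F (Ω := Ω) (S a ⊓ S b) // c ≠ ⟨a, C.left_mem a b⟩} := by
        apply Nat.card_congr
        refine ⟨fun c => ⟨⟨c, c.2.1⟩, fun h => c.2.2 (congrArg Subtype.val h)⟩,
          fun c => ⟨c, c.1.2, fun h => c.2 (Subtype.ext h)⟩, fun c => rfl, fun c => rfl⟩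
      rw [h5, Nat.card_eq_fintype_card, Nat.card_eq_fintype_card, Fintype.card_subtype_compl,
        Fintype.card_subtype_eq]
      have : 0 < Fintype.card (F (Ω := Ω) (S a ⊓ S b)) := Fintype.card_pos_iff.mpr ⟨⟨a, C.left_mem a b⟩⟩
      omega
    rw [hn, Nat.card_eq_fintype_card] at h4
    omega
  -- the quotient is odd and divides a power of two
  have hB : Nat.card {o : O a // (o : G) • b = b} ∣ Nat.card (O a) := by
    let B : Subgroup (O a) :=
      { carrier := {o | (o : G) • b = b}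
        mul_mem' := by
          intro x y hx hy
          show ((x : G) * (y : G)) • b = b
          rw [mul_smul]
          have h1 : (y : G) • b = b := hy
          have h2 : (x : G) • b = b := hx
          rw [h1, h2]
        one_mem' := one_smul G b
        inv_mem' := by
          intro x hx
          show ((x : G)⁻¹) • b = b
          have h2 : (x : G) • b = b := hx
          rw [inv_smul_eq_iff, h2] }
    exact B.card_subgroup_dvd_card
  obtain ⟨m, hm⟩ := hB
  have hpos : 0 < Nat.card {o : O a // (o : G) • b = b} := by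
    haveI : Nonempty {o : O a // (o : G) • b = b} := ⟨⟨1, one_smul G b⟩⟩
    exact Nat.card_pos
  have hm1 : Fintype.card (O a) / Nat.card {o : O a // (o : G) • b = b} = m := by
    rw [← Nat.card_eq_fintype_card, hm, Nat.mul_div_cancel_left _ hpos]
  rw [h3, hm1] at h1
  have hmdvd : m ∣ 2 ^ n := ⟨_, h1.trans (mul_comm _ _)⟩
  have hmodd : Odd m := by
    have := C.oodd a
    rw [hm] at this
    exact (Nat.odd_mul.mp this).2
  have hm2 : m = 1 := by
    obtain ⟨j, -, hj⟩ := (Nat.dvd_prime_pow Nat.prime_two).mp hmdvd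
    rcases Nat.eq_zero_or_pos j with h | h
    · rw [hj, h, pow_zero]
    · exfalso
      rw [hj, Nat.odd_pow_iff (by omega)] at hmodd
      exact absurd hmodd (by decide)
  -- so everything in `O a` fixes every point
  apply C.faith
  intro c
  by_cases hca : c = a
  · rw [hca]; exact C.ofix a y hy
  · have h5 : Nat.card {o : O a // (o : G) • c = c} = Nat.card (O a) := by rw [hst c hca, hm, hm2, mul_one]
    by_contra hne
    have h7 : Nat.card {o : O a // (o : G) • c = c} < Nat.card (O a) := by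
      haveI : Fintype {o : O a // (o : G) • c = c} := Fintype.ofFinite _
      rw [Nat.card_eq_fintype_card, Nat.card_eq_fintype_card]
      exact Fintype.card_subtype_lt (x := ⟨y, hy⟩) hne
    omega

end Ctx

end bender

end H16.SB
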