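import Mathlib
import Cfsg.Agent.Lib.H16.SB3

/-!
# Split BN pairs of rank one in odd degree (S0349), part 4: `n = q^3 + 1`, the groups `W a b = A_a × T_ab`
-/

set_option autoImplicit false
set_option linter.unusedVariables false

namespace H16.SB

open H57.Bd H16.BD MulAction

theorem odd_dvd_pow {m i : ℕ} (h : Odd m) (hd : m ∣ 2 ^ i) : m = 1 := by
  obtain ⟨j, -, hj⟩ := (Nat.dvd_prime_pow Nat.prime_two).mp hd
  rcases Nat.eq_zero_or_pos j with h0 | h0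
  · rw [hj, h0, pow_zero]
  · exfalso
    rw [hj, Nat.odd_pow_iff (by omega)] at h
    exact absurd h (by decide)

theorem arith {e k f q : ℕ} (hq : q = 2 ^ e) (h : 2 < q) (hf : 2 ≤ f) (hn : f + f * ((q - 1) * (f - 1)) = 1 + 2 ^ k) :
    f = q + 1 ∧ 2 ^ k = q ^ 3 := by
  obtain ⟨x, rfl⟩ : ∃ x, f = x + 1 := ⟨f - 1, by omega⟩
  obtain ⟨y, rfl⟩ : ∃ y, q = y + 1 := ⟨q - 1, by omega⟩
  simp only [Nat.add_sub_cancel] at hn
  have he : 2 ≤ e := by
    by_contra hlt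
    have : e = 0 ∨ e = 1 := by omega
    rcases this with h0 | h0 <;> rw [h0] at hq <;> norm_num at hq <;> omega
  have hk : 2 ^ k = x * (x * y + (y + 1)) := by
    have : x + 1 + (x + 1) * (y * x) = 1 + x * (x * y + (y + 1)) := by ring
    omega
  have hyodd : Odd y := by
    obtain ⟨d, rfl⟩ : ∃ d, e = d + 1 := ⟨e - 1, by omega⟩
    rw [pow_succ] at hq
    exact ⟨2 ^ d - 1, by omega⟩
  obtain ⟨j, -, hj⟩ := (Nat.dvd_prime_pow Nat.prime_two).mp (show x ∣ 2 ^ k from ⟨_, hk⟩)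
  obtain ⟨i, -, hi⟩ := (Nat.dvd_prime_pow Nat.prime_two).mp
    (show x * y + (y + 1) ∣ 2 ^ k from ⟨x, by rw [hk, mul_comm]⟩)
  rcases lt_trichotomy j e with hlt | heq | hgt
  · exfalso
    obtain ⟨d, rfl⟩ : ∃ d, e = j + (d + 1) := ⟨e - j - 1, by omega⟩
    have h1 : x * y + (y + 1) = 2 ^ j * (y + 2 ^ (d + 1)) := by rw [hq, hj, pow_add]; ring
    have h2 : Odd (y + 2 ^ (d + 1)) := by
      apply Odd.add_even hyodd
      rw [pow_succ]; exact ⟨2 ^ d, by ring⟩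
    have h3 := odd_dvd_pow h2 (show y + 2 ^ (d + 1) ∣ 2 ^ i from ⟨2 ^ j, by rw [← hi, h1, mul_comm]⟩)
    have : 0 < 2 ^ (d + 1) := by positivity
    omega
  · subst heq
    have hx : x = y + 1 := by rw [hj, hq]
    refine ⟨by rw [hx], ?_⟩
    rw [hk, hx]; ring
  · exfalso
    obtain ⟨d, rfl⟩ : ∃ d, j = e + (d + 1) := ⟨j - e - 1, by omega⟩
    have h1 : x * y + (y + 1) = 2 ^ e * (2 ^ (d + 1) * y + 1) := by
      rw [hq, hj, pow_add 2 e (d + 1)]; ring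
    have h2 : Odd (2 ^ (d + 1) * y + 1) := by
      apply Even.add_one
      rw [pow_succ]; exact ⟨2 ^ d * y, by ring⟩
    have h3 := odd_dvd_pow h2 (show 2 ^ (d + 1) * y + 1 ∣ 2 ^ i from ⟨2 ^ e, by rw [← hi, h1, mul_comm]⟩)
    have h5 : 2 ^ (d + 1) * y = 0 := by omega
    rcases Nat.mul_eq_zero.mp h5 with h6 | h6
    · have : 0 < 2 ^ (d + 1) := by positivity
      omega
    · omega

section

variable {G Ω : Type*} [Group G] [MulAction G Ω]

theorem card_image {β : Type*} [Finite G] (H T : Subgroup G) (hTH : T ≤ H) (f : G → β)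
    (hf : ∀ g ∈ H, ∀ g' ∈ H, f g = f g' ↔ g⁻¹ * g' ∈ T) : Nat.card (f '' (H : Set G)) * Nat.card T = Nat.card H := by
  have h1 : Nat.card (H ⧸ T.subgroupOf H) = Nat.card (f '' (H : Set G)) := by
    apply Nat.card_congr
    refine Equiv.ofBijective (Quotient.lift (fun g : H => (⟨f g, ⟨g, g.2, rfl⟩⟩ : f '' (H : Set G))) ?_) ⟨?_, ?_⟩
    · intro g g' h
      apply Subtype.ext
      show f g = f g'
      rw [hf g g.2 g' g'.2]
      have := QuotientGroup.leftRel_apply.mp h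
      rwa [Subgroup.mem_subgroupOf] at this
    · intro g g'
      refine Quotient.inductionOn₂ g g' ?_
      intro g g' h
      apply Quotient.sound
      have h2 : f g = f g' := congrArg Subtype.val h
      rw [hf g g.2 g' g'.2] at h2
      show (QuotientGroup.leftRel _) g g'
      rw [QuotientGroup.leftRel_apply, Subgroup.mem_subgroupOf]
      exact h2
    · rintro ⟨_, g, hg, rfl⟩
      exact ⟨Quotient.mk _ ⟨g, hg⟩, rfl⟩
  rw [← h1, Subgroup.card_eq_card_quotient_mul_card_subgroup (T.subgroupOf H)]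
  congr 1
  exact (Nat.card_congr (Subgroup.subgroupOfEquivOfLe hTH).toEquiv).symm

theorem card_orb [Finite G] (H T : Subgroup G) (b : Ω) (A : Set Ω) (h1 : ∀ h ∈ H, h • b ∈ A)
    (h2 : ∀ c ∈ A, ∃ h ∈ H, h • b = c) (hT : ∀ g, g ∈ T ↔ g ∈ H ∧ g • b = b) :
    Nat.card A * Nat.card T = Nat.card H := by
  have h3 : (fun g : G => g • b) '' (H : Set G) = A := by
    ext c
    constructor
    · rintro ⟨g, hg, rfl⟩; exact h1 g hg
    · intro hc
      obtain ⟨g, hg, hgc⟩ := h2 c hc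
      exact ⟨g, hg, hgc⟩
  rw [← h3]
  apply card_image
  · intro t ht; exact ((hT t).mp ht).1
  · intro g hg g' hg'
    rw [hT]
    constructor
    · intro h
      refine ⟨H.mul_mem (H.inv_mem hg) hg', ?_⟩
      rw [mul_smul]
      have h4 : g • b = g' • b := h
      rw [← h4, inv_smul_smul]
    · rintro ⟨-, h⟩
      show g • b = g' • b
      rw [mul_smul, inv_smul_eq_iff] at h
      exact h.symm

theorem exists_norm [Finite G] {H K : Subgroup G} (hK : IsPGroup 2 K) (hHK : H ≤ K) (hne : H ≠ K) :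
    ∃ g ∈ K, g ∉ H ∧ ∀ h, h ∈ H ↔ g * h * g⁻¹ ∈ H := by
  haveI : Fact (Nat.Prime 2) := ⟨Nat.prime_two⟩
  haveI : Group.IsNilpotent K := hK.isNilpotent
  have h1 : H.subgroupOf K < ⊤ := by
    rw [lt_top_iff_ne_top]
    intro h
    apply hne
    apply le_antisymm hHK
    rwa [Subgroup.subgroupOf_eq_top] at h
  have h2 := Group.normalizerCondition_of_isNilpotent (H.subgroupOf K) h1
  obtain ⟨g, hg, hgH⟩ := Set.exists_of_ssubset h2
  refine ⟨g, g.2, fun h => hgH (Subgroup.mem_subgroupOf.mpr h), ?_⟩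
  have key : ∀ x : K, x ∈ Subgroup.normalizer (H.subgroupOf K : Set K) → ∀ h ∈ H, (x : G) * h * (x : G)⁻¹ ∈ H := by
    intro x hx h hh
    have h3 := (Subgroup.mem_normalizer_iff.mp hx ⟨h, hHK hh⟩).mp (Subgroup.mem_subgroupOf.mpr hh)
    rw [Subgroup.mem_subgroupOf] at h3
    exact h3
  intro h
  refine ⟨key g hg h, fun h4 => ?_⟩
  have h5 := key g⁻¹ (Subgroup.inv_mem _ hg) _ h4
  have h6 : ((g⁻¹ : K) : G) * ((g : G) * h * (g : G)⁻¹) * ((g⁻¹ : K) : G)⁻¹ = h := by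
    rw [Subgroup.coe_inv]; group
  rwa [h6] at h5

/-- `A_a T_ab` -/
def W (S : Ω → Subgroup G) (a b : Ω) : Subgroup G where
  carrier := {g | ∃ z ∈ Az S a, ∃ t ∈ S a ⊓ S b, g = z * t}
  mul_mem' := by
    rintro _ _ ⟨z, hz, t, ht, rfl⟩ ⟨z', hz', t', ht', rfl⟩
    refine ⟨z * z', (Az S a).mul_mem hz hz', t * t', (S a ⊓ S b).mul_mem ht ht', ?_⟩
    have h1 := hz'.2.2 t ht.1
    calc z * t * (z' * t') = z * (t * z') * t' := by group
      _ = z * z' * (t * t') := by rw [h1]; group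
  one_mem' := ⟨1, (Az S a).one_mem, 1, (S a ⊓ S b).one_mem, by rw [one_mul]⟩
  inv_mem' := by
    rintro _ ⟨z, hz, t, ht, rfl⟩
    have hz' := (Az S a).inv_mem hz
    refine ⟨z⁻¹, hz', t⁻¹, (S a ⊓ S b).inv_mem ht, ?_⟩
    rw [mul_inv_rev, hz'.2.2 t⁻¹ ((S a).inv_mem ht.1)]

theorem mem_W {S : Ω → Subgroup G} {a b : Ω} {g : G} :
    g ∈ W S a b ↔ ∃ z ∈ Az S a, ∃ t ∈ S a ⊓ S b, g = z * t := Iff.rfl

theorem Az_le_W {S : Ω → Subgroup G} {a b : Ω} : Az S a ≤ W S a b :=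
  fun z hz => ⟨z, hz, 1, (S a ⊓ S b).one_mem, by rw [mul_one]⟩

theorem T_le_W {S : Ω → Subgroup G} {a b : Ω} : S a ⊓ S b ≤ W S a b :=
  fun t ht => ⟨1, (Az S a).one_mem, t, ht, by rw [one_mul]⟩

theorem W_le {S : Ω → Subgroup G} {a b : Ω} : W S a b ≤ S a := by
  rintro _ ⟨z, hz, t, ht, rfl⟩
  exact (S a).mul_mem hz.1 ht.1

/-- the situation to be excluded -/
structure Hyp (G Ω : Type*) [Group G] [MulAction G Ω] (S O : Ω → Subgroup G) (q : ℕ) : Prop extends Ctx G Ω S O where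
  hq : ∀ a : Ω, Nat.card (Az S a) = q
  h4 : 2 < q
  hT : ∀ a b : Ω, a ≠ b → ∃ u ∈ S a ⊓ S b, u * u = 1 ∧ u ≠ 1
  hO : ∀ a, ∀ y ∈ O a, y = 1

variable {S O : Ω → Subgroup G} {q : ℕ} (C : Hyp G Ω S O q)

namespace Hyp

include C

theorem trS {a b c : Ω} (hb : b ≠ a) (hc : c ≠ a) : ∃ x ∈ S a, x • b = c := by
  obtain ⟨x, hx, y, hy, h⟩ := C.trans a b c hb hc
  rw [C.hO a y hy, mul_one] at h
  exact ⟨x, hx, h⟩

theorem memT {a b : Ω} {g : G} : g ∈ S a ⊓ S b ↔ g ∈ S a ∧ g • b = b := by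
  constructor
  · intro h; exact ⟨h.1, C.sfix b g h.2⟩
  · rintro ⟨h1, h2⟩
    exact ⟨h1, C.mem_of_pow (C.stwo a) h1 h2⟩

theorem card_compl [Finite G] [Finite Ω] (a : Ω) : Nat.card Ω = Nat.card {c : Ω // c ≠ a} + 1 := by
  classical
  haveI := Fintype.ofFinite Ω
  rw [Nat.card_eq_fintype_card, Nat.card_eq_fintype_card, Fintype.card_subtype_compl, Fintype.card_subtype_eq]
  have : 0 < Fintype.card Ω := Fintype.card_pos_iff.mpr ⟨a⟩
  omega

theorem card_S [Finite G] {a b : Ω} (hba : b ≠ a) :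
    Nat.card {c : Ω // c ≠ a} * Nat.card (S a ⊓ S b : Subgroup G) = Nat.card (S a) := by
  refine card_orb (S a) (S a ⊓ S b) b {c | c ≠ a} ?_ (fun c hc => C.trS hba hc) (fun g => C.memT)
  intro h hh hc
  apply hba
  have := C.sfix a h hh
  exact smul_left_cancel h (hc.trans this.symm)

theorem q_pow [Finite G] (a : Ω) : ∃ e : ℕ, q = 2 ^ e := by
  haveI : Fact (Nat.Prime 2) := ⟨Nat.prime_two⟩
  have h1 : IsPGroup 2 (Az S a) := (C.stwo a).to_le (fun z hz => hz.1)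
  obtain ⟨e, he⟩ := IsPGroup.iff_card.mp h1
  exact ⟨e, by rw [← he, C.hq a]⟩

theorem n_pow [Finite G] [Finite Ω] (a : Ω) : ∃ k : ℕ, Nat.card Ω = 1 + 2 ^ k := by
  haveI : Fact (Nat.Prime 2) := ⟨Nat.prime_two⟩
  obtain ⟨b, hba, -⟩ := C.three a a
  obtain ⟨m, hm⟩ := IsPGroup.iff_card.mp (C.stwo a)
  have h1 := C.card_S hba
  rw [hm] at h1
  obtain ⟨k, -, hk⟩ := (Nat.dvd_prime_pow Nat.prime_two).mp (Dvd.intro _ h1)
  exact ⟨k, by rw [C.card_compl a, hk, add_comm]⟩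

theorem vals [Finite G] [Finite Ω] {a b : Ω} (hab : a ≠ b) {u : G} (hu : u * u = 1) (hu1 : u ≠ 1) (ha : u • a = a)
    (hb : u • b = b) : fx Ω u = q + 1 ∧ Nat.card {c : Ω // c ≠ a} = q ^ 3 := by
  obtain ⟨e, he⟩ := C.q_pow a
  obtain ⟨k, hk⟩ := C.n_pow a
  have h1 := C.count C.hq C.h4 hu hu1 hab ha hb
  have hf : 2 ≤ fx Ω u := by
    have h2 : Nat.card ({a, b} : Set Ω) ≤ fx Ω u :=
      Nat.card_mono (s := {a, b}) (t := {c | u • c = c}) (Set.toFinite _) (by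
        rintro c (rfl | rfl)
        · exact ha
        · exact hb)
    rwa [Nat.card_coe_set_eq, Set.ncard_pair hab] at h2
  obtain ⟨h3, h4⟩ := arith he C.h4 hf (h1.symm.trans hk)
  refine ⟨h3, ?_⟩
  have h5 := C.card_compl a
  rw [← h4]; omega

theorem azb {a b : Ω} (hab : a ≠ b) {z : G} (hz : z ∈ Az S a) : z • b ∈ F (S a ⊓ S b) ∧ z • b ≠ a := by
  refine ⟨fun t ht => ?_, fun h => ?_⟩
  · rw [← mul_smul, hz.2.2 t ht.1, mul_smul, C.sfix b t ht.2]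
  · apply hab
    have := C.sfix a z hz.1
    exact (smul_left_cancel z (h.trans this.symm)).symm

theorem azb_inj {a b : Ω} (hab : a ≠ b) {z w : G} (hz : z ∈ Az S a) (hw : w ∈ Az S a) (h : z • b = w • b) : z = w := by
  by_contra hne
  have h5 : w⁻¹ * z ∈ Az S a := (Az S a).mul_mem ((Az S a).inv_mem hw) hz
  have h6 : w⁻¹ * z ≠ 1 := fun h => hne (by rw [inv_mul_eq_one] at h; exact h.symm)
  exact hab (C.afix h5 h6 (by rw [mul_smul, h, inv_smul_smul])).symm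

theorem card_F' [Finite G] [Finite Ω] {a b : Ω} : Nat.card (F (Ω := Ω) (S a ⊓ S b)) =
    Nat.card {c : Ω // c ∈ F (S a ⊓ S b) ∧ c ≠ a} + 1 := by
  classical
  haveI := Fintype.ofFinite (F (Ω := Ω) (S a ⊓ S b))
  have h5 : Nat.card {c : Ω // c ∈ F (S a ⊓ S b) ∧ c ≠ a} = Nat.card {c : F (Ω := Ω) (S a ⊓ S b) // c ≠ ⟨a, C.left_mem a b⟩} := by
    apply Nat.card_congr
    refine ⟨fun c => ⟨⟨c, c.2.1⟩, fun h => c.2.2 (congrArg Subtype.val h)⟩,
      fun c => ⟨c, c.1.2, fun h => c.2 (Subtype.ext h)⟩, fun c => rfl, fun c => rfl⟩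
  rw [h5, Nat.card_eq_fintype_card, Nat.card_eq_fintype_card, Fintype.card_subtype_compl,
    Fintype.card_subtype_eq]
  have : 0 < Fintype.card (F (Ω := Ω) (S a ⊓ S b)) := Fintype.card_pos_iff.mpr ⟨⟨a, C.left_mem a b⟩⟩
  omega

theorem F_facts [Finite G] [Finite Ω] {a b : Ω} (hab : a ≠ b) {u : G} (huT : u ∈ S a ⊓ S b) (hu : u * u = 1) (hu1 : u ≠ 1) :
    (∀ c : Ω, u • c = c → c ∈ F (S a ⊓ S b)) ∧ ∀ c : Ω, c ∈ F (S a ⊓ S b) → c ≠ a → ∃ z ∈ Az S a, z • b = c := by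
  classical
  have h1 := (C.vals hab hu hu1 (C.sfix a u huT.1) (C.sfix b u huT.2)).1
  let φ : Az S a → {c : Ω // c ∈ F (S a ⊓ S b) ∧ c ≠ a} := fun z => ⟨(z : G) • b, C.azb hab z.2⟩
  have hφ : Function.Injective φ := by
    intro z w h
    exact Subtype.ext (C.azb_inj hab z.2 w.2 (congrArg Subtype.val h))
  have h2 : F (Ω := Ω) (S a ⊓ S b) ⊆ {c | u • c = c} := fun c hc => hc u huT
  have h3 : Nat.card (F (Ω := Ω) (S a ⊓ S b)) ≤ q + 1 := by
    rw [← h1]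
    exact Nat.card_mono (t := {c : Ω | u • c = c}) (Set.toFinite _) h2
  have h4 := C.card_F' (a := a) (b := b)
  have h5 : q ≤ Nat.card {c : Ω // c ∈ F (S a ⊓ S b) ∧ c ≠ a} := by
    rw [← C.hq a]
    exact Nat.card_le_card_of_injective φ hφ
  have h6 : Nat.card {c : Ω // c ∈ F (S a ⊓ S b) ∧ c ≠ a} = q := by omega
  constructor
  · intro c hc
    have h7 : F (Ω := Ω) (S a ⊓ S b) = {c | u • c = c} := by
      apply Set.eq_of_subset_of_ncard_le h2 _ (Set.toFinite _)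
      have h8 : Nat.card (F (Ω := Ω) (S a ⊓ S b)) = q + 1 := by omega
      have h9 : ({c : Ω | u • c = c}).ncard = q + 1 := h1
      rw [h9]
      exact h8.ge
    rw [h7]; exact hc
  · have h7 : Function.Bijective φ := by
      rw [Nat.bijective_iff_injective_and_card]
      exact ⟨hφ, by rw [C.hq a, h6]⟩
    intro c hc hca
    obtain ⟨z, hz⟩ := h7.2 ⟨c, hc, hca⟩
    exact ⟨z, z.2, congrArg Subtype.val hz⟩

theorem F_fix [Finite G] [Finite Ω] {a b : Ω} (hab : a ≠ b) {u : G} (huT : u ∈ S a ⊓ S b) (hu : u * u = 1) (hu1 : u ≠ 1)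
    {c : Ω} (hc : u • c = c) : c ∈ F (S a ⊓ S b) := (C.F_facts hab huT hu hu1).1 c hc

theorem F_trans [Finite G] [Finite Ω] {a b : Ω} (hab : a ≠ b) {c : Ω} (hc : c ∈ F (S a ⊓ S b)) (hca : c ≠ a) :
    ∃ z ∈ Az S a, z • b = c := by
  obtain ⟨u, huT, hu, hu1⟩ := C.hT a b hab
  exact (C.F_facts hab huT hu hu1).2 c hc hca

theorem memW [Finite G] [Finite Ω] {a b : Ω} (hab : a ≠ b) {g : G} : g ∈ W S a b ↔ g ∈ S a ∧ g • b ∈ F (S a ⊓ S b) := by
  constructor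
  · intro h
    refine ⟨W_le h, ?_⟩
    obtain ⟨z, hz, t, ht, rfl⟩ := h
    rw [mul_smul, C.sfix b t ht.2]
    exact (C.azb hab hz).1
  · rintro ⟨h1, h2⟩
    have h3 : g • b ≠ a := by
      intro h
      apply hab
      have := C.sfix a g h1
      exact (smul_left_cancel g (h.trans this.symm)).symm
    obtain ⟨z, hz, hzb⟩ := C.F_trans hab h2 h3
    refine ⟨z, hz, z⁻¹ * g, ?_, by group⟩
    rw [C.memT]
    exact ⟨(S a).mul_mem ((S a).inv_mem hz.1) h1, by rw [mul_smul, ← hzb, inv_smul_smul]⟩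

theorem card_W [Finite G] {a b : Ω} (hab : a ≠ b) : Nat.card (W S a b) = q * Nat.card (S a ⊓ S b : Subgroup G) := by
  rw [← C.hq a, ← Nat.card_prod]
  symm
  apply Nat.card_congr
  refine Equiv.ofBijective (fun p : Az S a × (S a ⊓ S b : Subgroup G) =>
    (⟨(p.1 : G) * p.2, ⟨p.1, p.1.2, p.2, p.2.2, rfl⟩⟩ : W S a b)) ⟨?_, ?_⟩
  · rintro ⟨⟨z, hz⟩, ⟨t, ht⟩⟩ ⟨⟨z', hz'⟩, ⟨t', ht'⟩⟩ h
    have h1 : z * t = z' * t' := congrArg Subtype.val h
    have h2 : z = z' := by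
      apply C.azb_inj hab hz hz'
      have h3 : (z * t) • b = (z' * t') • b := by rw [h1]
      rwa [mul_smul, mul_smul, C.sfix b t ht.2, C.sfix b t' ht'.2] at h3
    subst h2
    have h3 : t = t' := mul_left_cancel h1
    subst h3
    rfl
  · rintro ⟨_, z, hz, t, ht, rfl⟩
    exact ⟨⟨⟨z, hz⟩, ⟨t, ht⟩⟩, rfl⟩

theorem card_Sa [Finite G] [Finite Ω] {a b : Ω} (hab : a ≠ b) :
    Nat.card (S a) = q ^ 3 * Nat.card (S a ⊓ S b : Subgroup G) := by
  obtain ⟨u, huT, hu, hu1⟩ := C.hT a b hab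
  rw [← C.card_S hab.symm, (C.vals hab hu hu1 (C.sfix a u huT.1) (C.sfix b u huT.2)).2]

theorem W_ne [Finite G] [Finite Ω] {a b : Ω} (hab : a ≠ b) : W S a b ≠ S a := by
  intro h
  have h1 := C.card_W hab
  rw [h, C.card_Sa hab] at h1
  have h2 : 0 < Nat.card (S a ⊓ S b : Subgroup G) := Nat.card_pos
  have h3 := Nat.eq_of_mul_eq_mul_right h2 h1
  have h4 := C.h4
  nlinarith [Nat.mul_lt_mul'' h4 h4, h3]

/-- a nontrivial element of a 2-group `T_ab` has a power which is an involution -/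
theorem exists_inv [Finite G] {T : Subgroup G} (hT : IsPGroup 2 T) {t : G} (ht : t ∈ T) (ht1 : t ≠ 1) :
    ∃ k : ℕ, t ^ k * t ^ k = 1 ∧ t ^ k ≠ 1 := by
  obtain ⟨k, hk⟩ := hT ⟨t, ht⟩
  have hk' : t ^ 2 ^ k = 1 := congrArg Subtype.val hk
  obtain ⟨i, -, hi⟩ := (Nat.dvd_prime_pow Nat.prime_two).mp (orderOf_dvd_of_pow_eq_one hk')
  have hi0 : i ≠ 0 := by
    intro h
    rw [h, pow_zero, orderOf_eq_one_iff] at hi
    exact ht1 hi
  obtain ⟨j, rfl⟩ := Nat.exists_eq_succ_of_ne_zero hi0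
  refine ⟨2 ^ j, ?_, ?_⟩
  · rw [← pow_add, ← two_mul, ← pow_succ', ← hi, pow_orderOf_eq_one]
  · intro h
    have h1 := orderOf_dvd_of_pow_eq_one h
    rw [hi] at h1
    have h2 := Nat.le_of_dvd (by positivity) h1
    rw [Nat.succ_eq_add_one, pow_succ] at h2
    have : 0 < 2 ^ j := by positivity
    omega

/-- conjugates of `T` in the normaliser of `W` are disjoint from `T` -/
theorem T_disj [Finite G] [Finite Ω] {a b : Ω} (hab : a ≠ b) {y t : G} (hy : y ∈ S a) (hyW : y ∉ W S a b) (ht : t ∈ S a ⊓ S b)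
    (ht' : y * t * y⁻¹ ∈ S a ⊓ S b) : t = 1 := by
  by_contra ht1
  have h0 : y * t * y⁻¹ ≠ 1 := by
    intro h
    apply ht1
    calc t = y⁻¹ * (y * t * y⁻¹) * y := by group
      _ = 1 := by rw [h]; group
  obtain ⟨k, hk, hk1⟩ := C.exists_inv (C.T_two a b) ht' h0
  set u := (y * t * y⁻¹) ^ k with hu
  have huT : u ∈ S a ⊓ S b := (S a ⊓ S b).pow_mem ht' k
  have huy : u • (y • b) = y • b := by
    have h1 : u = y * t ^ k * y⁻¹ := by rw [hu, conj_pow]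
    rw [h1, mul_smul, mul_smul, inv_smul_smul]
    rw [C.sfix b (t ^ k) ((S a ⊓ S b).pow_mem ht k).2]
  exact hyW ((C.memW hab).mpr ⟨hy, C.F_fix hab huT hk hk1 huy⟩)

theorem T_sq [Finite G] [Finite Ω] {a b : Ω} (hab : a ≠ b) {t : G} (ht : t ∈ S a ⊓ S b) : t * t = 1 := by
  obtain ⟨y, hy, hyW, hn⟩ := exists_norm (C.stwo a) (W_le (S := S) (a := a) (b := b)) (C.W_ne hab)
  have h1 : y * t * y⁻¹ ∈ W S a b := (hn t).mp (T_le_W ht)
  obtain ⟨z, hz, s, hs, h2⟩ := h1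
  have h3 : y * (t * t) * y⁻¹ = s * s := by
    calc y * (t * t) * y⁻¹ = (y * t * y⁻¹) * (y * t * y⁻¹) := by group
      _ = z * (s * z) * s := by rw [h2]; group
      _ = (z * z) * (s * s) := by rw [hz.2.2 s hs.1]; group
      _ = s * s := by rw [hz.2.1, one_mul]
  apply C.T_disj hab hy hyW ((S a ⊓ S b).mul_mem ht ht)
  rw [h3]
  exact (S a ⊓ S b).mul_mem hs hs

theorem T_comm [Finite G] [Finite Ω] {a b : Ω} (hab : a ≠ b) {s t : G} (hs : s ∈ S a ⊓ S b) (ht : t ∈ S a ⊓ S b) :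
    s * t = t * s := by
  have h1 := C.T_sq hab hs
  have h2 := C.T_sq hab ht
  have h3 := C.T_sq hab ((S a ⊓ S b).mul_mem hs ht)
  have h4 : s⁻¹ = s := inv_eq_of_mul_eq_one_left h1
  have h5 : t⁻¹ = t := inv_eq_of_mul_eq_one_left h2
  have h6 : (s * t)⁻¹ = s * t := inv_eq_of_mul_eq_one_left h3
  rw [← h6, mul_inv_rev, h4, h5]

theorem W_sq [Finite G] [Finite Ω] {a b : Ω} (hab : a ≠ b) {g : G} (hg : g ∈ W S a b) : g * g = 1 := by
  obtain ⟨z, hz, s, hs, rfl⟩ := hg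
  calc z * s * (z * s) = z * (s * z) * s := by group
    _ = (z * z) * (s * s) := by rw [hz.2.2 s hs.1]; group
    _ = 1 := by rw [hz.2.1, C.T_sq hab hs, mul_one]

theorem W_comm [Finite G] [Finite Ω] {a b : Ω} (hab : a ≠ b) {s t : G} (hs : s ∈ W S a b) (ht : t ∈ W S a b) :
    s * t = t * s := by
  have h1 := C.W_sq hab hs
  have h2 := C.W_sq hab ht
  have h3 := C.W_sq hab ((W S a b).mul_mem hs ht)
  have h4 : s⁻¹ = s := inv_eq_of_mul_eq_one_left h1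
  have h5 : t⁻¹ = t := inv_eq_of_mul_eq_one_left h2
  have h6 : (s * t)⁻¹ = s * t := inv_eq_of_mul_eq_one_left h3
  rw [← h6, mul_inv_rev, h4, h5]

/-- `C_{S_a}(u) ≤ W` -/
theorem cent_le [Finite G] [Finite Ω] {a b : Ω} (hab : a ≠ b) {u g : G} (hu : u ∈ S a ⊓ S b) (hu1 : u ≠ 1) (hg : g ∈ S a)
    (h : g * u = u * g) : g ∈ W S a b := by
  rw [C.memW hab]
  refine ⟨hg, C.F_fix hab hu (C.T_sq hab hu) hu1 ?_⟩
  rw [← mul_smul, ← h, mul_smul, C.sfix b u hu.2]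

/-- squares are never bad -/
theorem trick [Finite G] [Finite Ω] {a c : Ω} (hac : a ≠ c) {y : G} (hy : y ∈ S a) (h : (y * y) • c = c) : y * y = 1 := by
  by_contra hne
  have h1 : y * y ∈ S a ⊓ S c := C.memT.mpr ⟨(S a).mul_mem hy hy, h⟩
  exact hne (C.W_sq hac (C.cent_le hac h1 hne hy (by group)))

/-- elements of `W - A` are bad -/
theorem W_bad [Finite G] [Finite Ω] {a b : Ω} (hab : a ≠ b) {g : G} (hg : g ∈ W S a b) (hgA : g ∉ Az S a) :
    ∃ c, a ≠ c ∧ g ∈ S a ⊓ S c ∧ g ≠ 1 := by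
  obtain ⟨z, hz, t, ht, rfl⟩ := id hg
  have ht1 : t ≠ 1 := by
    intro h
    apply hgA
    rw [h, mul_one]; exact hz
  have hg1 : z * t ≠ 1 := by
    intro h
    apply hgA
    rw [h]; exact (Az S a).one_mem
  have hsq := C.W_sq hab hg
  have htz := hz.2.2 t ht.1
  by_cases hz1 : z = 1
  · exact ⟨b, hab, by rw [hz1, one_mul]; exact ht, hg1⟩
  have h1 : fx Ω (t * z) = q + 1 := by
    rw [C.fx_eq C.hq C.h4 (C.T_sq hab ht) ht1 hab (C.sfix a t ht.1) (C.sfix b t ht.2) (C.sfix a t ht.1) hz hz1]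
    exact (C.vals hab (C.T_sq hab ht) ht1 (C.sfix a t ht.1) (C.sfix b t ht.2)).1
  rw [htz] at h1
  obtain ⟨c, hc, hca⟩ : ∃ c : Ω, (z * t) • c = c ∧ a ≠ c := by
    by_contra hcon
    push Not at hcon
    have h2 : fx Ω (z * t) ≤ 1 := by
      rw [fx]
      have : Subsingleton {c : Ω // (z * t) • c = c} := by
        constructor
        rintro ⟨c, hc⟩ ⟨d, hd⟩
        apply Subtype.ext
        show c = d
        rw [← hcon c hc, ← hcon d hd]
      exact Finite.card_le_one_iff_subsingleton.mpr this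
    have := C.h4
    omega
  exact ⟨c, hca, C.memT.mpr ⟨W_le hg, hc⟩, hg1⟩

theorem W_eq [Finite G] [Finite Ω] {a b c : Ω} (hab : a ≠ b) (hac : a ≠ c) {v : G} (hv : v ∈ W S a b)
    (hvc : v ∈ S a ⊓ S c) (hv1 : v ≠ 1) : W S a b = W S a c := by
  apply Subgroup.eq_of_le_of_card_ge
  · intro g hg
    exact C.cent_le hac hvc hv1 (W_le hg) (C.W_comm hab hg hv)
  · rw [C.card_W hab, C.card_W hac, C.card_T hab hac]

/-- `C_{S_a}(v) = W` for `v ∈ W - A` -/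
theorem cent_le' [Finite G] [Finite Ω] {a b : Ω} (hab : a ≠ b) {v g : G} (hv : v ∈ W S a b) (hvA : v ∉ Az S a) (hg : g ∈ S a)
    (h : g * v = v * g) : g ∈ W S a b := by
  obtain ⟨c, hac, hvc, hv1⟩ := C.W_bad hab hv hvA
  rw [C.W_eq hab hac hv hvc hv1]
  exact C.cent_le hac hvc hv1 hg h

end Hyp

end

end H16.SB
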