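import Mathlib
import Cfsg.Agent.Lib.H16.SB4

/-!
# Split BN pairs of rank one in odd degree (S0349), part 5: the normaliser of `W`, fixed-point-free elements
-/

set_option autoImplicit false
set_option linter.unusedVariables false

namespace H16.SB

open H57.Bd H16.BD MulAction

section lift

variable {G : Type*} [Group G]

/-- two-sided action of `G × G` on `G` -/
structure Two (G : Type*) where
  v : G

theorem Two.ext' {x y : Two G} (h : x.v = y.v) : x = y := by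
  cases x; cases y; congr

instance : MulAction (G × G) (Two G) where
  smul p x := ⟨p.1 * x.v * p.2⁻¹⟩
  one_smul x := Two.ext' (show (1 : G) * x.v * (1 : G)⁻¹ = x.v by group)
  mul_smul p q x := Two.ext' (show (p.1 * q.1) * x.v * (p.2 * q.2)⁻¹ = p.1 * (q.1 * x.v * q.2⁻¹) * p.2⁻¹ by group)

theorem two_smul_v (p : G × G) (x : Two G) : (p • x).v = p.1 * x.v * p.2⁻¹ := rfl

/-- fixed points of an element of odd order in an invariant coset of a 2-group -/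
theorem lift_coset [Finite G] {N : Subgroup G} (hN : IsPGroup 2 N) {k g : G} (hk : Odd (orderOf k))
    (hkN : ∀ n ∈ N, k * n * k⁻¹ ∈ N) (hg : g⁻¹ * (k * g * k⁻¹) ∈ N) : ∃ n ∈ N, k * (g * n) = g * n * k := by
  classical
  let Q : Subgroup (G × G) := N.map (MonoidHom.inr G G)
  let R : Subgroup (G × G) := Subgroup.zpowers (k, k)
  have hinj : Function.Injective (MonoidHom.inr G G) := fun x y h => congrArg Prod.snd h
  have hQc : Nat.card Q = Nat.card N := (Nat.card_congr (N.equivMapOfInjective _ hinj).toEquiv).symm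
  have hRc : Nat.card R = orderOf k := by
    rw [Nat.card_zpowers, Prod.orderOf]; simp
  have hcop : (Nat.card Q).Coprime (Nat.card R) := by
    haveI : Fact (Nat.Prime 2) := ⟨Nat.prime_two⟩
    obtain ⟨n, hn⟩ := IsPGroup.iff_card.mp hN
    rw [hQc, hRc, hn]
    exact Nat.Coprime.pow_left n (Nat.coprime_two_left.mpr hk)
  have hsolv : Group.IsSolvable Q ∨ Group.IsSolvable R := Or.inr (by
    haveI : IsMulCommutative R := by infer_instance
    infer_instance)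
  have hpow : ∀ r ∈ R, ∃ j : ℕ, r = (k ^ j, k ^ j) := by
    intro r hr
    have hfin : IsOfFinOrder ((k, k) : G × G) := isOfFinOrder_of_finite _
    have h1 : r ∈ Submonoid.powers ((k, k) : G × G) := by rwa [hfin.mem_powers_iff_mem_zpowers]
    obtain ⟨j, rfl⟩ := h1
    exact ⟨j, rfl⟩
  have hkpow : ∀ (j : ℕ), ∀ n ∈ N, k ^ j * n * (k ^ j)⁻¹ ∈ N := by
    intro j
    induction j with
    | zero => intro n hn; simpa using hn
    | succ j ih =>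
      intro n hn
      have h3 := hkN _ (ih n hn)
      have h4 : k ^ (j + 1) * n * (k ^ (j + 1))⁻¹ = k * (k ^ j * n * (k ^ j)⁻¹) * k⁻¹ := by
        rw [pow_succ']; group
      rw [h4]; exact h3
  have hRQ : ∀ r ∈ R, ∀ q ∈ Q, r * q * r⁻¹ ∈ Q := by
    rintro r hr _ ⟨n, hn, rfl⟩
    obtain ⟨j, rfl⟩ := hpow r hr
    refine ⟨k ^ j * n * (k ^ j)⁻¹, hkpow j n hn, ?_⟩
    ext
    · simp
    · simp
  let A : Set (Two G) := {x | g⁻¹ * x.v ∈ N}
  have hA : A.Nonempty := ⟨⟨g⟩, by show g⁻¹ * g ∈ N; rw [inv_mul_cancel]; exact N.one_mem⟩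
  have hQA : ∀ q ∈ Q, ∀ x ∈ A, q • x ∈ A := by
    rintro _ ⟨n, hn, rfl⟩ x hx
    show g⁻¹ * ((1 : G) * x.v * n⁻¹) ∈ N
    rw [one_mul, ← mul_assoc]
    exact N.mul_mem hx (N.inv_mem hn)
  have hRA1 : ∀ (j : ℕ), ∀ x ∈ A, ((k ^ j, k ^ j) : G × G) • x ∈ A := by
    intro j
    induction j with
    | zero => intro x hx; rw [pow_zero]; show ((1 : G × G) • x) ∈ A; rw [one_smul]; exact hx
    | succ j ih =>
      intro x hx
      have h2 := ih x hx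
      have h3 : g⁻¹ * (k ^ j * x.v * (k ^ j)⁻¹) ∈ N := h2
      show g⁻¹ * (k ^ (j + 1) * x.v * (k ^ (j + 1))⁻¹) ∈ N
      have h1 : g⁻¹ * (k ^ (j + 1) * x.v * (k ^ (j + 1))⁻¹) =
          (g⁻¹ * (k * g * k⁻¹)) * (k * (g⁻¹ * (k ^ j * x.v * (k ^ j)⁻¹)) * k⁻¹) := by rw [pow_succ']; group
      rw [h1]
      exact N.mul_mem hg (hkN _ h3)
  have hRA : ∀ r ∈ R, ∀ x ∈ A, r • x ∈ A := by
    intro r hr x hx
    obtain ⟨j, rfl⟩ := hpow r hr
    exact hRA1 j x hx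
  have htr : ∀ x ∈ A, ∀ y ∈ A, ∃ q ∈ Q, q • x = y := by
    intro x hx y hy
    have hx' : g⁻¹ * x.v ∈ N := hx
    have hy' : g⁻¹ * y.v ∈ N := hy
    refine ⟨(1, y.v⁻¹ * x.v), ⟨y.v⁻¹ * x.v, ?_, rfl⟩, Two.ext' ?_⟩
    · have := N.mul_mem (N.inv_mem hy') hx'
      have h1 : (g⁻¹ * y.v)⁻¹ * (g⁻¹ * x.v) = y.v⁻¹ * x.v := by group
      rwa [h1] at this
    · show (1 : G) * x.v * (y.v⁻¹ * x.v)⁻¹ = y.v
      group
  obtain ⟨⟨x, hx, hfix⟩, -⟩ := coprime_orbit hcop hsolv hRQ A hA hQA hRA htr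
  have h1 : k * x.v * k⁻¹ = x.v := congrArg Two.v (hfix (k, k) (Subgroup.mem_zpowers _))
  refine ⟨g⁻¹ * x.v, hx, ?_⟩
  have h2 : g * (g⁻¹ * x.v) = x.v := by group
  rw [h2]
  calc k * x.v = k * x.v * k⁻¹ * k := by group
    _ = _ := by rw [h1]

end lift

section

variable {G Ω : Type*} [Group G] [MulAction G Ω]

/-- normaliser of `W` in `S_a` -/
def N3 (S : Ω → Subgroup G) (a b : Ω) : Subgroup G where
  carrier := {g | g ∈ S a ∧ ∀ h, h ∈ W S a b ↔ g * h * g⁻¹ ∈ W S a b}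
  mul_mem' := by
    rintro g g' ⟨h1, h2⟩ ⟨k1, k2⟩
    refine ⟨(S a).mul_mem h1 k1, fun h => ?_⟩
    rw [k2 h, h2 (g' * h * g'⁻¹)]
    have : g * (g' * h * g'⁻¹) * g⁻¹ = g * g' * h * (g * g')⁻¹ := by group
    rw [this]
  one_mem' := ⟨(S a).one_mem, fun h => by rw [one_mul, inv_one, mul_one]⟩
  inv_mem' := by
    rintro g ⟨h1, h2⟩
    refine ⟨(S a).inv_mem h1, fun h => ?_⟩
    rw [h2 (g⁻¹ * h * g⁻¹⁻¹)]
    have : g * (g⁻¹ * h * g⁻¹⁻¹) * g⁻¹ = h := by group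
    rw [this]

theorem mem_N3 {S : Ω → Subgroup G} {a b : Ω} {g : G} :
    g ∈ N3 S a b ↔ g ∈ S a ∧ ∀ h, h ∈ W S a b ↔ g * h * g⁻¹ ∈ W S a b := Iff.rfl

/-- products of two distinct elements of `M a b` -/
def IsK (S : Ω → Subgroup G) (a b : Ω) (k : G) : Prop := ∃ s ∈ M S a b, ∃ s' ∈ M S a b, s ≠ s' ∧ k = s * s'

variable {S O : Ω → Subgroup G} {q : ℕ} (C : Hyp G Ω S O q)

namespace Hyp

include C

theorem Wconj {a b : Ω} {g : G} (hg : g ∈ S a) (h : G) : h ∈ W S a b ↔ g * h * g⁻¹ ∈ W S a (g • b) := by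
  have hga := C.sfix a g hg
  constructor
  · rintro ⟨z, hz, t, ht, rfl⟩
    have h1 := C.aconj hz g
    have h2 := C.tconj ht g
    rw [hga] at h1 h2
    exact ⟨_, h1, _, h2, by group⟩
  · rintro ⟨z, hz, t, ht, h0⟩
    have h1 := C.aconj hz g⁻¹
    have h2 := C.tconj ht g⁻¹
    rw [inv_smul_smul] at h2
    have h3 : g⁻¹ • a = a := by rw [inv_smul_eq_iff, hga]
    rw [h3] at h1 h2
    refine ⟨_, h1, _, h2, ?_⟩
    calc h = g⁻¹ * (g * h * g⁻¹) * g := by group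
      _ = _ := by rw [h0]; group

theorem mem_N3' {a b : Ω} {g : G} (hg : g ∈ S a) : g ∈ N3 S a b ↔ W S a (g • b) = W S a b := by
  rw [mem_N3]
  constructor
  · rintro ⟨-, h2⟩
    ext x
    have h3 := C.Wconj (b := b) hg (g⁻¹ * x * g)
    have h4 := h2 (g⁻¹ * x * g)
    have h5 : g * (g⁻¹ * x * g) * g⁻¹ = x := by group
    rw [h5] at h3 h4
    rw [← h3, h4]
  · intro h
    refine ⟨hg, fun x => ?_⟩
    have h1 := C.Wconj (b := b) hg x
    rwa [h] at h1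

theorem T_le_N3 [Finite G] [Finite Ω] {a b : Ω} : S a ⊓ S b ≤ N3 S a b := by
  intro t ht
  rw [C.mem_N3' ht.1, C.sfix b t ht.2]

theorem W_le_N3 [Finite G] [Finite Ω] {a b : Ω} : W S a b ≤ N3 S a b := by
  intro g hg
  refine ⟨W_le hg, fun h => ⟨fun hh => (W S a b).mul_mem ((W S a b).mul_mem hg hh) ((W S a b).inv_mem hg), fun hh => ?_⟩⟩
  have := (W S a b).mul_mem ((W S a b).mul_mem ((W S a b).inv_mem hg) hh) hg
  have h1 : g⁻¹ * (g * h * g⁻¹) * g = h := by group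
  rwa [h1] at this

theorem card_N3 [Finite G] [Finite Ω] {a b : Ω} (hab : a ≠ b) :
    Nat.card (N3 S a b) = q ^ 2 * Nat.card (S a ⊓ S b : Subgroup G) := by
  classical
  set Γ : Set Ω := {c | c ≠ a ∧ W S a c = W S a b} with hΓ
  have h1 : Nat.card Γ * Nat.card (S a ⊓ S b : Subgroup G) = Nat.card (N3 S a b) := by
    refine card_orb (N3 S a b) (S a ⊓ S b) b Γ ?_ ?_ ?_
    · intro g hg
      refine ⟨fun h => ?_, (C.mem_N3' hg.1).mp hg⟩
      apply hab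
      exact (smul_left_cancel g (h.trans (C.sfix a g hg.1).symm)).symm
    · rintro c ⟨hca, hc⟩
      obtain ⟨g, hg, hgc⟩ := C.trS hab.symm hca
      exact ⟨g, (C.mem_N3' hg).mpr (by rw [hgc, hc]), hgc⟩
    · intro g
      constructor
      · intro h
        exact ⟨C.T_le_N3 h, C.sfix b g h.2⟩
      · rintro ⟨h, hb⟩
        exact C.memT.mpr ⟨h.1, hb⟩
  have hT1 : 1 < Nat.card (S a ⊓ S b : Subgroup G) := by
    obtain ⟨u, hu, -, hu1⟩ := C.hT a b hab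
    rw [Subgroup.one_lt_card_iff_ne_bot]
    intro h
    rw [h] at hu
    exact hu1 (Subgroup.mem_bot.mp hu)
  have h2 : Nat.card (Σ v : {v : W S a b // (v : G) ∉ Az S a}, {c : Ω // (v : G) • c = c ∧ c ≠ a}) =
      Nat.card (Σ c : Γ, {v : (S a ⊓ S (c : Ω) : Subgroup G) // (v : G) ≠ 1}) := by
    apply Nat.card_congr
    have key1 : ∀ v : G, v ∈ W S a b → v ∉ Az S a → ∀ c : Ω, v • c = c → c ≠ a → c ∈ Γ ∧ v ∈ S a ⊓ S c ∧ v ≠ 1 := by
      intro v hv hvA c hvc hca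
      have h3 : v ∈ S a ⊓ S c := C.memT.mpr ⟨W_le hv, hvc⟩
      have h4 : v ≠ 1 := fun h => hvA (by rw [h]; exact (Az S a).one_mem)
      exact ⟨⟨hca, (C.W_eq hab hca.symm hv h3 h4).symm⟩, h3, h4⟩
    have key2 : ∀ c ∈ Γ, ∀ v : G, v ∈ S a ⊓ S c → v ≠ 1 → v ∈ W S a b ∧ v ∉ Az S a ∧ v • c = c ∧ c ≠ a := by
      rintro c ⟨hca, hc⟩ v hv hv1
      refine ⟨by rw [← hc]; exact T_le_W hv, fun h => hca (C.afix h hv1 (C.sfix c v hv.2)), C.sfix c v hv.2, hca⟩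
    refine ⟨fun p => ⟨⟨p.2.1, (key1 _ p.1.1.2 p.1.2 _ p.2.2.1 p.2.2.2).1⟩,
      ⟨⟨p.1.1, (key1 _ p.1.1.2 p.1.2 _ p.2.2.1 p.2.2.2).2.1⟩, (key1 _ p.1.1.2 p.1.2 _ p.2.2.1 p.2.2.2).2.2⟩⟩,
      fun p => ⟨⟨⟨p.2.1, (key2 _ p.1.2 _ p.2.1.2 p.2.2).1⟩, (key2 _ p.1.2 _ p.2.1.2 p.2.2).2.1⟩,
        ⟨p.1.1, (key2 _ p.1.2 _ p.2.1.2 p.2.2).2.2⟩⟩, fun p => rfl, fun p => rfl⟩
  haveI : Fintype {v : W S a b // (v : G) ∉ Az S a} := Fintype.ofFinite _
  haveI : Fintype Γ := Fintype.ofFinite _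
  rw [Nat.card_sigma, Nat.card_sigma] at h2
  have h3 : ∀ v : {v : W S a b // (v : G) ∉ Az S a}, Nat.card {c : Ω // (v : G) • c = c ∧ c ≠ a} = q := by
    rintro ⟨⟨v, hv⟩, hvA⟩
    obtain ⟨c, hac, hvc, hv1⟩ := C.W_bad hab hv hvA
    have h4 := (C.vals hac (C.W_sq hab hv) hv1 (C.sfix a v hvc.1) (C.sfix c v hvc.2)).1
    haveI := Fintype.ofFinite {c : Ω // v • c = c}
    have h5 : Nat.card {c : Ω // v • c = c ∧ c ≠ a} = Nat.card {c : {c : Ω // v • c = c} // c ≠ ⟨a, C.sfix a v hvc.1⟩} := by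
      apply Nat.card_congr
      refine ⟨fun c => ⟨⟨c, c.2.1⟩, fun h => c.2.2 (congrArg Subtype.val h)⟩, fun c => ⟨c, c.1.2, fun h => c.2 (Subtype.ext h)⟩,
        fun c => rfl, fun c => rfl⟩
    show Nat.card {c : Ω // v • c = c ∧ c ≠ a} = q
    rw [h5, Nat.card_eq_fintype_card, Fintype.card_subtype_compl, Fintype.card_subtype_eq, ← Nat.card_eq_fintype_card]
    have h6 : Nat.card {c : Ω // v • c = c} = q + 1 := h4
    rw [h6, Nat.add_sub_cancel]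
  have h4 : ∀ c : Γ, Nat.card {v : (S a ⊓ S (c : Ω) : Subgroup G) // (v : G) ≠ 1} =
      Nat.card (S a ⊓ S b : Subgroup G) - 1 := by
    rintro ⟨c, hca, hc⟩
    show Nat.card {v : (S a ⊓ S c : Subgroup G) // (v : G) ≠ 1} = _
    haveI := Fintype.ofFinite (S a ⊓ S c : Subgroup G)
    have h5 : Nat.card {v : (S a ⊓ S c : Subgroup G) // (v : G) ≠ 1} = Nat.card {v : (S a ⊓ S c : Subgroup G) // v ≠ 1} :=
      Nat.card_congr (Equiv.subtypeEquivRight (fun v => by rw [Ne, Ne, OneMemClass.coe_eq_one]))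
    rw [h5, Nat.card_eq_fintype_card, Fintype.card_subtype_compl, Fintype.card_subtype_eq, ← Nat.card_eq_fintype_card,
      C.card_T (Ne.symm hca) hab]
  rw [Finset.sum_congr rfl (fun v _ => h3 v), Finset.sum_congr rfl (fun c _ => h4 c), Finset.sum_const, Finset.sum_const,
    smul_eq_mul, smul_eq_mul, Finset.card_univ, Finset.card_univ, ← Nat.card_eq_fintype_card,
    ← Nat.card_eq_fintype_card] at h2
  have h5 : Nat.card {v : W S a b // (v : G) ∉ Az S a} = q * (Nat.card (S a ⊓ S b : Subgroup G) - 1) := by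
    haveI := Fintype.ofFinite (W S a b)
    haveI := Fintype.ofFinite (Az S a)
    rw [Nat.card_eq_fintype_card, Fintype.card_subtype_compl, ← Nat.card_eq_fintype_card, C.card_W hab]
    have h6 : Fintype.card {v : W S a b // (v : G) ∈ Az S a} = q := by
      rw [← Nat.card_eq_fintype_card, ← C.hq a]
      apply Nat.card_congr
      exact ⟨fun v => ⟨v, v.2⟩, fun z => ⟨⟨z, Az_le_W z.2⟩, z.2⟩, fun v => rfl, fun z => rfl⟩
    rw [h6, Nat.mul_sub, mul_one]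
  rw [h5] at h2
  have h6 : Nat.card Γ = q ^ 2 := by
    have h7 : 0 < Nat.card (S a ⊓ S b : Subgroup G) - 1 := by omega
    apply Nat.eq_of_mul_eq_mul_right h7
    rw [← h2]; ring
  rw [← h1, h6]

/-! ### the elements `k` -/

theorem k_fix [Finite G] {a b : Ω} {k : G} (hk : IsK S a b k) : k • a = a ∧ k • b = b := by
  obtain ⟨s, hs, s', hs', -, rfl⟩ := hk
  exact ⟨by rw [mul_smul, hs'.2.2, M_symm hs], by rw [mul_smul, M_symm hs', hs.2.2]⟩

theorem k_T [Finite G] {a b : Ω} (hab : a ≠ b) {k t : G} (hk : IsK S a b k) (ht : t ∈ S a ⊓ S b) : k * t = t * k := by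
  obtain ⟨s, hs, s', hs', -, rfl⟩ := hk
  rw [mul_assoc, ← C.m_comm hab hs' ht.1 ht.2, ← mul_assoc, ← C.m_comm hab hs ht.1 ht.2, mul_assoc]

theorem k_odd [Finite G] {a b : Ω} (hab : a ≠ b) {k : G} (hk : IsK S a b k) : Odd (orderOf k) := by
  obtain ⟨s, hs, s', hs', -, rfl⟩ := hk
  exact C.m_odd hab hs hs'

theorem k_A [Finite G] {a b : Ω} (hab : a ≠ b) {k z : G} (hk : IsK S a b k) (hz : z ∈ Az S a) (h : k * z = z * k) :
    z = 1 := by
  obtain ⟨s, hs, s', hs', hne, rfl⟩ := hk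
  by_contra hz1
  apply hne
  apply C.m_inj hab hs hs' hz hz1
  have h1 := M_sq hs
  have h2 := M_sq hs'
  have h3 : s * s' * z * s' = z * s := by
    calc s * s' * z * s' = z * (s * s') * s' := by rw [h]
      _ = z * s * (s' * s') := by group
      _ = z * s := by rw [h2, mul_one]
  calc s * z * s = s * (s * s' * z * s') := by rw [h3]; group
    _ = (s * s) * (s' * z * s') := by group
    _ = s' * z * s' := by rw [h1, one_mul]

theorem k_S [Finite G] {a b : Ω} {k g : G} (hk : IsK S a b k) (hg : g ∈ S a) : k * g * k⁻¹ ∈ S a := by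
  have := C.sconj hg k
  rwa [(C.k_fix hk).1] at this

theorem k_inv {a b : Ω} {k : G} (hk : IsK S a b k) : IsK S a b k⁻¹ := by
  obtain ⟨s, hs, s', hs', hne, rfl⟩ := hk
  exact ⟨s', hs', s, hs, hne.symm, by rw [mul_inv_rev, M_inv hs, M_inv hs']⟩

theorem k_Az [Finite G] {a b : Ω} {k g : G} (hk : IsK S a b k) (hg : g ∈ Az S a) : k * g * k⁻¹ ∈ Az S a := by
  have := C.aconj hg k
  rwa [(C.k_fix hk).1] at this

theorem k_W [Finite G] {a b : Ω} (hab : a ≠ b) {k g : G} (hk : IsK S a b k) (hg : g ∈ W S a b) :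
    k * g * k⁻¹ ∈ W S a b := by
  obtain ⟨z, hz, t, ht, rfl⟩ := hg
  refine ⟨_, C.k_Az hk hz, t, ht, ?_⟩
  have h1 := C.k_T hab hk ht
  calc k * (z * t) * k⁻¹ = k * z * (t * k⁻¹) := by group
    _ = k * z * (k⁻¹ * (k * t) * k⁻¹) := by group
    _ = k * z * k⁻¹ * t := by rw [h1]; group

theorem k_N3 [Finite G] {a b : Ω} (hab : a ≠ b) {k g : G} (hk : IsK S a b k) (hg : g ∈ N3 S a b) :
    k * g * k⁻¹ ∈ N3 S a b := by
  obtain ⟨h1, h2⟩ := hg
  have hW : ∀ x, x ∈ W S a b ↔ k * x * k⁻¹ ∈ W S a b := by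
    intro x
    refine ⟨C.k_W hab hk, fun h => ?_⟩
    have := C.k_W hab (C.k_inv hk) h
    have h3 : k⁻¹ * (k * x * k⁻¹) * k⁻¹⁻¹ = x := by group
    rwa [h3] at this
  refine ⟨C.k_S hk h1, fun x => ?_⟩
  have h3 : x = k * (k⁻¹ * x * k) * k⁻¹ := by group
  have h4 : x ∈ W S a b ↔ k⁻¹ * x * k ∈ W S a b := by
    rw [hW (k⁻¹ * x * k), ← h3]
  rw [h4, h2, hW]
  have h5 : k * (g * (k⁻¹ * x * k) * g⁻¹) * k⁻¹ = k * g * k⁻¹ * x * (k * g * k⁻¹)⁻¹ := by group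
  rw [h5]

/-- `C_{S_a}(k) = T` -/
theorem k_cent [Finite G] [Finite Ω] {a b : Ω} (hab : a ≠ b) {k g : G} (hk : IsK S a b k) (hg : g ∈ S a)
    (h : k * g = g * k) : g ∈ S a ⊓ S b := by
  let Cn : Subgroup G := S a ⊓ Subgroup.centralizer ({k} : Set G)
  have hT : S a ⊓ S b ≤ Cn := fun t ht => ⟨ht.1, Subgroup.mem_centralizer_singleton_iff.mpr (C.k_T hab hk ht).symm⟩
  have hCn : Cn = S a ⊓ S b := by
    by_contra hne
    obtain ⟨y, hy, hyT, hn⟩ := exists_norm ((C.stwo a).to_le (inf_le_left : Cn ≤ S a)) hT (Ne.symm hne)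
    apply hyT
    have hyk : y * k = k * y := Subgroup.mem_centralizer_singleton_iff.mp hy.2
    have h1 : y • b ∈ F (S a ⊓ S b) := by
      intro t ht
      have h2 : y⁻¹ * t * y ∈ S a ⊓ S b := by
        rw [hn]
        have : y * (y⁻¹ * t * y) * y⁻¹ = t := by group
        rw [this]; exact ht
      have h3 := C.sfix b _ h2.2
      rw [mul_smul, mul_smul] at h3
      rw [inv_smul_eq_iff] at h3
      exact h3
    obtain ⟨z, hz, t, ht, rfl⟩ := (C.memW hab).mpr ⟨hy.1, h1⟩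
    have h2 : z = 1 := by
      apply C.k_A hab hk hz
      have h3 := C.k_T hab hk ht
      calc k * z = (k * (z * t)) * t⁻¹ := by group
        _ = z * (t * k) * t⁻¹ := by rw [← hyk]; group
        _ = z * k := by rw [← h3]; group
    rw [h2, one_mul]; exact ht
  rw [← hCn]
  exact ⟨hg, Subgroup.mem_centralizer_singleton_iff.mpr h.symm⟩

/-- fixed point freeness on sections containing `T` -/
theorem k_fpf [Finite G] [Finite Ω] {a b : Ω} (hab : a ≠ b) {k g : G} (hk : IsK S a b k) {H0 : Subgroup G} (hH0 : H0 ≤ S a)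
    (hkH : ∀ n ∈ H0, k * n * k⁻¹ ∈ H0) (hg : g ∈ S a) (h : g⁻¹ * (k * g * k⁻¹) ∈ H0) :
    ∃ n ∈ H0, g * n ∈ S a ⊓ S b := by
  obtain ⟨n, hn, h1⟩ := lift_coset ((C.stwo a).to_le hH0) (C.k_odd hab hk) hkH h
  exact ⟨n, hn, C.k_cent hab hk ((S a).mul_mem hg (hH0 hn)) h1⟩

/-- (L): the cosets `k g k⁻¹ H0` -/
theorem L_main [Finite G] [Finite Ω] {a b : Ω} (hab : a ≠ b) {H0 H1 : Subgroup G} (h01 : H0 ≤ H1)
    (hk0 : ∀ k, IsK S a b k → ∀ n ∈ H0, k * n * k⁻¹ ∈ H0) (hk1 : ∀ k, IsK S a b k → ∀ n ∈ H1, k * n * k⁻¹ ∈ H1)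
    (hf : ∀ k, IsK S a b k → ∀ g ∈ H1, g⁻¹ * (k * g * k⁻¹) ∈ H0 → g ∈ H0) {g : G} (hg : g ∈ H1) (hg0 : g ∉ H0) :
    q * Nat.card H0 ≤ Nat.card H1 ∧ (Nat.card H1 = q * Nat.card H0 → ∀ g' ∈ H1, g' ∉ H0 →
      ∃ k, (k = 1 ∨ IsK S a b k) ∧ g'⁻¹ * (k * g * k⁻¹) ∈ H0) := by
  classical
  obtain ⟨x, hx, hx1⟩ := C.ane a
  obtain ⟨y, hy, hy1⟩ := C.ane b
  obtain ⟨s0, hs0, -⟩ := C.m_surj hab hx hx1 hy hy1
  have hkk : ∀ s ∈ M S a b, s0 * s = 1 ∨ IsK S a b (s0 * s) := by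
    intro s hs
    by_cases h : s0 = s
    · left; rw [← h]; exact M_sq hs0
    · right; exact ⟨s0, hs0, s, hs, h, rfl⟩
  have hk1' : ∀ s ∈ M S a b, ∀ n ∈ H1, (s0 * s) * n * (s0 * s)⁻¹ ∈ H1 := by
    intro s hs n hn
    rcases hkk s hs with h | h
    · rw [h]; simpa using hn
    · exact hk1 _ h n hn
  let mk : G → G ⧸ H0 := fun g => QuotientGroup.mk g
  have hmk : ∀ g g' : G, mk g = mk g' ↔ g⁻¹ * g' ∈ H0 := fun g g' => QuotientGroup.eq
  let A : Set (G ⧸ H0) := mk '' (H1 : Set G)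
  have hA : Nat.card A * Nat.card H0 = Nat.card H1 := card_image H1 H0 h01 mk (fun g _ g' _ => hmk g g')
  have hnot : ∀ s ∈ M S a b, (s0 * s) * g * (s0 * s)⁻¹ ∉ H0 := by
    intro s hs h
    rcases hkk s hs with h1 | h1
    · rw [h1] at h; apply hg0; simpa using h
    · apply hg0
      have h2 := hk0 _ (C.k_inv h1) _ h
      have h3 : (s0 * s)⁻¹ * (s0 * s * g * (s0 * s)⁻¹) * (s0 * s)⁻¹⁻¹ = g := by group
      rwa [h3] at h2
  let φ : M S a b → {x : A // x ≠ (⟨mk 1, ⟨1, H1.one_mem, rfl⟩⟩ : A)} := fun s =>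
    ⟨⟨mk ((s0 * s) * g * (s0 * s)⁻¹), ⟨_, hk1' s s.2 g hg, rfl⟩⟩, fun h => by
      have h1 : mk ((s0 * s) * g * (s0 * s)⁻¹) = mk 1 := congrArg Subtype.val h
      have h2 := (hmk _ _).mp h1.symm
      rw [inv_one, one_mul] at h2
      exact hnot s s.2 h2⟩
  have hφ : Function.Injective φ := by
    rintro ⟨s, hs⟩ ⟨s', hs'⟩ h
    have h1 : mk ((s0 * s) * g * (s0 * s)⁻¹) = mk ((s0 * s') * g * (s0 * s')⁻¹) :=
      congrArg (fun z : {x : A // x ≠ (⟨mk 1, ⟨1, H1.one_mem, rfl⟩⟩ : A)} => ((z : A) : G ⧸ H0)) h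
    have h2 := (hmk _ _).mp h1
    by_contra hne
    have hss : s ≠ s' := fun h => hne (Subtype.ext h)
    have hK : IsK S a b (s * s') := ⟨s, hs, s', hs', hss, rfl⟩
    apply hg0
    apply hf _ hK g hg
    have h3 : (s0 * s)⁻¹ * (((s0 * s) * g * (s0 * s)⁻¹)⁻¹ * ((s0 * s') * g * (s0 * s')⁻¹)) * (s0 * s) ∈ H0 := by
      rcases hkk s hs with h4 | h4
      · rw [h4] at h2 ⊢; simpa using h2
      · have h5 := hk0 _ (C.k_inv h4) _ h2
        rwa [inv_inv] at h5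
    have h6 : (s0 * s)⁻¹ * (((s0 * s) * g * (s0 * s)⁻¹)⁻¹ * ((s0 * s') * g * (s0 * s')⁻¹)) * (s0 * s) =
        g⁻¹ * ((s * s') * g * (s * s')⁻¹) := by
      have h7 : (s0 * s)⁻¹ * (s0 * s') = s * s' := by
        rw [mul_inv_rev, M_inv hs]; group
      calc (s0 * s)⁻¹ * (((s0 * s) * g * (s0 * s)⁻¹)⁻¹ * ((s0 * s') * g * (s0 * s')⁻¹)) * (s0 * s)
          = g⁻¹ * (((s0 * s)⁻¹ * (s0 * s')) * g * ((s0 * s)⁻¹ * (s0 * s'))⁻¹) := by group
        _ = _ := by rw [h7]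
    rwa [h6] at h3
  haveI : Finite (G ⧸ H0) := inferInstance
  haveI : Fintype A := Fintype.ofFinite _
  have hAc : Nat.card {x : A // x ≠ (⟨mk 1, ⟨1, H1.one_mem, rfl⟩⟩ : A)} + 1 = Nat.card A := by
    rw [Nat.card_eq_fintype_card, Nat.card_eq_fintype_card, Fintype.card_subtype_compl, Fintype.card_subtype_eq]
    have : 0 < Fintype.card A := Fintype.card_pos_iff.mpr ⟨⟨mk 1, ⟨1, H1.one_mem, rfl⟩⟩⟩
    omega
  have hMc := C.card_M hab
  rw [C.hq b] at hMc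
  have hle := Nat.card_le_card_of_injective φ hφ
  refine ⟨?_, ?_⟩
  · rw [← hA]
    apply Nat.mul_le_mul_right
    omega
  · intro hcard g' hg' hg0'
    have h1 : Nat.card A = q := by
      apply Nat.eq_of_mul_eq_mul_right (Nat.card_pos (α := H0))
      rw [hA, hcard]
    have h2 : Function.Bijective φ := by
      rw [Nat.bijective_iff_injective_and_card]
      exact ⟨hφ, by omega⟩
    obtain ⟨⟨s, hs⟩, hsg⟩ := h2.2 ⟨⟨mk g', ⟨g', hg', rfl⟩⟩, fun h => by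
      have h3 : mk g' = mk 1 := congrArg Subtype.val h
      have h4 := (hmk _ _).mp h3.symm
      rw [inv_one, one_mul] at h4
      exact hg0' h4⟩
    refine ⟨s0 * s, hkk s hs, ?_⟩
    have h3 : mk ((s0 * s) * g * (s0 * s)⁻¹) = mk g' :=
      congrArg (fun z : {x : A // x ≠ (⟨mk 1, ⟨1, H1.one_mem, rfl⟩⟩ : A)} => ((z : A) : G ⧸ H0)) hsg
    exact (hmk _ _).mp h3.symm

/-- (L) squares -/
theorem L_sq [Finite G] [Finite Ω] {a b : Ω} (hab : a ≠ b) {H0 H1 : Subgroup G} (h01 : H0 ≤ H1) (h1S : H1 ≤ S a)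
    (hn : ∀ g ∈ H1, ∀ h ∈ H0, g * h * g⁻¹ ∈ H0)
    (hk0 : ∀ k, IsK S a b k → ∀ n ∈ H0, k * n * k⁻¹ ∈ H0) (hk1 : ∀ k, IsK S a b k → ∀ n ∈ H1, k * n * k⁻¹ ∈ H1)
    (hf : ∀ k, IsK S a b k → ∀ g ∈ H1, g⁻¹ * (k * g * k⁻¹) ∈ H0 → g ∈ H0) (hcard : Nat.card H1 = q * Nat.card H0)
    {g : G} (hg : g ∈ H1) : g * g ∈ H0 := by
  by_cases hg0 : g ∈ H0
  · exact H0.mul_mem hg0 hg0
  -- an element `y` of `H1 - H0` with square in `H0`
  obtain ⟨y, hy, hy0, hyy⟩ : ∃ y ∈ H1, y ∉ H0 ∧ y * y ∈ H0 := by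
    obtain ⟨k, hk⟩ := C.stwo a ⟨g, h1S hg⟩
    have hk' : g ^ 2 ^ k = 1 := congrArg Subtype.val hk
    classical
    have hex : ∃ k, g ^ 2 ^ k ∈ H0 := ⟨k, by rw [hk']; exact H0.one_mem⟩
    have h0 : Nat.find hex ≠ 0 := by
      intro h
      have := Nat.find_spec hex
      rw [h, pow_zero, pow_one] at this
      exact hg0 this
    obtain ⟨j, hj⟩ := Nat.exists_eq_succ_of_ne_zero h0
    refine ⟨g ^ 2 ^ j, H1.pow_mem hg _, Nat.find_min hex (by omega), ?_⟩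
    rw [← pow_add, ← two_mul, ← pow_succ']
    have := Nat.find_spec hex
    rwa [hj] at this
  obtain ⟨k, hk, h1⟩ := (C.L_main hab h01 hk0 hk1 hf hy hy0).2 hcard g hg hg0
  have h2 : k * (y * y) * k⁻¹ ∈ H0 := by
    rcases hk with h | h
    · rw [h]; simpa using hyy
    · exact hk0 k h _ hyy
  set n := g⁻¹ * (k * y * k⁻¹) with hndef
  have h3 : k * y * k⁻¹ = g * n := by rw [hndef]; group
  have h4 : k * (y * y) * k⁻¹ = g * n * (g * n) := by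
    rw [← h3]; group
  rw [h4] at h2
  have h5 : g * g = (g * n * (g * n)) * (n⁻¹ * (g⁻¹ * n * g)⁻¹) := by group
  rw [h5]
  apply H0.mul_mem h2
  apply H0.mul_mem (H0.inv_mem h1)
  apply H0.inv_mem
  have := hn g⁻¹ (H1.inv_mem hg) n h1
  rwa [inv_inv] at this

end Hyp

end

end H16.SB
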