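import Mathlib
import Cfsg.Agent.Lib.H16.SB5
import Cfsg.Agent.Lib.H3.PBasic
import Cfsg.Agent.Lib.H3.ThompsonTransfer

/-!
# Split BN pairs of rank one in odd degree (S0349), part 6: the transfer contradiction
-/

set_option autoImplicit false
set_option linter.unusedVariables false

namespace H16.SB

open H57.Bd H16.BD MulAction

section

variable {G Ω : Type*} [Group G] [MulAction G Ω]

variable {S O : Ω → Subgroup G} {q : ℕ} (C : Hyp G Ω S O q)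

/-- elements of `N3` central modulo `A` -/
def Z3 (C : Hyp G Ω S O q) (a b : Ω) : Subgroup G where
  carrier := {g | g ∈ N3 S a b ∧ ∀ h ∈ S a, h * g * h⁻¹ * g⁻¹ ∈ Az S a}
  mul_mem' := by
    rintro g g' ⟨h1, h2⟩ ⟨k1, k2⟩
    refine ⟨(N3 S a b).mul_mem h1 k1, fun h hh => ?_⟩
    have h3 := h2 h hh
    have h4 := k2 h hh
    have h5 := h4.2.2 g h1.1
    have h6 : h * (g * g') * h⁻¹ * (g * g')⁻¹ = (h * g * h⁻¹ * g⁻¹) * (h * g' * h⁻¹ * g'⁻¹) := by
      calc h * (g * g') * h⁻¹ * (g * g')⁻¹ = (h * g * h⁻¹ * g⁻¹) * (g * (h * g' * h⁻¹ * g'⁻¹)) * g⁻¹ := by group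
        _ = _ := by rw [h5]; group
    rw [h6]
    exact (Az S a).mul_mem h3 h4
  one_mem' := ⟨(N3 S a b).one_mem, fun h hh => by
    have : h * 1 * h⁻¹ * (1 : G)⁻¹ = 1 := by group
    rw [this]; exact (Az S a).one_mem⟩
  inv_mem' := by
    rintro g ⟨h1, h2⟩
    refine ⟨(N3 S a b).inv_mem h1, fun h hh => ?_⟩
    have h3 := h2 h hh
    have h5 := h3.2.2 g h1.1
    have h6 : h * g⁻¹ * h⁻¹ * g⁻¹⁻¹ = (h * g * h⁻¹ * g⁻¹)⁻¹ := by
      have h7 : h * g * h⁻¹ * g⁻¹ * g = g * (h * g * h⁻¹ * g⁻¹) := h5.symm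
      have h8 : g⁻¹ * (h * g * h⁻¹ * g⁻¹) * g = h * g * h⁻¹ * g⁻¹ := by rw [mul_assoc, h7]; group
      calc h * g⁻¹ * h⁻¹ * g⁻¹⁻¹ = (g⁻¹ * (h * g * h⁻¹ * g⁻¹) * g)⁻¹ := by group
        _ = _ := by rw [h8]
    rw [h6]
    exact (Az S a).inv_mem h3

namespace Hyp

include C

theorem memZ3 {a b : Ω} {g : G} : g ∈ Z3 C a b ↔ g ∈ N3 S a b ∧ ∀ h ∈ S a, h * g * h⁻¹ * g⁻¹ ∈ Az S a := Iff.rfl

theorem az_conj {a : Ω} {z g : G} (hz : z ∈ Az S a) (hg : g ∈ S a) : g * z * g⁻¹ = z := by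
  rw [hz.2.2 g hg]; group

/-- squares of elements of `N3` are in `A` -/
theorem N3_sq [Finite G] [Finite Ω] {a b : Ω} (hab : a ≠ b) {g : G} (hg : g ∈ N3 S a b) : g * g ∈ Az S a := by
  have h1 : g * g ∈ W S a b := by
    refine C.L_sq hab C.W_le_N3 (fun x hx => hx.1) (fun x hx h hh => (hx.2 h).mp hh) (fun k hk n hn => C.k_W hab hk hn)
      (fun k hk n hn => C.k_N3 hab hk hn) ?_ ?_ hg
    · intro k hk x hx h
      obtain ⟨n, hn, h2⟩ := C.k_fpf hab hk W_le (fun n hn => C.k_W hab hk hn) hx.1 h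
      have := (W S a b).mul_mem (T_le_W h2) ((W S a b).inv_mem hn)
      rwa [mul_inv_cancel_right] at this
    · rw [C.card_N3 hab, C.card_W hab]; ring
  by_contra hA
  obtain ⟨c, hac, h2, h3⟩ := C.W_bad hab h1 hA
  exact h3 (C.trick hac hg.1 (C.sfix c _ h2.2))

theorem N3_comm [Finite G] [Finite Ω] {a b : Ω} (hab : a ≠ b) {g h : G} (hg : g ∈ N3 S a b) (hh : h ∈ N3 S a b) :
    g * h * g⁻¹ * h⁻¹ ∈ Az S a := by
  have h1 := C.N3_sq hab hg
  have h2 := C.N3_sq hab hh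
  have h3 := C.N3_sq hab ((N3 S a b).mul_mem hg hh)
  have h4 := (Az S a).inv_mem h1
  have h5 := (Az S a).inv_mem h2
  have h6 : g * h * g⁻¹ * h⁻¹ = (g * h * (g * h)) * (g * g)⁻¹ * (h * h)⁻¹ := by
    have h7 := h4.2.2 h hh.1
    calc g * h * g⁻¹ * h⁻¹ = g * h * g * (h * (h⁻¹ * (g * g)⁻¹ * h)) * (h * h)⁻¹ := by group
      _ = g * h * g * (h * (h⁻¹ * (h * (g * g)⁻¹))) * (h * h)⁻¹ := by rw [h7]; group
      _ = _ := by group
  rw [h6]
  exact (Az S a).mul_mem ((Az S a).mul_mem h3 h4) h5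

theorem N3_ne [Finite G] [Finite Ω] {a b : Ω} (hab : a ≠ b) : N3 S a b ≠ S a := by
  intro h
  have h1 := C.card_N3 hab
  rw [h, C.card_Sa hab] at h1
  have h2 : 0 < Nat.card (S a ⊓ S b : Subgroup G) := Nat.card_pos
  have h3 := Nat.eq_of_mul_eq_mul_right h2 h1
  have h4 := C.h4
  have h5 : 0 < q ^ 2 := by positivity
  have h6 : q ^ 2 * q = q ^ 2 * 1 := by rw [mul_one, ← pow_succ]; exact h3
  have h7 := Nat.eq_of_mul_eq_mul_left h5 h6
  omega

theorem fpf_N3 [Finite G] [Finite Ω] {a b : Ω} (hab : a ≠ b) {k g : G} (hk : IsK S a b k) (hg : g ∈ S a)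
    (h : g⁻¹ * (k * g * k⁻¹) ∈ N3 S a b) : g ∈ N3 S a b := by
  obtain ⟨n, hn, h2⟩ := C.k_fpf (H0 := N3 S a b) hab hk (fun x hx => hx.1) (fun n hn => C.k_N3 hab hk hn) hg h
  have := (N3 S a b).mul_mem (C.T_le_N3 h2) ((N3 S a b).inv_mem hn)
  rwa [mul_inv_cancel_right] at this

/-- `N3` is normal in `S_a` -/
theorem N3_normal [Finite G] [Finite Ω] {a b : Ω} (hab : a ≠ b) {g : G} (hg : g ∈ S a) {h : G} :
    h ∈ N3 S a b ↔ g * h * g⁻¹ ∈ N3 S a b := by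
  let N4 : Subgroup G :=
    { carrier := {g | g ∈ S a ∧ ∀ h, h ∈ N3 S a b ↔ g * h * g⁻¹ ∈ N3 S a b}
      mul_mem' := by
        rintro g g' ⟨h1, h2⟩ ⟨k1, k2⟩
        refine ⟨(S a).mul_mem h1 k1, fun h => ?_⟩
        rw [k2 h, h2 (g' * h * g'⁻¹)]
        have : g * (g' * h * g'⁻¹) * g⁻¹ = g * g' * h * (g * g')⁻¹ := by group
        rw [this]
      one_mem' := ⟨(S a).one_mem, fun h => by rw [one_mul, inv_one, mul_one]⟩
      inv_mem' := by
        rintro g ⟨h1, h2⟩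
        refine ⟨(S a).inv_mem h1, fun h => ?_⟩
        rw [h2 (g⁻¹ * h * g⁻¹⁻¹)]
        have : g * (g⁻¹ * h * g⁻¹⁻¹) * g⁻¹ = h := by group
        rw [this] }
  have h34 : N3 S a b ≤ N4 := by
    intro x hx
    refine ⟨hx.1, fun h => ⟨fun hh => (N3 S a b).mul_mem ((N3 S a b).mul_mem hx hh) ((N3 S a b).inv_mem hx), fun hh => ?_⟩⟩
    have := (N3 S a b).mul_mem ((N3 S a b).mul_mem ((N3 S a b).inv_mem hx) hh) hx
    have h1 : x⁻¹ * (x * h * x⁻¹) * x = h := by group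
    rwa [h1] at this
  have hk3 : ∀ k, IsK S a b k → ∀ x, x ∈ N3 S a b ↔ k * x * k⁻¹ ∈ N3 S a b := by
    intro k hk x
    refine ⟨C.k_N3 hab hk, fun h => ?_⟩
    have := C.k_N3 hab (C.k_inv hk) h
    have h3 : k⁻¹ * (k * x * k⁻¹) * k⁻¹⁻¹ = x := by group
    rwa [h3] at this
  have hk4 : ∀ k, IsK S a b k → ∀ n ∈ N4, k * n * k⁻¹ ∈ N4 := by
    rintro k hk n ⟨h1, h2⟩
    refine ⟨C.k_S hk h1, fun x => ?_⟩
    have h3 : x = k * (k⁻¹ * x * k) * k⁻¹ := by group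
    have h4 : x ∈ N3 S a b ↔ k⁻¹ * x * k ∈ N3 S a b := by
      rw [hk3 k hk (k⁻¹ * x * k), ← h3]
    rw [h4, h2, hk3 k hk]
    have h5 : k * (n * (k⁻¹ * x * k) * n⁻¹) * k⁻¹ = k * n * k⁻¹ * x * (k * n * k⁻¹)⁻¹ := by group
    rw [h5]
  obtain ⟨y, hy, hy3, hyn⟩ := exists_norm (C.stwo a) (fun x hx => hx.1 : N3 S a b ≤ S a) (C.N3_ne hab)
  have h1 := (C.L_main hab h34 (fun k hk n hn => C.k_N3 hab hk hn) hk4
    (fun k hk x hx h => C.fpf_N3 hab hk hx.1 h) (g := y) ⟨hy, hyn⟩ hy3).1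
  have h2 : N4 = S a := by
    apply Subgroup.eq_of_le_of_card_ge (show N4 ≤ S a from fun x hx => hx.1)
    rw [C.card_Sa hab]
    rw [C.card_N3 hab] at h1
    calc q ^ 3 * Nat.card (S a ⊓ S b : Subgroup G) = q * (q ^ 2 * Nat.card (S a ⊓ S b : Subgroup G)) := by ring
      _ ≤ _ := h1
  have h3 : g ∈ N4 := by rw [h2]; exact hg
  exact h3.2 h

theorem S_sq [Finite G] [Finite Ω] {a b : Ω} (hab : a ≠ b) {g : G} (hg : g ∈ S a) : g * g ∈ N3 S a b := by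
  refine C.L_sq hab (show N3 S a b ≤ S a from fun x hx => hx.1) le_rfl (fun x hx h hh => (C.N3_normal hab hx).mp hh)
    (fun k hk n hn => C.k_N3 hab hk hn)
    (fun k hk n hn => C.k_S hk hn) (fun k hk x hx h => C.fpf_N3 hab hk hx h) ?_ hg
  rw [C.card_N3 hab, C.card_Sa hab]; ring

theorem Az_le_Z3 [Finite G] [Finite Ω] {a b : Ω} : Az S a ≤ Z3 C a b := by
  intro z hz
  refine ⟨C.W_le_N3 (Az_le_W hz), fun h hh => ?_⟩
  rw [C.az_conj hz hh, mul_inv_cancel]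
  exact (Az S a).one_mem

/-- `Z3 ∩ W = A` -/
theorem Z3_W [Finite G] [Finite Ω] {a b : Ω} (hab : a ≠ b) {v : G} (hv : v ∈ Z3 C a b) (hvW : v ∈ W S a b) : v ∈ Az S a := by
  by_contra hA
  apply C.N3_ne hab
  apply le_antisymm (fun x hx => hx.1)
  have key : ∀ h ∈ S a, ∀ x, x ∈ W S a b → h * x * h⁻¹ ∈ W S a b := by
    intro h hh x hx
    have h1 := hv.2 h hh
    set v' := h * v * h⁻¹ with hv'
    have h2 : v' = (v' * v⁻¹) * v := by group
    have h3 : v' ∈ W S a b := by rw [h2]; exact (W S a b).mul_mem (Az_le_W h1) hvW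
    have h4 : v' ∉ Az S a := by
      intro h5
      apply hA
      have h6 := (Az S a).mul_mem ((Az S a).inv_mem h1) h5
      have h7 : (v' * v⁻¹)⁻¹ * v' = v := by group
      rwa [h7] at h6
    apply C.cent_le' hab h3 h4 ((S a).mul_mem ((S a).mul_mem hh (W_le hx)) ((S a).inv_mem hh))
    have h5 := C.W_comm hab hx hvW
    calc h * x * h⁻¹ * v' = h * (x * v) * h⁻¹ := by rw [hv']; group
      _ = v' * (h * x * h⁻¹) := by rw [h5, hv']; group
  intro h hh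
  refine ⟨hh, fun x => ⟨key h hh x, fun hx => ?_⟩⟩
  have := key h⁻¹ ((S a).inv_mem hh) _ hx
  have h3 : h⁻¹ * (h * x * h⁻¹) * h⁻¹⁻¹ = x := by group
  rwa [h3] at this

/-- `Z3 > A` -/
theorem Z3_ne [Finite G] [Finite Ω] {a b : Ω} (hab : a ≠ b) : ∃ g ∈ Z3 C a b, g ∉ Az S a := by
  haveI : Fact (Nat.Prime 2) := ⟨Nat.prime_two⟩
  have hAS : Az S a ≤ S a := fun z hz => hz.1
  haveI hn : ((Az S a).subgroupOf (S a)).Normal := by
    refine ⟨fun n hn g => ?_⟩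
    rw [Subgroup.mem_subgroupOf] at hn ⊢
    have := C.az_conj hn g.2
    show (g : G) * n * (g : G)⁻¹ ∈ Az S a
    rw [this]; exact hn
  let Q := S a ⧸ (Az S a).subgroupOf (S a)
  have hQ : IsPGroup 2 Q := (C.stwo a).to_quotient _
  haveI : Group.IsNilpotent Q := hQ.isNilpotent
  let N : Subgroup Q := ((N3 S a b).subgroupOf (S a)).map (QuotientGroup.mk' _)
  haveI hN3n : ((N3 S a b).subgroupOf (S a)).Normal := by
    refine ⟨fun n hn g => ?_⟩
    rw [Subgroup.mem_subgroupOf] at hn ⊢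
    exact (C.N3_normal hab g.2).mp hn
  haveI : N.Normal := hN3n.map _ (QuotientGroup.mk'_surjective _)
  have hNne : N ≠ ⊥ := by
    intro h
    obtain ⟨u, hu, huu, hu1⟩ := C.hT a b hab
    have h1 : QuotientGroup.mk' ((Az S a).subgroupOf (S a)) ⟨u, hu.1⟩ ∈ N :=
      ⟨⟨u, hu.1⟩, Subgroup.mem_subgroupOf.mpr (C.T_le_N3 hu), rfl⟩
    rw [h, Subgroup.mem_bot, QuotientGroup.mk'_apply, QuotientGroup.eq_one_iff, Subgroup.mem_subgroupOf] at h1
    exact hab (C.afix h1 hu1 (C.sfix b u hu.2)).symm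
  have h1 := H3.PBasic.normal_inf_center_ne_bot (G := Q) N hNne
  obtain ⟨z, hz⟩ := (Subgroup.ne_bot_iff_exists_ne_one).1 h1
  obtain ⟨hzN, hzc⟩ := z.2
  obtain ⟨g, hg, hgz⟩ := hzN
  have hg' := Subgroup.mem_subgroupOf.mp hg
  refine ⟨(g : G), ⟨hg', fun h hh => ?_⟩, ?_⟩
  · have h2 := Subgroup.mem_center_iff.mp hzc (QuotientGroup.mk' _ ⟨h, hh⟩)
    rw [← hgz, ← map_mul, ← map_mul] at h2
    have h3 := QuotientGroup.eq.mp h2.symm
    rw [Subgroup.mem_subgroupOf] at h3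
    have h4 : ((g : G) * h)⁻¹ * (h * (g : G)) ∈ Az S a := h3
    have h5 := C.az_conj h4 ((S a).mul_mem g.2 hh)
    have h6 : h * (g : G) * h⁻¹ * (g : G)⁻¹ = ((g : G) * h) * (((g : G) * h)⁻¹ * (h * (g : G))) * ((g : G) * h)⁻¹ := by group
    rw [h6, h5]; exact h4
  · intro h
    apply hz
    apply Subtype.ext
    show (z : Q) = 1
    rw [← hgz, QuotientGroup.mk'_apply, QuotientGroup.eq_one_iff, Subgroup.mem_subgroupOf]
    exact h

theorem k_Z3 [Finite G] [Finite Ω] {a b : Ω} (hab : a ≠ b) {k g : G} (hk : IsK S a b k) (hg : g ∈ Z3 C a b) :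
    k * g * k⁻¹ ∈ Z3 C a b := by
  refine ⟨C.k_N3 hab hk hg.1, fun h hh => ?_⟩
  have h1 := C.k_S (C.k_inv hk) hh
  rw [inv_inv] at h1
  have h2 := C.k_Az hk (hg.2 _ h1)
  have h3 : k * (k⁻¹ * h * k * g * (k⁻¹ * h * k)⁻¹ * g⁻¹) * k⁻¹ = h * (k * g * k⁻¹) * h⁻¹ * (k * g * k⁻¹)⁻¹ := by group
  rwa [h3] at h2

theorem Z3_T [Finite G] [Finite Ω] {a b : Ω} (hab : a ≠ b) {t : G} (h1 : t ∈ Z3 C a b) (h2 : t ∈ S a ⊓ S b) : t = 1 := by
  by_contra ht
  exact hab (C.afix (C.Z3_W hab h1 (T_le_W h2)) ht (C.sfix b t h2.2)).symm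

/-- `|Z3| = q^2` and `N3 = Z3 T` -/
theorem card_Z3 [Finite G] [Finite Ω] {a b : Ω} (hab : a ≠ b) : Nat.card (Z3 C a b) = q ^ 2 ∧
    ∀ g ∈ N3 S a b, ∃ z ∈ Z3 C a b, ∃ t ∈ S a ⊓ S b, g = z * t := by
  obtain ⟨g, hg, hgA⟩ := C.Z3_ne hab
  have h1 := (C.L_main hab C.Az_le_Z3 (fun k hk n hn => C.k_Az hk hn) (fun k hk n hn => C.k_Z3 hab hk hn)
    (fun k hk x hx h => by
      obtain ⟨n, hn, h2⟩ := C.k_fpf (H0 := Az S a) hab hk (fun x hx => hx.1) (fun n hn => C.k_Az hk hn) hx.1.1 h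
      apply C.Z3_W hab hx
      have := (W S a b).mul_mem (T_le_W h2) ((W S a b).inv_mem (Az_le_W hn))
      rwa [mul_inv_cancel_right] at this) hg hgA).1
  rw [C.hq a] at h1
  let φ : Z3 C a b × (S a ⊓ S b : Subgroup G) → N3 S a b := fun p =>
    ⟨(p.1 : G) * p.2, (N3 S a b).mul_mem p.1.2.1 (C.T_le_N3 p.2.2)⟩
  have hφ : Function.Injective φ := by
    rintro ⟨⟨z, hz⟩, ⟨t, ht⟩⟩ ⟨⟨z', hz'⟩, ⟨t', ht'⟩⟩ h
    have h2 : z * t = z' * t' := congrArg Subtype.val h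
    have h3 : z'⁻¹ * z = t' * t⁻¹ := by
      calc z'⁻¹ * z = z'⁻¹ * (z * t) * t⁻¹ := by group
        _ = t' * t⁻¹ := by rw [h2]; group
    have h4 := C.Z3_T hab ((Z3 C a b).mul_mem ((Z3 C a b).inv_mem hz') hz) (by
      rw [h3]; exact (S a ⊓ S b).mul_mem ht' ((S a ⊓ S b).inv_mem ht))
    have h5 : z = z' := (inv_mul_eq_one.mp h4).symm
    subst h5
    have h6 : t = t' := mul_left_cancel h2
    subst h6
    rfl
  have h2 := Nat.card_le_card_of_injective φ hφ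
  rw [Nat.card_prod, C.card_N3 hab] at h2
  have h3 : 0 < Nat.card (S a ⊓ S b : Subgroup G) := Nat.card_pos
  have h4 := Nat.le_of_mul_le_mul_right h2 h3
  have h5 : Nat.card (Z3 C a b) = q ^ 2 := le_antisymm h4 (by rw [pow_two]; exact h1)
  refine ⟨h5, ?_⟩
  have h6 : Function.Bijective φ := by
    rw [Nat.bijective_iff_injective_and_card]
    exact ⟨hφ, by rw [Nat.card_prod, C.card_N3 hab, h5]⟩
  intro x hx
  obtain ⟨⟨z, t⟩, h⟩ := h6.2 ⟨x, hx⟩
  exact ⟨z, z.2, t, t.2, (congrArg Subtype.val h).symm⟩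

theorem Z3_conj [Finite G] [Finite Ω] {a b : Ω} {g z : G} (hg : g ∈ S a) (hz : z ∈ Z3 C a b) : g * z * g⁻¹ ∈ Z3 C a b := by
  have h1 := hz.2 g hg
  have h2 := (Z3 C a b).mul_mem (C.Az_le_Z3 h1) hz
  have h3 : g * z * g⁻¹ * z⁻¹ * z = g * z * g⁻¹ := by group
  rwa [h3] at h2

/-- `S_a` acts trivially on `N3 / Z3` -/
theorem S_T [Finite G] [Finite Ω] {a b : Ω} (hab : a ≠ b) {g : G} (hg : g ∈ S a) {t : G} (ht : t ∈ S a ⊓ S b) :
    g * t * g⁻¹ * t⁻¹ ∈ Z3 C a b := by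
  let Y : Subgroup G :=
    { carrier := {g | g ∈ S a ∧ ∀ t ∈ S a ⊓ S b, g * t * g⁻¹ * t⁻¹ ∈ Z3 C a b}
      mul_mem' := by
        rintro g g' ⟨h1, h2⟩ ⟨k1, k2⟩
        refine ⟨(S a).mul_mem h1 k1, fun t ht => ?_⟩
        have h3 := C.Z3_conj h1 (k2 t ht)
        have h4 := (Z3 C a b).mul_mem h3 (h2 t ht)
        have h5 : g * (g' * t * g'⁻¹ * t⁻¹) * g⁻¹ * (g * t * g⁻¹ * t⁻¹) = g * g' * t * (g * g')⁻¹ * t⁻¹ := by group
        rwa [h5] at h4
      one_mem' := ⟨(S a).one_mem, fun t ht => by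
        have : (1 : G) * t * (1 : G)⁻¹ * t⁻¹ = 1 := by group
        rw [this]; exact (Z3 C a b).one_mem⟩
      inv_mem' := by
        rintro g ⟨h1, h2⟩
        refine ⟨(S a).inv_mem h1, fun t ht => ?_⟩
        have h3 := C.Z3_conj ((S a).inv_mem h1) ((Z3 C a b).inv_mem (h2 t ht))
        have h4 : g⁻¹ * (g * t * g⁻¹ * t⁻¹)⁻¹ * g⁻¹⁻¹ = g⁻¹ * t * g⁻¹⁻¹ * t⁻¹ := by group
        rwa [h4] at h3 }
  have h3Y : N3 S a b ≤ Y := fun x hx => ⟨hx.1, fun t ht => C.Az_le_Z3 (C.N3_comm hab hx (C.T_le_N3 ht))⟩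
  have hkY : ∀ k, IsK S a b k → ∀ n ∈ Y, k * n * k⁻¹ ∈ Y := by
    rintro k hk n ⟨h1, h2⟩
    refine ⟨C.k_S hk h1, fun t ht => ?_⟩
    have h3 := C.k_Z3 hab hk (h2 t ht)
    have h4 := C.k_T hab hk ht
    have h5 : k⁻¹ * t * k = t := by rw [mul_assoc, ← h4]; group
    have h6 : k * (n * t * n⁻¹ * t⁻¹) * k⁻¹ = (k * n * k⁻¹) * t * (k * n * k⁻¹)⁻¹ * t⁻¹ := by
      calc k * (n * t * n⁻¹ * t⁻¹) * k⁻¹ = k * (n * (k⁻¹ * t * k) * n⁻¹ * (k⁻¹ * t * k)⁻¹) * k⁻¹ := by rw [h5]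
        _ = _ := by group
    rwa [h6] at h3
  -- an element of `Y` outside `N3`
  obtain ⟨x, hx, hx3⟩ : ∃ x ∈ S a, x ∉ N3 S a b := by
    by_contra hcon
    push Not at hcon
    exact C.N3_ne hab (le_antisymm (fun x hx => hx.1) hcon)
  obtain ⟨k, hk⟩ : ∃ k, IsK S a b k := by
    obtain ⟨z, hz, hz1⟩ := C.ane a
    obtain ⟨y, hy, hy1⟩ := C.ane b
    obtain ⟨y', hy', hy1', hyy⟩ := C.exists_ne (C.hq b) C.h4 (r := y)
    obtain ⟨s, hs, hsy⟩ := C.m_surj hab hz hz1 hy hy1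
    obtain ⟨s', hs', hsy'⟩ := C.m_surj hab hz hz1 hy' hy1'
    exact ⟨s * s', s, hs, s', hs', fun h => hyy (by rw [← hsy', ← h, hsy]), rfl⟩
  set w := k * x * k⁻¹ * x⁻¹ with hw
  have hwS : w ∈ S a := (S a).mul_mem (C.k_S hk hx) ((S a).inv_mem hx)
  have hw3 : w ∉ N3 S a b := by
    intro h
    apply hx3
    apply C.fpf_N3 hab hk hx
    have h1 := (C.N3_normal hab ((S a).inv_mem hx)).mp h
    have h2 : x⁻¹ * w * x⁻¹⁻¹ = x⁻¹ * (k * x * k⁻¹) := by rw [hw]; group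
    rwa [h2] at h1
  have hwY : w ∈ Y := by
    refine ⟨hwS, fun t ht => ?_⟩
    have h1 : x⁻¹ * t * x ∈ N3 S a b := by
      have := (C.N3_normal hab ((S a).inv_mem hx)).mp (C.T_le_N3 ht)
      rwa [inv_inv] at this
    obtain ⟨z, hz, r, hr, h2⟩ := (C.card_Z3 hab).2 _ h1
    -- `k⁻¹ (z r) k = z1 (z r)`
    have hkr := C.k_T hab hk hr
    have hkt := C.k_T hab hk ht
    have h3 := C.k_Z3 hab (C.k_inv hk) hz
    rw [inv_inv] at h3
    set z1 := (k⁻¹ * z * k) * z⁻¹ with hz1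
    have hz1m : z1 ∈ Z3 C a b := (Z3 C a b).mul_mem h3 ((Z3 C a b).inv_mem hz)
    have h4 : k⁻¹ * (x⁻¹ * t * x) * k = z1 * (x⁻¹ * t * x) := by
      rw [h2, hz1]
      calc k⁻¹ * (z * r) * k = k⁻¹ * z * (r * k) := by group
        _ = k⁻¹ * z * (k * r) := by rw [hkr]
        _ = k⁻¹ * z * k * z⁻¹ * (z * r) := by group
    have h5 : w * t * w⁻¹ * t⁻¹ = k * (x * z1 * x⁻¹) * k⁻¹ := by
      calc w * t * w⁻¹ * t⁻¹ = k * x * (k⁻¹ * (x⁻¹ * t * x) * k) * x⁻¹ * k⁻¹ * t⁻¹ := by rw [hw]; group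
        _ = k * x * (z1 * (x⁻¹ * t * x)) * x⁻¹ * k⁻¹ * t⁻¹ := by rw [h4]
        _ = k * (x * z1 * x⁻¹) * k⁻¹ * ((k * t) * k⁻¹ * t⁻¹) := by group
        _ = k * (x * z1 * x⁻¹) * k⁻¹ := by rw [hkt]; group
    rw [h5]
    exact C.k_Z3 hab hk (C.Z3_conj hx hz1m)
  have h1 := (C.L_main hab h3Y (fun k hk n hn => C.k_N3 hab hk hn) hkY
    (fun k hk x hx h => C.fpf_N3 hab hk hx.1 h) hwY hw3).1
  have h2 : Y = S a := by
    apply Subgroup.eq_of_le_of_card_ge (show Y ≤ S a from fun x hx => hx.1)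
    rw [C.card_Sa hab]
    rw [C.card_N3 hab] at h1
    calc q ^ 3 * Nat.card (S a ⊓ S b : Subgroup G) = q * (q ^ 2 * Nat.card (S a ⊓ S b : Subgroup G)) := by ring
      _ ≤ _ := h1
  have h3 : g ∈ Y := by rw [h2]; exact hg
  exact h3.2 t ht

/-- all elements of `Z3 t` are conjugate to `t` -/
theorem Z3t_conj [Finite G] [Finite Ω] {a b : Ω} (hab : a ≠ b) {t : G} (ht : t ∈ S a ⊓ S b) (ht1 : t ≠ 1) {z : G}
    (hz : z ∈ Z3 C a b) : ∃ g ∈ S a, g * t * g⁻¹ = z * t := by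
  have h1 : Nat.card ((fun g : G => g * t * g⁻¹) '' (S a : Set G)) * Nat.card (W S a b) = Nat.card (S a) := by
    apply card_image (S a) (W S a b) W_le
    intro g hg g' hg'
    constructor
    · intro h
      have h2 : g * t * g⁻¹ = g' * t * g'⁻¹ := h
      apply C.cent_le hab ht ht1 ((S a).mul_mem ((S a).inv_mem hg) hg')
      calc g⁻¹ * g' * t = g⁻¹ * (g' * t * g'⁻¹) * g' := by group
        _ = t * (g⁻¹ * g') := by rw [← h2]; group
    · intro h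
      have h2 := C.W_comm hab h (T_le_W ht)
      show g * t * g⁻¹ = g' * t * g'⁻¹
      calc g * t * g⁻¹ = g * (t * (g⁻¹ * g')) * g'⁻¹ := by group
        _ = g' * t * g'⁻¹ := by rw [← h2]; group
  rw [C.card_W hab, C.card_Sa hab] at h1
  have h2 : 0 < Nat.card (S a ⊓ S b : Subgroup G) := Nat.card_pos
  have h3 : Nat.card ((fun g : G => g * t * g⁻¹) '' (S a : Set G)) = q ^ 2 := by
    have h4 := C.h4
    have h5 : 0 < q * Nat.card (S a ⊓ S b : Subgroup G) := Nat.mul_pos (by omega) h2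
    apply Nat.eq_of_mul_eq_mul_right h5
    rw [h1]; ring
  have h4 : (fun g : G => g * t * g⁻¹) '' (S a : Set G) ⊆ (fun z : G => z * t) '' (Z3 C a b : Set G) := by
    rintro _ ⟨g, hg, rfl⟩
    exact ⟨_, C.S_T hab hg ht, by group⟩
  have h5 : ((fun z : G => z * t) '' (Z3 C a b : Set G)).ncard = q ^ 2 := by
    rw [Set.ncard_image_of_injective _ (mul_left_injective t)]
    exact (C.card_Z3 hab).1
  have h6 : (fun g : G => g * t * g⁻¹) '' (S a : Set G) = (fun z : G => z * t) '' (Z3 C a b : Set G) := by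
    apply Set.eq_of_subset_of_ncard_le h4 _ (Set.toFinite _)
    rw [h5]
    exact h3.ge
  have h7 : z * t ∈ (fun g : G => g * t * g⁻¹) '' (S a : Set G) := by
    rw [h6]; exact ⟨z, hz, rfl⟩
  obtain ⟨g, hg, h8⟩ := h7
  exact ⟨g, hg, h8⟩

theorem t_inverts [Finite G] [Finite Ω] {a b : Ω} (hab : a ≠ b) {t : G} (ht : t ∈ S a ⊓ S b) (ht1 : t ≠ 1) {z : G}
    (hz : z ∈ Z3 C a b) : t * z * t = z⁻¹ := by
  obtain ⟨g, hg, h⟩ := C.Z3t_conj hab ht ht1 hz
  have h1 : z * t * (z * t) = 1 := by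
    rw [← h]
    calc g * t * g⁻¹ * (g * t * g⁻¹) = g * (t * t) * g⁻¹ := by group
      _ = 1 := by rw [C.T_sq hab ht]; group
  calc t * z * t = z⁻¹ * (z * t * (z * t)) := by group
    _ = z⁻¹ := by rw [h1, mul_one]

/-- `|T| = 2` -/
theorem T_unique [Finite G] [Finite Ω] {a b : Ω} (hab : a ≠ b) {t s : G} (ht : t ∈ S a ⊓ S b) (ht1 : t ≠ 1)
    (hs : s ∈ S a ⊓ S b) (hs1 : s ≠ 1) : t = s := by
  by_contra hne
  have htt := C.T_sq hab ht
  have hss := C.T_sq hab hs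
  have h1 : t * s ∈ S a ⊓ S b := (S a ⊓ S b).mul_mem ht hs
  have h2 : t * s ≠ 1 := by
    intro h
    apply hne
    rw [← inv_eq_of_mul_eq_one_left hss]
    exact eq_inv_of_mul_eq_one_left h
  have h3 : Z3 C a b ≤ Az S a := by
    intro z hz
    apply C.Z3_W hab hz
    apply C.cent_le hab h1 h2 hz.1.1
    have h4 := C.t_inverts hab hs hs1 hz
    have h5 := C.t_inverts hab ht ht1 ((Z3 C a b).inv_mem hz)
    -- `t s z s t = z`
    have h6 : t * (s * z * s) * t = z := by rw [h4, h5, inv_inv]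
    have h7 := C.T_comm hab ht hs
    calc z * (t * s) = t * (s * z * s) * t * (t * s) := by rw [h6]
      _ = t * s * z * s * (t * t) * s := by group
      _ = t * s * z * (s * s) := by rw [htt]; group
      _ = t * s * z := by rw [hss, mul_one]
  have h8 := Subgroup.card_le_of_le h3
  rw [(C.card_Z3 hab).1, C.hq a] at h8
  have h9 := C.h4
  nlinarith

/-- squares of elements of `S_a` lie in `Z3` -/
theorem S_sq' [Finite G] [Finite Ω] {a b : Ω} (hab : a ≠ b) {g : G} (hg : g ∈ S a) : g * g ∈ Z3 C a b := by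
  obtain ⟨z, hz, t, ht, h⟩ := (C.card_Z3 hab).2 _ (C.S_sq hab hg)
  by_cases ht1 : t = 1
  · rw [h, ht1, mul_one]; exact hz
  exfalso
  obtain ⟨x, hx, h1⟩ := C.Z3t_conj hab ht ht1 hz
  have h2 : (g * g) • (x • b) = x • b := by
    rw [h, ← h1, mul_smul, mul_smul, inv_smul_smul, C.sfix b t ht.2]
  have hxb : a ≠ x • b := by
    intro h3
    apply hab
    have h4 := C.sfix a x hx
    exact smul_left_cancel x (h4.trans h3)
  have h3 := C.trick hxb hg h2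
  rw [h, ← h1] at h3
  apply ht1
  calc t = x⁻¹ * (x * t * x⁻¹) * x := by group
    _ = 1 := by rw [h3]; group

theorem index_odd [Finite G] [Finite Ω] (a : Ω) : Odd (S a).index := by
  haveI : Fact (Nat.Prime 2) := ⟨Nat.prime_two⟩
  obtain ⟨P, hP⟩ := (C.stwo a).exists_le_sylow
  have h1 := (P.isPGroup').card_modEq_card_fixedPoints Ω
  have h2 := C.odd
  have h3 : Nat.card (fixedPoints P Ω) ≠ 0 := by
    intro h
    rw [h, Nat.modEq_zero_iff_dvd, ← even_iff_two_dvd] at h1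
    exact (Nat.not_even_iff_odd.mpr h2) h1
  haveI := (Nat.card_pos_iff.mp (Nat.pos_of_ne_zero h3)).1
  obtain ⟨c, hc⟩ := Classical.arbitrary (fixedPoints P Ω)
  have h4 : (P : Subgroup G) ≤ S c := by
    intro x hx
    exact C.mem_of_pow P.isPGroup' hx (hc ⟨x, hx⟩)
  obtain ⟨g, rfl⟩ := C.transG a c
  have h5 : Nat.card (S (g • a)) = Nat.card (S a) := by
    symm
    apply Nat.card_congr
    refine ⟨fun t => ⟨g * t * g⁻¹, C.sconj t.2 g⟩, fun t => ⟨g⁻¹ * t * g, C.sconj' t.2⟩, ?_, ?_⟩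
    · intro t; apply Subtype.ext; show g⁻¹ * (g * (t : G) * g⁻¹) * g = t; group
    · intro t; apply Subtype.ext; show g * (g⁻¹ * (t : G) * g) * g⁻¹ = t; group
  have h6 : S a = (P : Subgroup G) := by
    apply Subgroup.eq_of_le_of_card_ge hP
    rw [← h5]
    exact Subgroup.card_le_of_le h4
  rw [h6]
  have h7 := P.not_dvd_index
  rwa [← Nat.not_even_iff_odd, even_iff_two_dvd]

/-- the contradiction: a subgroup of index two -/
theorem exists_index_two [Finite G] [Finite Ω] (hne : Nonempty Ω) : ∃ M : Subgroup G, M.Normal ∧ M.index = 2 := by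
  classical
  obtain ⟨a⟩ := hne
  obtain ⟨b, hba, -⟩ := C.three a a
  have hab : a ≠ b := hba.symm
  obtain ⟨t, ht, htt, ht1⟩ := C.hT a b hab
  have htZ : t ∉ Z3 C a b := fun h => ht1 (C.Z3_T hab h ht)
  have hZS : Z3 C a b ≤ S a := fun x hx => hx.1.1
  -- a maximal subgroup containing `Z3` and not `t`
  obtain ⟨R, ⟨hZR, hRS, htR⟩, hmax⟩ : ∃ R : Subgroup G, (Z3 C a b ≤ R ∧ R ≤ S a ∧ t ∉ R) ∧
      ∀ R' : Subgroup G, (Z3 C a b ≤ R' ∧ R' ≤ S a ∧ t ∉ R') → R ≤ R' → R' ≤ R := by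
    have h1 : ({R : Subgroup G | Z3 C a b ≤ R ∧ R ≤ S a ∧ t ∉ R}).Finite := Set.toFinite _
    obtain ⟨R, hR⟩ := h1.exists_maximal ⟨Z3 C a b, le_rfl, hZS, htZ⟩
    exact ⟨R, hR.1, fun R' h2 h3 => hR.2 h2 h3⟩
  have hcomm : ∀ g ∈ S a, ∀ h ∈ S a, g * h * g⁻¹ * h⁻¹ ∈ Z3 C a b := by
    intro g hg h hh
    have h1 := C.S_sq' hab ((S a).mul_mem hg hh)
    have h2 := (Z3 C a b).inv_mem (C.S_sq' hab hg)
    have h3 := (Z3 C a b).inv_mem (C.S_sq' hab hh)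
    have h4 := C.Z3_conj ((S a).inv_mem hh) h2
    have h5 := (Z3 C a b).mul_mem ((Z3 C a b).mul_mem h1 h4) h3
    have h6 : g * h * (g * h) * (h⁻¹ * (g * g)⁻¹ * h⁻¹⁻¹) * (h * h)⁻¹ = g * h * g⁻¹ * h⁻¹ := by group
    rwa [h6] at h5
  have hRn : ∀ g ∈ S a, ∀ r ∈ R, g * r * g⁻¹ ∈ R := by
    intro g hg r hr
    have := R.mul_mem (hZR (hcomm g hg r (hRS hr))) hr
    rwa [inv_mul_cancel_right] at this
  have hcov : ∀ g ∈ S a, g ∉ R → g⁻¹ * t ∈ R := by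
    intro g hg hgR
    have hgg : g * g ∈ R := hZR (C.S_sq' hab hg)
    let R' : Subgroup G :=
      { carrier := {x | x ∈ R ∨ g⁻¹ * x ∈ R}
        mul_mem' := by
          rintro x y (hx | hx) (hy | hy)
          · left; exact R.mul_mem hx hy
          · right
            have h1 := hRn g⁻¹ ((S a).inv_mem hg) x hx
            have h2 := R.mul_mem h1 hy
            have h3 : g⁻¹ * x * g⁻¹⁻¹ * (g⁻¹ * y) = g⁻¹ * (x * y) := by group
            rwa [h3] at h2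
          · right
            have h2 := R.mul_mem hx hy
            rwa [mul_assoc] at h2
          · left
            have h1 := hRn g hg _ hx
            have h2 := R.mul_mem (R.mul_mem h1 hgg) hy
            have h3 : g * (g⁻¹ * x) * g⁻¹ * (g * g) * (g⁻¹ * y) = x * y := by group
            rwa [h3] at h2
        one_mem' := Or.inl R.one_mem
        inv_mem' := by
          rintro x (hx | hx)
          · left; exact R.inv_mem hx
          · right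
            have h1 := hRn g hg _ (R.inv_mem hx)
            have h2 := R.mul_mem (R.inv_mem hgg) h1
            have h3 : (g * g)⁻¹ * (g * (g⁻¹ * x)⁻¹ * g⁻¹) = g⁻¹ * x⁻¹ := by group
            rwa [h3] at h2 }
    by_contra hcon
    have h1 := hmax R' ⟨fun x hx => Or.inl (hZR hx), ?_, ?_⟩ (fun x hx => Or.inl hx)
    · apply hgR
      apply h1
      right
      rw [inv_mul_cancel]; exact R.one_mem
    · rintro x (hx | hx)
      · exact hRS hx
      · have := (S a).mul_mem hg (hRS hx)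
        rwa [mul_inv_cancel_left] at this
    · rintro (h | h)
      · exact htR h
      · exact hcon h
  have hidx : R.relIndex (S a) = 2 := by
    rw [Subgroup.relIndex, Subgroup.index_eq_two_iff]
    refine ⟨⟨t, ht.1⟩, fun x => ?_⟩
    rw [Subgroup.mem_subgroupOf, Subgroup.mem_subgroupOf]
    show Xor ((x : G) * t ∈ R) ((x : G) ∈ R)
    by_cases hx : (x : G) ∈ R
    · right
      refine ⟨hx, fun h => htR ?_⟩
      have := R.mul_mem (R.inv_mem hx) h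
      rwa [inv_mul_cancel_left] at this
    · left
      refine ⟨?_, hx⟩
      have h1 := hcov (x : G)⁻¹ ((S a).inv_mem x.2) (fun h => hx (by
        have := R.inv_mem h
        rwa [inv_inv] at this))
      rwa [inv_inv] at h1
  obtain ⟨M, hM1, hM2, -⟩ := H3.ThompsonTransfer.exists_index_two (S a) R hRS (C.index_odd a) hidx t
    (by rw [pow_two]; exact htt) (by
      intro g hgR
      have hS := hRS hgR
      have hv1 : g * t * g⁻¹ ≠ 1 := by
        intro h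
        apply ht1
        calc t = g⁻¹ * (g * t * g⁻¹) * g := by group
          _ = 1 := by rw [h]; group
      obtain ⟨c, hac, hvc⟩ : ∃ c, a ≠ c ∧ (g * t * g⁻¹) • c = c := by
        have h1 : ∀ d : Ω, t • d = d → (g * t * g⁻¹) • (g • d) = g • d := by
          intro d hd
          rw [mul_smul, mul_smul, inv_smul_smul, hd]
        by_cases h : g • a = a
        · refine ⟨g • b, fun h2 => hab ?_, h1 b (C.sfix b t ht.2)⟩
          exact smul_left_cancel g (h.trans h2)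
        · exact ⟨g • a, fun h2 => h h2.symm, h1 a (C.sfix a t ht.1)⟩
      obtain ⟨x, hx, hxc⟩ := C.trS hba hac.symm
      have hvT : x⁻¹ * (g * t * g⁻¹) * x ∈ S a ⊓ S b := by
        rw [C.memT]
        refine ⟨(S a).mul_mem ((S a).mul_mem ((S a).inv_mem hx) hS) hx, ?_⟩
        rw [mul_smul, mul_smul, hxc, hvc, ← hxc, inv_smul_smul]
      have hvT1 : x⁻¹ * (g * t * g⁻¹) * x ≠ 1 := by
        intro h
        apply hv1
        calc g * t * g⁻¹ = x * (x⁻¹ * (g * t * g⁻¹) * x) * x⁻¹ := by group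
          _ = 1 := by rw [h]; group
      have h2 := C.T_unique hab ht ht1 hvT hvT1
      have h3 : g * t * g⁻¹ = x * t * x⁻¹ := by
        calc g * t * g⁻¹ = x * (x⁻¹ * (g * t * g⁻¹) * x) * x⁻¹ := by group
          _ = x * t * x⁻¹ := by rw [← h2]
      rw [h3] at hgR
      apply htR
      have h4 := R.mul_mem (R.inv_mem (hZR (C.S_T hab hx ht))) hgR
      have h5 : (x * t * x⁻¹ * t⁻¹)⁻¹ * (x * t * x⁻¹) = t := by group
      rwa [h5] at h4)
  exact ⟨M, hM1, hM2⟩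

end Hyp

end

end H16.SB
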