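import Mathlib
import Cfsg.Agent.Lib.H16.SB6
import Cfsg.Agent.Lib.H16.BSSimple
import Cfsg.Agent.Lib.H5.ZStar
import Cfsg.Agent.Lib.H30.Nil2
import Cfsg.Agent.Lib.H12.CarterSys

/-!
# Split BN pairs of rank one in odd degree (S0349), part 7: the abstract theorem
-/

set_option autoImplicit false
set_option linter.unusedVariables false

namespace H16.SB

open H57.Bd H16.BD MulAction

universe u

section

variable {G Ω : Type u} [Group G] [MulAction G Ω] {S O : Ω → Subgroup G} (C : Ctx G Ω S O)

namespace Ctx

include C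

theorem not_comm_all [Finite G] {a : Ω} {z : G} (hz : z ∈ Az S a) (hz1 : z ≠ 1) : ¬ ∀ g : G, g * z * g⁻¹ = z := by
  intro h
  apply hz1
  apply C.faith
  intro c
  obtain ⟨g, rfl⟩ := C.transG a c
  have h1 : z * g = g * z := by
    calc z * g = g * z * g⁻¹ * g := by rw [h g]
      _ = g * z := by group
  rw [← mul_smul, h1, mul_smul, C.sfix a z hz.1]

/-- `q > 2` by the `Z^*`-theorem -/
theorem two_lt [Finite G] [IsSimpleGroup G] (a : Ω) : 2 < Nat.card (Az S a) := by
  classical
  obtain ⟨z, hz, hz1⟩ := C.ane a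
  by_contra hlt
  have hall : ∀ w ∈ Az S a, w ≠ 1 → w = z := by
    intro w hw hw1
    by_contra hne
    have h1 : Nat.card ({1, z, w} : Set G) = 3 := by
      rw [Nat.card_coe_set_eq, Set.ncard_eq_toFinset_card']
      have : ({1, z, w} : Set G).toFinset = {1, z, w} := by ext; simp
      rw [this, Finset.card_insert_of_notMem, Finset.card_insert_of_notMem, Finset.card_singleton]
      · simpa using fun h => hne h.symm
      · simp only [Finset.mem_insert, Finset.mem_singleton, not_or]
        exact ⟨fun h => hz1 h.symm, fun h => hw1 h.symm⟩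
    have h2 : ({1, z, w} : Set G) ⊆ (Az S a : Set G) := by
      rintro x (rfl | rfl | rfl)
      · exact (Az S a).one_mem
      · exact hz
      · exact hw
    have h3 : Nat.card ({1, z, w} : Set G) ≤ Nat.card (Az S a : Set G) := Nat.card_mono (Set.toFinite _) h2
    rw [h1] at h3
    have h4 : Nat.card (Az S a : Set G) = Nat.card (Az S a) := rfl
    omega
  have hiso : H5.ZStar1.IsoInv z := by
    refine ⟨order_two hz.2.1 hz1, fun g => ?_⟩
    have h1 := C.aconj hz g
    have h2 : g * z * g⁻¹ ≠ 1 := by
      intro h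
      apply hz1
      calc z = g⁻¹ * (g * z * g⁻¹) * g := by group
        _ = 1 := by rw [h]; group
    by_cases h : a = g • a
    · rw [← h] at h1
      rw [hall _ h1 h2, hz.2.1, orderOf_one]
      exact _root_.odd_one
    · exact C.odd_mul h hz hz1 h1 h2
  have h1 := H5.ZStar.zstar hiso
  rcases (inferInstance : (Cfsg.pPrimeCore 2 G).Normal).eq_bot_or_eq_top with h | h
  · apply C.not_comm_all hz hz1
    intro g
    have h2 := h1 g
    rw [h, Subgroup.mem_bot] at h2
    have h3 : z⁻¹ = z := inv_eq_of_mul_eq_one_left hz.2.1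
    calc g * z * g⁻¹ = z⁻¹ * (z * (g * z * g⁻¹)) := by group
      _ = z := by rw [h2, mul_one, h3]
  · have h2 := H1.Cores.coprime_card_pPrimeCore (G := G) 2
    rw [h, Subgroup.card_top] at h2
    have h3 : 2 ∣ Nat.card G := by rw [← order_two hz.2.1 hz1]; exact orderOf_dvd_natCard z
    have h4 := Nat.Coprime.eq_one_of_dvd h2.symm h3
    omega

theorem exists_invol [Finite G] {T : Subgroup G} (hT : IsPGroup 2 T) (h : T ≠ ⊥) : ∃ u ∈ T, u * u = 1 ∧ u ≠ 1 := by
  haveI : Fact (Nat.Prime 2) := ⟨Nat.prime_two⟩
  obtain ⟨n, hn⟩ := IsPGroup.iff_card.mp hT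
  have h1 : n ≠ 0 := by
    intro h0
    rw [h0, pow_zero, Subgroup.card_eq_one] at hn
    exact h hn
  obtain ⟨z, hz⟩ := exists_prime_orderOf_dvd_card' (G := T) 2 (by rw [hn]; exact dvd_pow_self 2 h1)
  rw [← Subgroup.orderOf_coe] at hz
  exact ⟨z, z.2, sq_one_of_order hz, ne_one_of_order hz⟩

/-- the main theorem of this file -/
theorem T_trivial (main : BenderThm.{u, u}) [Finite G] [IsSimpleGroup G] [Finite Ω] {a b : Ω} (hab : a ≠ b) :
    S a ⊓ S b = ⊥ := by
  by_contra hne
  have hq : ∀ c : Ω, Nat.card (Az S c) = Nat.card (Az S a) := fun c => C.card_Az' c a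
  have H : Hyp G Ω S O (Nat.card (Az S a)) :=
    { C with
      hq := hq
      h4 := C.two_lt a
      hT := by
        intro c d hcd
        apply C.exists_invol (C.T_two c d)
        intro h
        apply hne
        rw [← Subgroup.card_eq_one, C.card_T hab hcd, h, Subgroup.card_bot]
      hO := fun c y hy => C.o_trivial main (hq c) (C.two_lt a) hy }
  obtain ⟨M, hM1, hM2⟩ := H.exists_index_two ⟨a⟩
  rcases hM1.eq_bot_or_eq_top with h | h
  · rw [h, Subgroup.index_bot] at hM2
    obtain ⟨c, hc1, hc2⟩ := C.three a b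
    have h1 : Nat.card ({a, b, c} : Set Ω) = 3 := by
      classical
      haveI := Fintype.ofFinite Ω
      rw [Nat.card_coe_set_eq, Set.ncard_eq_toFinset_card']
      have : ({a, b, c} : Set Ω).toFinset = {a, b, c} := by ext; simp
      rw [this, Finset.card_insert_of_notMem, Finset.card_insert_of_notMem, Finset.card_singleton]
      · simpa using fun h => hc2 h.symm
      · simp only [Finset.mem_insert, Finset.mem_singleton, not_or]
        exact ⟨hab, fun h => hc1 h.symm⟩
    have h2 : Nat.card Ω ≤ Nat.card G := by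
      apply Nat.card_le_card_of_surjective (fun g : G => g • a)
      exact fun c => C.transG a c
    have h3 : Nat.card ({a, b, c} : Set Ω) ≤ Nat.card Ω := Finite.card_subtype_le _
    omega
  · rw [h, Subgroup.index_top] at hM2
    omega

/-- conclusion -/
theorem concl (main : BenderThm.{u, u}) (main1 : H16.BSSimple.RankOneThm.{u, u}) [Finite G] [IsSimpleGroup G] [Finite Ω]
    (a : Ω) : H16.BS.Concl G := by
  haveI : FaithfulSMul G Ω := ⟨fun {g h} hgh => by
    have h1 := C.faith (h⁻¹ * g) (fun x => by rw [mul_smul, hgh x, inv_smul_smul])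
    exact (inv_mul_eq_one.mp h1).symm⟩
  obtain ⟨b, hba, -⟩ := C.three a a
  have hab : a ≠ b := hba.symm
  obtain ⟨x, hx, hx1⟩ := C.ane a
  obtain ⟨y, hy, hy1⟩ := C.ane b
  obtain ⟨t, ht, -⟩ := C.m_surj hab hx hx1 hy hy1
  have htb : t • a = b := ht.2.2
  have hT := C.T_trivial main hab
  have hO : ∀ c, ∀ y ∈ O c, y = 1 := fun c y hy => C.o_trivial main (C.card_Az' c a) (C.two_lt a) hy
  have hS : Cfsg.IsRankOneSetup G Ω a t (S a) :=
    { two_transitive := by
        rw [MulAction.is_two_pretransitive_iff]
        intro a b c d hab hcd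
        exact C.two_trans hab hcd
      mul_self := M_sq ht
      ne_one := ht.2.1
      not_mem := by
        rw [MulAction.mem_stabilizer_iff, htb]; exact hba
      le := fun g hg => C.sfix a g hg
      conj_mem := by
        intro h hh x hx
        have := C.sconj hx h
        rwa [MulAction.mem_stabilizer_iff.mp hh] at this
      inf_eq_bot := by
        rw [htb, eq_bot_iff]
        rintro g ⟨hg1, hg2⟩
        rw [← hT]
        exact ⟨hg1, C.mem_of_pow (C.stwo a) hg1 hg2⟩
      sup_eq := by
        rw [htb]
        apply le_antisymm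
        · exact sup_le (fun g hg => C.sfix a g hg) inf_le_left
        · intro g hg
          have hga : g • a = a := hg
          have h1 : g • b ≠ a := by
            intro h
            exact hab (smul_left_cancel g (h.trans hga.symm)).symm
          obtain ⟨s, hs, o, ho, h2⟩ := C.trans a b (g • b) hba h1
          rw [hO a o ho, mul_one] at h2
          have h3 : g = s * (s⁻¹ * g) := by group
          rw [h3]
          apply Subgroup.mul_mem_sup hs
          refine ⟨?_, ?_⟩
          · show (s⁻¹ * g) • a = a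
            rw [mul_smul, hga, inv_smul_eq_iff, C.sfix a s hs]
          · show (s⁻¹ * g) • b = b
            rw [mul_smul, ← h2, inv_smul_smul]
      even_card := by
        have h1 : orderOf (⟨x, hx.1⟩ : S a) = 2 := by
          rw [← Subgroup.orderOf_coe]; exact order_two hx.2.1 hx1
        rw [even_iff_two_dvd, ← h1]
        exact orderOf_dvd_natCard _
      odd_card := by
        rw [htb, ← Nat.not_even_iff_odd]
        intro h
        obtain ⟨v, hv⟩ := exists_prime_orderOf_dvd_card'
          (G := (MulAction.stabilizer G a ⊓ MulAction.stabilizer G b : Subgroup G)) 2 (even_iff_two_dvd.1 h)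
        rw [← Subgroup.orderOf_coe] at hv
        have h1 : (v : G) ∈ S a ⊓ S b :=
          ⟨C.smem2 (sq_one_of_order hv) v.2.1, C.smem2 (sq_one_of_order hv) v.2.2⟩
        rw [hT, Subgroup.mem_bot] at h1
        exact ne_one_of_order hv h1 }
  obtain ⟨w, hw, hw1, hwx⟩ := C.exists_ne (a := a) rfl (C.two_lt a) (r := x)
  exact H16.BSSimple.simple_of_setup main1 hS ⟨x, w, hx1, hw1, fun h => hwx h.symm, hx.2.1, hw.2.1, hw.2.2 x hx.1⟩

end Ctx

end

end H16.SB
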