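import Mathlib
import Cfsg.Agent.Lib.H16.SB7
import Cfsg.Prelude.Def_LieExceptional

/-!
# Split BN pairs of rank one in odd degree (S0349), part 8: from the BN pair to the permutation group
-/

set_option autoImplicit false
set_option linter.unusedVariables false

namespace H16.SB

open H57.Bd H16.BD MulAction

universe u

section

variable {G : Type u} [Group G] {B : Subgroup G}

/-- the conjugate of `H0` attached to a coset -/
noncomputable def cj (B H0 : Subgroup G) (a : G ⧸ B) : Subgroup G where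
  carrier := {x | a.out⁻¹ * x * a.out ∈ H0}
  mul_mem' := by
    intro x y hx hy
    have := H0.mul_mem hx hy
    have h : a.out⁻¹ * x * a.out * (a.out⁻¹ * y * a.out) = a.out⁻¹ * (x * y) * a.out := by group
    rwa [h] at this
  one_mem' := by
    show a.out⁻¹ * 1 * a.out ∈ H0
    have : a.out⁻¹ * 1 * a.out = 1 := by group
    rw [this]; exact H0.one_mem
  inv_mem' := by
    intro x hx
    have := H0.inv_mem hx
    have h : (a.out⁻¹ * x * a.out)⁻¹ = a.out⁻¹ * x⁻¹ * a.out := by group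
    rwa [h] at this

theorem mem_cj {H0 : Subgroup G} (hn : ∀ b ∈ B, ∀ x ∈ H0, b * x * b⁻¹ ∈ H0) (g x : G) :
    x ∈ cj B H0 (QuotientGroup.mk g : G ⧸ B) ↔ g⁻¹ * x * g ∈ H0 := by
  obtain ⟨h, hh⟩ := QuotientGroup.mk_out_eq_mul B g
  show (QuotientGroup.mk g : G ⧸ B).out⁻¹ * x * (QuotientGroup.mk g : G ⧸ B).out ∈ H0 ↔ _
  rw [hh]
  have h1 : (g * h)⁻¹ * x * (g * h) = (h : G)⁻¹ * (g⁻¹ * x * g) * (h : G)⁻¹⁻¹ := by group
  rw [h1]
  constructor
  · intro h2
    have h3 := hn (h : G) h.2 _ h2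
    have h4 : (h : G) * ((h : G)⁻¹ * (g⁻¹ * x * g) * (h : G)⁻¹⁻¹) * (h : G)⁻¹ = g⁻¹ * x * g := by group
    rwa [h4] at h3
  · intro h2
    exact hn _ (B.inv_mem h.2) _ h2

theorem card_cj [Finite G] {H0 : Subgroup G} (a : G ⧸ B) : Nat.card (cj B H0 a) = Nat.card H0 := by
  apply Nat.card_congr
  refine ⟨fun x => ⟨a.out⁻¹ * x * a.out, x.2⟩, fun x => ⟨a.out * x * a.out⁻¹, ?_⟩, ?_, ?_⟩
  · show a.out⁻¹ * (a.out * (x : G) * a.out⁻¹) * a.out ∈ H0
    have : a.out⁻¹ * (a.out * (x : G) * a.out⁻¹) * a.out = x := by group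
    rw [this]; exact x.2
  · intro x; apply Subtype.ext; show a.out * (a.out⁻¹ * (x : G) * a.out) * a.out⁻¹ = x; group
  · intro x; apply Subtype.ext; show a.out⁻¹ * (a.out * (x : G) * a.out⁻¹) * a.out = x; group

theorem smul_mk (g h : G) : g • (QuotientGroup.mk h : G ⧸ B) = QuotientGroup.mk (g * h) := rfl

theorem smul_mk_eq {g h : G} : g • (QuotientGroup.mk h : G ⧸ B) = QuotientGroup.mk h ↔ h⁻¹ * g * h ∈ B := by
  rw [smul_mk, eq_comm, QuotientGroup.eq, mul_assoc]

/-- the double coset decomposition in rank one -/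
theorem bruhat (P : Cfsg.BNPair G) {w : G} (hS : P.S = {w}) (g : G) :
    g ∈ P.B ∨ ∃ b ∈ P.B, ∃ b' ∈ P.B, g = b * w * b' := by
  have hwS : w ∈ P.S := by rw [hS]; rfl
  have hwN : w ∈ P.N := P.subset hwS
  have hww := P.sq_mem w hwS
  -- left multiplication by `w`
  have hw : ∀ g, (g ∈ P.B ∨ ∃ b ∈ P.B, ∃ b' ∈ P.B, g = b * w * b') →
      (w * g ∈ P.B ∨ ∃ b ∈ P.B, ∃ b' ∈ P.B, w * g = b * w * b') := by
    rintro g (hg | ⟨b, hb, b', hb', rfl⟩)
    · right; exact ⟨1, P.B.one_mem, g, hg, by rw [one_mul]⟩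
    · have h1 := P.mul_mem_union w hwS w hwN b hb
      rcases h1 with h1 | h1
      · rw [DoubleCoset.mem_doubleCoset] at h1
        obtain ⟨x, hx, y, hy, h2⟩ := h1
        left
        have h3 : w * (b * w * b') = x * (w * w) * y * b' := by
          calc w * (b * w * b') = (w * b * w) * b' := by group
            _ = _ := by rw [h2]
        rw [h3]
        exact P.B.mul_mem (P.B.mul_mem (P.B.mul_mem hx hww) hy) hb'
      · rw [DoubleCoset.mem_doubleCoset] at h1
        obtain ⟨x, hx, y, hy, h2⟩ := h1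
        right
        refine ⟨x, hx, y * b', P.B.mul_mem hy hb', ?_⟩
        calc w * (b * w * b') = (w * b * w) * b' := by group
          _ = x * w * (y * b') := by rw [h2]; group
  have hb : ∀ x ∈ P.B, ∀ g, (g ∈ P.B ∨ ∃ b ∈ P.B, ∃ b' ∈ P.B, g = b * w * b') →
      (x * g ∈ P.B ∨ ∃ b ∈ P.B, ∃ b' ∈ P.B, x * g = b * w * b') := by
    rintro x hx g (hg | ⟨b, hb, b', hb', rfl⟩)
    · left; exact P.B.mul_mem hx hg
    · right; exact ⟨x * b, P.B.mul_mem hx hb, b', hb', by group⟩
  have hwi : ∀ g, (g ∈ P.B ∨ ∃ b ∈ P.B, ∃ b' ∈ P.B, g = b * w * b') →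
      (w⁻¹ * g ∈ P.B ∨ ∃ b ∈ P.B, ∃ b' ∈ P.B, w⁻¹ * g = b * w * b') := by
    intro g hg
    have h1 := hw _ (hb _ (P.B.inv_mem hww) g hg)
    have h2 : w * ((w * w)⁻¹ * g) = w⁻¹ * g := by group
    rwa [h2] at h1
  -- induction over the generators
  have hgen : (⊤ : Subgroup G) = Subgroup.closure ((P.B : Set G) ∪ {w}) := by
    rw [Subgroup.closure_union, Subgroup.closure_eq]
    apply le_antisymm _ le_top
    rw [← P.sup_eq_top, ← P.closure_sup, hS]
    apply sup_le le_sup_left
    apply sup_le le_sup_right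
    exact inf_le_left.trans le_sup_left
  have hall : ∀ x ∈ Subgroup.closure ((P.B : Set G) ∪ {w}), ∀ g, (g ∈ P.B ∨ ∃ b ∈ P.B, ∃ b' ∈ P.B, g = b * w * b') →
      (x * g ∈ P.B ∨ ∃ b ∈ P.B, ∃ b' ∈ P.B, x * g = b * w * b') ∧
      (x⁻¹ * g ∈ P.B ∨ ∃ b ∈ P.B, ∃ b' ∈ P.B, x⁻¹ * g = b * w * b') := by
    intro x hx
    induction hx using Subgroup.closure_induction with
    | mem x hx =>
      intro g hg
      rcases hx with hx | hx
      · exact ⟨hb x hx g hg, hb _ (P.B.inv_mem hx) g hg⟩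
      · rw [Set.mem_singleton_iff] at hx
        rw [hx]
        exact ⟨hw g hg, hwi g hg⟩
    | one => intro g hg; rw [inv_one, one_mul]; exact ⟨hg, hg⟩
    | mul x y _ _ hx hy =>
      intro g hg
      refine ⟨?_, ?_⟩
      · rw [mul_assoc]; exact (hx _ (hy g hg).1).1
      · rw [mul_inv_rev, mul_assoc]; exact (hy _ (hx g hg).2).2
    | inv x _ hx =>
      intro g hg
      rw [inv_inv]
      exact ⟨(hx g hg).2, (hx g hg).1⟩
  have h1 := (hall g (hgen ▸ Subgroup.mem_top g) 1 (Or.inl P.B.one_mem)).1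
  rwa [mul_one] at h1

/-- S0349 modulo Bender's theorem -/
theorem s0349 (main : BenderThm.{u, u}) (main1 : H16.BSSimple.RankOneThm.{u, u}) [Finite G] [IsSimpleGroup G]
    (P : Cfsg.BNPair G) (hrank : P.rank = 1) (U : Subgroup G) (hUB : U ≤ P.B)
    (hUn : (U.subgroupOf P.B).Normal) (hUnil : Group.IsNilpotent U) (hsplit : U ⊔ (P.B ⊓ P.N) = P.B)
    (hdisj : U ⊓ P.N = ⊥) (hind : Odd P.B.index) (hH : Odd (Nat.card ↥(P.B ⊓ P.N))) : H16.BS.Concl G := by
  classical
  haveI : Fact (Nat.Prime 2) := ⟨Nat.prime_two⟩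
  obtain ⟨w, hS⟩ : ∃ w, P.S = {w} := by
    have h1 : P.S.ncard = 1 := hrank
    exact Set.ncard_eq_one.mp h1
  have hwS : w ∈ P.S := by rw [hS]; rfl
  have hwN : w ∈ P.N := P.subset hwS
  have hww := P.sq_mem w hwS
  have hwB : w ∉ P.B := by
    intro h
    apply P.conj_ne w hwS
    ext x
    constructor
    · rintro ⟨b, hb, rfl⟩
      exact P.B.mul_mem (P.B.mul_mem h hb) h
    · intro hx
      exact ⟨w⁻¹ * x * w⁻¹, P.B.mul_mem (P.B.mul_mem (P.B.inv_mem h) hx) (P.B.inv_mem h), by group⟩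
  have hUconj : ∀ b ∈ P.B, ∀ x ∈ U, b * x * b⁻¹ ∈ U := by
    intro b hb x hx
    have := hUn.conj_mem ⟨x, hUB hx⟩ (Subgroup.mem_subgroupOf.mpr hx) ⟨b, hb⟩
    exact Subgroup.mem_subgroupOf.mp this
  have hBdec : ∀ b ∈ P.B, ∃ x ∈ U, ∃ h ∈ P.B ⊓ P.N, b = x * h := by
    let K' : Subgroup G :=
      { carrier := {b | ∃ x ∈ U, ∃ h ∈ P.B ⊓ P.N, b = x * h}
        mul_mem' := by
          rintro _ _ ⟨x, hx, h, hh, rfl⟩ ⟨x', hx', h', hh', rfl⟩
          refine ⟨x * (h * x' * h⁻¹), U.mul_mem hx (hUconj h hh.1 x' hx'), h * h', (P.B ⊓ P.N).mul_mem hh hh', by group⟩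
        one_mem' := ⟨1, U.one_mem, 1, (P.B ⊓ P.N).one_mem, by rw [one_mul]⟩
        inv_mem' := by
          rintro _ ⟨x, hx, h, hh, rfl⟩
          refine ⟨h⁻¹ * x⁻¹ * h⁻¹⁻¹, hUconj h⁻¹ (P.B.inv_mem hh.1) _ (U.inv_mem hx), h⁻¹, (P.B ⊓ P.N).inv_mem hh, by group⟩ }
    have h1 : U ⊔ (P.B ⊓ P.N) ≤ K' := by
      apply sup_le
      · intro x hx; exact ⟨x, hx, 1, (P.B ⊓ P.N).one_mem, by rw [mul_one]⟩
      · intro h hh; exact ⟨1, U.one_mem, h, hh, by rw [one_mul]⟩
    intro b hb
    rw [← hsplit] at hb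
    exact h1 hb
  -- the two parts of `U`
  let S0 : Subgroup G := (Cfsg.pCore 2 U).map U.subtype
  let O0 : Subgroup G := (Cfsg.pPrimeCore 2 U).map U.subtype
  have hS0U : S0 ≤ U := Subgroup.map_subtype_le _
  have hO0U : O0 ≤ U := Subgroup.map_subtype_le _
  have hS0two : IsPGroup 2 S0 := (H1.Cores.isPGroup_pCore (G := U) 2).map _
  have hO0card : (Nat.card O0).Coprime 2 := by
    have h1 := H1.Cores.coprime_card_pPrimeCore (G := U) 2
    have h2 : Nat.card O0 = Nat.card (Cfsg.pPrimeCore 2 U) :=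
      (Nat.card_congr ((Cfsg.pPrimeCore 2 U).equivMapOfInjective U.subtype U.subtype_injective).toEquiv).symm
    rwa [h2]
  have hO0odd : Odd (Nat.card O0) := by
    rwa [Nat.coprime_two_right] at hO0card
  have hSO : ∀ x ∈ S0, x ∈ O0 → x = 1 := by
    intro x h1 h2
    have h3 := H1.Cores.disjoint_of_isPGroup hS0two (hO0card)
    have h4 : x ∈ S0 ⊓ O0 := ⟨h1, h2⟩
    rw [h3] at h4
    exact Subgroup.mem_bot.mp h4
  have hUdec : ∀ x ∈ U, ∃ s ∈ S0, ∃ o ∈ O0, x = s * o := by
    intro x hx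
    haveI := hUnil
    have h1 := H30.Nil2.pCore_sup_pPrimeCore_eq_top (G := U) 2
    have h2 : (⟨x, hx⟩ : U) ∈ Cfsg.pCore 2 U ⊔ Cfsg.pPrimeCore 2 U := by rw [h1]; trivial
    haveI : (Cfsg.pPrimeCore 2 U).Normal := inferInstance
    obtain ⟨s, hs, o, ho, h3⟩ := Subgroup.mem_sup_of_normal_right.mp h2
    exact ⟨s, ⟨s, hs, rfl⟩, o, ⟨o, ho, rfl⟩, (congrArg Subtype.val h3).symm⟩
  have hSnorm : ∀ x ∈ U, ∀ s ∈ S0, x * s * x⁻¹ ∈ S0 := by
    rintro x hx _ ⟨s, hs, rfl⟩
    haveI : (Cfsg.pCore 2 U).Normal := H1.Cores.pCore_normal 2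
    exact ⟨⟨x, hx⟩ * s * ⟨x, hx⟩⁻¹, this.conj_mem s hs ⟨x, hx⟩, rfl⟩
  have hOnorm : ∀ x ∈ U, ∀ s ∈ O0, x * s * x⁻¹ ∈ O0 := by
    rintro x hx _ ⟨s, hs, rfl⟩
    exact ⟨⟨x, hx⟩ * s * ⟨x, hx⟩⁻¹, (inferInstance : (Cfsg.pPrimeCore 2 U).Normal).conj_mem s hs ⟨x, hx⟩, rfl⟩
  have hcomm : ∀ s ∈ S0, ∀ o ∈ O0, s * o = o * s := by
    intro s hs o ho
    have h1 : s * o * s⁻¹ * o⁻¹ = 1 := by
      apply hSO
      · have h2 := S0.mul_mem hs (hSnorm o (hO0U ho) s⁻¹ (S0.inv_mem hs))
        have h3 : s * (o * s⁻¹ * o⁻¹) = s * o * s⁻¹ * o⁻¹ := by group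
        rwa [h3] at h2
      · exact O0.mul_mem (hOnorm s (hS0U hs) o ho) (O0.inv_mem ho)
    calc s * o = (s * o * s⁻¹ * o⁻¹) * (o * s) := by group
      _ = o * s := by rw [h1, one_mul]
  have hoddtwo : ∀ o ∈ O0, (∃ k : ℕ, o ^ 2 ^ k = 1) → o = 1 := by
    rintro o ho ⟨k, hk⟩
    have h1 : orderOf o ∣ 2 ^ k := orderOf_dvd_of_pow_eq_one hk
    have h2 : orderOf o ∣ Nat.card O0 := by
      have := orderOf_dvd_natCard (⟨o, ho⟩ : O0)
      rwa [← Subgroup.orderOf_coe] at this
    rw [← orderOf_eq_one_iff]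
    exact Nat.eq_one_of_dvd_coprimes (Nat.Coprime.pow_right k hO0card) h2 h1
  -- 2-elements of `B` are in `S0`
  have htwoB : ∀ x ∈ P.B, (∃ k : ℕ, x ^ 2 ^ k = 1) → x ∈ S0 := by
    rintro x hx ⟨k, hk⟩
    -- `x ∈ U`
    have hxU : x ∈ U := by
      set m := Nat.card ↥(P.B ⊓ P.N) with hm
      have hpow : ∀ j : ℕ, ∀ b ∈ P.B, ∀ h ∈ P.B ⊓ P.N, (∃ y ∈ U, b = y * h) → ∃ y ∈ U, b ^ j = y * h ^ j := by
        intro j b hb h hh ⟨y, hy, hby⟩
        induction j with
        | zero => exact ⟨1, U.one_mem, by simp⟩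
        | succ j ih =>
          obtain ⟨z, hz, h1⟩ := ih
          refine ⟨z * (h ^ j * y * (h ^ j)⁻¹), U.mul_mem hz (hUconj _ (P.B.pow_mem hh.1 j) y hy), ?_⟩
          rw [pow_succ, h1, hby, pow_succ]; group
      obtain ⟨y, hy, h, hh, h1⟩ := hBdec x hx
      obtain ⟨z, hz, h2⟩ := hpow m x hx h hh ⟨y, hy, h1⟩
      have h3 : h ^ m = 1 := by
        have := pow_card_eq_one' (x := (⟨h, hh⟩ : ↥(P.B ⊓ P.N)))
        exact congrArg Subtype.val this
      rw [h3, mul_one] at h2
      have h4 : x ^ m ∈ U := by rw [h2]; exact hz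
      have hcop : m.Coprime (2 ^ k) := Nat.Coprime.pow_right k (Nat.coprime_two_right.mpr hH)
      have h5 := Nat.gcd_eq_gcd_ab m (2 ^ k)
      rw [hcop] at h5
      have h6 : x = (x ^ m) ^ (Nat.gcdA m (2 ^ k)) := by
        have : x ^ ((1 : ℕ) : ℤ) = x ^ ((m : ℤ) * Nat.gcdA m (2 ^ k) + ((2 ^ k : ℕ) : ℤ) * Nat.gcdB m (2 ^ k)) := by
          rw [← h5]
        rw [zpow_add, zpow_mul, zpow_mul, zpow_natCast, zpow_natCast, zpow_natCast, hk, one_zpow, mul_one,
          pow_one] at this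
        exact this
      rw [h6]
      exact U.zpow_mem h4 _
    obtain ⟨s, hs, o, ho, h1⟩ := hUdec x hxU
    have h2 := hcomm s hs o ho
    have ho1 : o = 1 := by
      apply hoddtwo o ho
      obtain ⟨j, hj⟩ := hS0two ⟨s, hs⟩
      have hj' : s ^ 2 ^ j = 1 := congrArg Subtype.val hj
      refine ⟨k + j, ?_⟩
      have h3 : x ^ 2 ^ (k + j) = 1 := by rw [pow_add, pow_mul, hk, one_pow]
      have h4 : s ^ 2 ^ (k + j) = 1 := by rw [pow_add, mul_comm, pow_mul, hj', one_pow]
      rw [h1, Commute.mul_pow h2, h4, one_mul] at h3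
      exact h3
    rw [h1, ho1, mul_one]; exact hs
  have hS0conj : ∀ b ∈ P.B, ∀ x ∈ S0, b * x * b⁻¹ ∈ S0 := by
    intro b hb x hx
    apply htwoB _ (P.B.mul_mem (P.B.mul_mem hb (hUB (hS0U hx))) (P.B.inv_mem hb))
    obtain ⟨j, hj⟩ := hS0two ⟨x, hx⟩
    have hj' : x ^ 2 ^ j = 1 := congrArg Subtype.val hj
    exact ⟨j, by rw [conj_pow, hj']; group⟩
  have hO0conj : ∀ b ∈ P.B, ∀ x ∈ O0, b * x * b⁻¹ ∈ O0 := by
    intro b hb x hx
    have h1 := hUconj b hb x (hO0U hx)
    haveI := hUnil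
    refine ⟨⟨b * x * b⁻¹, h1⟩, ?_, rfl⟩
    apply H12.CarterSys.mem_pPrimeCore
    rw [← Subgroup.orderOf_coe]
    show (orderOf (b * x * b⁻¹)).Coprime 2
    have h2 : orderOf (b * x * b⁻¹) = orderOf x := by
      have := (MulAut.conj b).orderOf_eq x
      simpa using this
    rw [h2]
    apply Nat.Coprime.coprime_dvd_left _ hO0card
    have := orderOf_dvd_natCard (⟨x, hx⟩ : O0)
    rwa [← Subgroup.orderOf_coe] at this
  -- transitivity of `U`
  have hHw : ∀ h ∈ P.B ⊓ P.N, w⁻¹ * h * w ∈ P.B := by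
    intro h hh
    have := P.conj_mem w⁻¹ (P.N.inv_mem hwN) h hh
    rwa [inv_inv] at this
  have hreach : ∀ g : G, g ∉ P.B → ∃ x ∈ U, (QuotientGroup.mk g : G ⧸ P.B) = QuotientGroup.mk (x * w) := by
    intro g hg
    rcases bruhat P hS g with h | ⟨b, hb, b', hb', rfl⟩
    · exact absurd h hg
    · obtain ⟨x, hx, h, hh, h1⟩ := hBdec b hb
      refine ⟨x, hx, ?_⟩
      rw [eq_comm, QuotientGroup.eq]
      have h2 : (x * w)⁻¹ * (b * w * b') = (w⁻¹ * h * w) * b' := by rw [h1]; group
      rw [h2]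
      exact P.B.mul_mem (hHw h hh) hb'
  have hodd : Odd (Nat.card (G ⧸ P.B)) := hind
  have hBtop : P.B ≠ ⊤ := fun h => hwB (by rw [h]; trivial)
  have C : Ctx G (G ⧸ P.B) (cj P.B S0) (cj P.B O0) :=
    { sfix := by
        intro a g hg
        induction a using QuotientGroup.induction_on with
        | H h =>
          rw [mem_cj hS0conj] at hg
          rw [smul_mk_eq]
          exact hUB (hS0U hg)
      smem := by
        intro a g hga hk
        induction a using QuotientGroup.induction_on with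
        | H h =>
          rw [mem_cj hS0conj]
          rw [smul_mk_eq] at hga
          apply htwoB _ hga
          obtain ⟨k, hk⟩ := hk
          refine ⟨k, ?_⟩
          have h1 : h⁻¹ * g * h = h⁻¹ * g * h⁻¹⁻¹ := by rw [inv_inv]
          rw [h1, conj_pow, hk]; group
      stwo := by
        intro a
        rw [IsPGroup.iff_card]
        obtain ⟨n, hn⟩ := IsPGroup.iff_card.mp hS0two
        exact ⟨n, by rw [card_cj, hn]⟩
      ofix := by
        intro a g hg
        induction a using QuotientGroup.induction_on with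
        | H h =>
          rw [mem_cj hO0conj] at hg
          rw [smul_mk_eq]
          exact hUB (hO0U hg)
      oodd := by
        intro a
        rw [card_cj]; exact hO0odd
      oconj := by
        intro a g x hx
        induction a using QuotientGroup.induction_on with
        | H h =>
          rw [smul_mk, mem_cj hO0conj]
          rw [mem_cj hO0conj] at hx
          have h1 : (g * h)⁻¹ * (g * x * g⁻¹) * (g * h) = h⁻¹ * x * h := by group
          rw [h1]; exact hx
      comm := by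
        intro a x hx y hy
        induction a using QuotientGroup.induction_on with
        | H h =>
          rw [mem_cj hS0conj] at hx
          rw [mem_cj hO0conj] at hy
          have h1 := hcomm _ hx _ hy
          calc x * y = h * ((h⁻¹ * x * h) * (h⁻¹ * y * h)) * h⁻¹ := by group
            _ = y * x := by rw [h1]; group
      trans := by
        intro a b c hba hca
        induction a using QuotientGroup.induction_on with
        | H h =>
          induction b using QuotientGroup.induction_on with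
          | H b =>
            induction c using QuotientGroup.induction_on with
            | H c =>
              have hb : h⁻¹ * b ∉ P.B := fun h1 => hba (QuotientGroup.eq.mpr h1).symm
              have hc : h⁻¹ * c ∉ P.B := fun h1 => hca (QuotientGroup.eq.mpr h1).symm
              obtain ⟨x, hx, h1⟩ := hreach _ hb
              obtain ⟨y, hy, h2⟩ := hreach _ hc
              obtain ⟨s, hs, o, ho, h3⟩ := hUdec (y * x⁻¹) (U.mul_mem hy (U.inv_mem hx))
              refine ⟨h * s * h⁻¹, ?_, h * o * h⁻¹, ?_, ?_⟩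
              · rw [mem_cj hS0conj]
                have : h⁻¹ * (h * s * h⁻¹) * h = s := by group
                rw [this]; exact hs
              · rw [mem_cj hO0conj]
                have : h⁻¹ * (h * o * h⁻¹) * h = o := by group
                rw [this]; exact ho
              · have h4 : (h * s * h⁻¹ * (h * o * h⁻¹)) • (QuotientGroup.mk b : G ⧸ P.B) =
                    h • ((s * o) • (QuotientGroup.mk (h⁻¹ * b) : G ⧸ P.B)) := by
                  rw [smul_mk, smul_mk, smul_mk]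
                  congr 1
                  group
                rw [h4, ← h3, h1, smul_mk]
                have h5 : y * x⁻¹ * (x * w) = y * w := by group
                rw [h5, ← h2, smul_mk, mul_inv_cancel_left]
      faith := by
        intro g hg
        have h1 : g ∈ P.B.normalCore := by
          intro h
          have := smul_mk_eq.mp (hg (QuotientGroup.mk h⁻¹))
          rwa [inv_inv] at this
        rcases (inferInstance : P.B.normalCore.Normal).eq_bot_or_eq_top with h2 | h2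
        · rw [h2] at h1
          exact Subgroup.mem_bot.mp h1
        · exfalso
          apply hBtop
          rw [eq_top_iff, ← h2]
          exact Subgroup.normalCore_le _
      three := by
        intro a b
        by_contra hcon
        push Not at hcon
        have h1 : Nat.card (G ⧸ P.B) ≤ Nat.card ({a, b} : Set (G ⧸ P.B)) := by
          have h2 : (Set.univ : Set (G ⧸ P.B)) ⊆ {a, b} := by
            intro c _
            by_cases h : c = a
            · left; exact h
            · right; exact hcon c h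
          have h3 := Nat.card_mono (Set.toFinite _) h2
          rwa [Nat.card_congr (Equiv.Set.univ _)] at h3
        have h2 : Nat.card ({a, b} : Set (G ⧸ P.B)) ≤ 2 := by
          rw [Nat.card_coe_set_eq]
          exact Set.ncard_insert_le _ _ |>.trans (by rw [Set.ncard_singleton])
        have h3 : Nat.card (G ⧸ P.B) ≠ 1 := by
          intro h
          apply hBtop
          rw [← Subgroup.index_eq_one]
          exact h
        obtain ⟨j, hj⟩ := hodd
        omega
      odd := hodd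
      sne := by
        intro a
        by_contra hcon
        push Not at hcon
        -- then `G` has odd order
        have h1 : Nat.card (cj P.B S0 a) = 1 := by
          rw [Subgroup.card_eq_one, Subgroup.eq_bot_iff_forall]
          exact hcon
        rw [card_cj, Subgroup.card_eq_one] at h1
        have hBodd : Odd (Nat.card P.B) := by
          rw [← Nat.not_even_iff_odd]
          intro h
          obtain ⟨v, hv⟩ := exists_prime_orderOf_dvd_card' (G := P.B) 2 (even_iff_two_dvd.1 h)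
          rw [← Subgroup.orderOf_coe] at hv
          have h2 := htwoB (v : G) v.2 ⟨1, by rw [pow_one, pow_two]; exact sq_one_of_order hv⟩
          rw [h1, Subgroup.mem_bot] at h2
          exact ne_one_of_order hv h2
        have hGodd : Odd (Nat.card G) := by
          rw [← P.B.card_mul_index]
          exact hBodd.mul hind
        apply hwB
        obtain ⟨j, hj⟩ := hGodd
        have h3 : w = (w * w) ^ (j + 1) := by
          have h4 : w ^ Nat.card G = 1 := pow_card_eq_one'
          rw [← pow_two, ← pow_mul, show 2 * (j + 1) = (2 * j + 1) + 1 by ring, pow_succ, ← hj, h4, one_mul]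
        rw [h3]
        exact P.B.pow_mem hww _ }
  exact C.concl main main1 (QuotientGroup.mk 1)

end

end H16.SB
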