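import Mathlib
import Cfsg.Prelude.Def_ClassicalGeometry
import Cfsg.Agent.Lib.H16.Parab
import Cfsg.Agent.Lib.H16.Symp
import Cfsg.Agent.Lib.H16.SpGeom
import Cfsg.Agent.Lib.H16.Forms

set_option autoImplicit false

/-! The stabiliser of a nondegenerate subspace in the symplectic group. -/

namespace H16.SpNondeg

open Matrix Cfsg H16.Symp Module H16.Parab

variable {F : Type*} [Field F]

theorem form_std (k : ℕ) (x y : Fin k ⊕ Fin k) :
    sympForm k F (Pi.single x 1) (Pi.single y 1) =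
      match x, y with
      | Sum.inl _, Sum.inl _ => 0
      | Sum.inr _, Sum.inr _ => 0
      | Sum.inl i, Sum.inr j => if i = j then -1 else 0
      | Sum.inr i, Sum.inl j => if i = j then 1 else 0 := by
  rcases y with j | j
  · rw [sympForm_single_inl]
    rcases x with i | i
    · simp
    · simp [Pi.single_apply, eq_comm]
  · rw [sympForm_single_inr]
    rcases x with i | i
    · by_cases h : i = j
      · subst h; simp
      · rw [Pi.single_eq_of_ne (by simpa using Ne.symm h)]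
        simp [h]
    · simp

theorem exists_isom {m : ℕ} (U : Submodule F (Fin m ⊕ Fin m → F)) (k : ℕ) (hk : finrank F U = 2 * k)
    (hU : ∀ u ∈ U, (∀ v ∈ U, sympForm m F u v = 0) → u = 0) :
    ∃ φ : (Fin k ⊕ Fin k → F) ≃ₗ[F] U, ∀ x y, sympForm m F (φ x) (φ y) = sympForm k F x y := by
  classical
  let B : LinearMap.BilinForm F U := -((sympBilin m F).restrict U)
  have hB : ∀ u v : U, B u v = - sympForm m F u v := fun u v => rfl
  have hA : B.IsAlt := by
    intro u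
    rw [hB, sympForm_self, neg_zero]
  obtain ⟨k', r, b, h1, h2, h3, h4⟩ := H16.Forms.exists_symplectic_basis B hA
  have hr : r = 0 := by
    rcases Nat.eq_zero_or_pos r with h | h
    · exact h
    · exfalso
      have h5 := h4 ⟨0, h⟩
      have h6 : b (Sum.inr ⟨0, h⟩) = 0 := by
        apply Subtype.ext
        apply hU _ (b (Sum.inr ⟨0, h⟩)).2
        intro v hv
        have := h5 ⟨v, hv⟩
        rw [hB, neg_eq_zero] at this
        exact this
      exact b.ne_zero _ h6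
  subst hr
  let b' : Basis (Fin k' ⊕ Fin k') F U := b.reindex (Equiv.sumEmpty _ _)
  have hb' : ∀ x, b' x = b (Sum.inl x) := fun x => by
    change (b.reindex (Equiv.sumEmpty _ _)) x = _
    rw [Basis.reindex_apply]; rfl
  have hkk : k' = k := by
    have := finrank_eq_card_basis b'
    rw [hk, Fintype.card_sum, Fintype.card_fin] at this
    omega
  subst hkk
  refine ⟨b'.equivFun.symm, ?_⟩
  have hform : ∀ x y, sympForm m F (b' x) (b' y) = sympForm k' F (Pi.single x 1) (Pi.single y 1) := by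
    intro x y
    rw [form_std, hb', hb']
    rcases x with i | i <;> rcases y with j | j
    · have := h2 i j
      rw [hB, neg_eq_zero] at this
      exact this
    · have := h1 i j
      rw [hB] at this
      simp only
      rw [← neg_neg (sympForm m F _ _), this]
      split_ifs <;> simp
    · have := h1 j i
      rw [hB] at this
      simp only
      rw [sympForm_swap, this]
      simp [eq_comm]
    · have := h3 i j
      rw [hB, neg_eq_zero] at this
      exact this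
  let B1 : LinearMap.BilinForm F (Fin k' ⊕ Fin k' → F) := (sympBilin m F).compl₁₂
    (U.subtype.comp b'.equivFun.symm.toLinearMap) (U.subtype.comp b'.equivFun.symm.toLinearMap)
  have hB1 : B1 = sympBilin k' F := by
    apply (Pi.basisFun F (Fin k' ⊕ Fin k')).ext
    intro x
    apply (Pi.basisFun F (Fin k' ⊕ Fin k')).ext
    intro y
    rw [Pi.basisFun_apply, Pi.basisFun_apply]
    change sympForm m F (b'.equivFun.symm (Pi.single x 1)) (b'.equivFun.symm (Pi.single y 1)) = _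
    have e : ∀ z, b'.equivFun.symm (Pi.single z 1) = b' z := by
      intro z
      rw [LinearEquiv.symm_apply_eq]
      funext w
      rw [Basis.equivFun_self]
      simp [Pi.single_apply, eq_comm]
    rw [e, e]
    exact hform x y
  intro x y
  exact congrArg (fun B : LinearMap.BilinForm F (Fin k' ⊕ Fin k' → F) => B x y) hB1

theorem exists_L {m k : ℕ} (hk : k ≤ m) (W : Submodule F (Fin m ⊕ Fin m → F)) (hWk : finrank F W = 2 * k)
    (hW : ∀ u ∈ W, (∀ v ∈ W, sympForm m F u v = 0) → u = 0) :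
    ∃ L : ((Fin k ⊕ Fin k → F) × (Fin (m - k) ⊕ Fin (m - k) → F)) ≃ₗ[F] (Fin m ⊕ Fin m → F),
      (∀ p p', sympForm m F (L p) (L p') = sympForm k F p.1 p'.1 + sympForm (m - k) F p.2 p'.2) ∧
      (∀ v, v ∈ W ↔ ∃ x, L (x, 0) = v) := by
  classical
  let P := (sympBilin m F).orthogonal W
  have hP : ∀ v, v ∈ P ↔ ∀ w ∈ W, sympForm m F w v = 0 := fun v => LinearMap.BilinForm.mem_orthogonal_iff
  have hPf : finrank F P = 2 * (m - k) := by
    rw [LinearMap.BilinForm.finrank_orthogonal sympBilin_nondegenerate, hWk, finrank_fintype_fun_eq_card]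
    simp only [Fintype.card_sum, Fintype.card_fin]
    omega
  have hdisj : Disjoint W P := by
    rw [Submodule.disjoint_def]
    intro v hv hvP
    apply hW v hv
    intro w hw
    rw [sympForm_swap, (hP v).mp hvP w hw, neg_zero]
  have hcompl : IsCompl W P := by
    refine ⟨hdisj, ?_⟩
    rw [codisjoint_iff]
    apply Submodule.eq_top_of_finrank_eq
    have h1 := Submodule.finrank_sup_add_finrank_inf_eq W P
    rw [hdisj.eq_bot, finrank_bot, add_zero, hWk, hPf] at h1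
    rw [h1, finrank_fintype_fun_eq_card]
    simp only [Fintype.card_sum, Fintype.card_fin]
    omega
  have hPn : ∀ u ∈ P, (∀ v ∈ P, sympForm m F u v = 0) → u = 0 := by
    intro u hu h
    apply eq_zero_of_forall_sympForm_right
    intro v
    have hv : v ∈ W ⊔ P := by rw [hcompl.sup_eq_top]; trivial
    obtain ⟨w, hw, p, hp, rfl⟩ := Submodule.mem_sup.mp hv
    rw [sympForm_add_right, h p hp, add_zero, sympForm_swap, (hP u).mp hu w hw, neg_zero]
  obtain ⟨φ, hφ⟩ := exists_isom W k hWk hW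
  obtain ⟨ψ, hψ⟩ := exists_isom P (m - k) hPf hPn
  refine ⟨(φ.prodCongr ψ).trans (Submodule.prodEquivOfIsCompl W P hcompl), ?_, ?_⟩
  · rintro ⟨x, y⟩ ⟨x', y'⟩
    change sympForm m F ((φ x : Fin m ⊕ Fin m → F) + ψ y) ((φ x' : Fin m ⊕ Fin m → F) + ψ y') = _
    rw [sympForm_add_left, sympForm_add_right, sympForm_add_right, hφ, hψ, (hP _).mp (ψ y').2 _ (φ x).2,
      sympForm_swap (ψ y : Fin m ⊕ Fin m → F) (φ x'), (hP _).mp (ψ y).2 _ (φ x').2]
    simp
  · intro v
    constructor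
    · intro hv
      refine ⟨φ.symm ⟨v, hv⟩, ?_⟩
      change (φ (φ.symm ⟨v, hv⟩) : Fin m ⊕ Fin m → F) + ψ 0 = v
      rw [LinearEquiv.apply_symm_apply, map_zero]
      simp
    · rintro ⟨x, rfl⟩
      change (φ x : Fin m ⊕ Fin m → F) + ψ 0 ∈ W
      rw [map_zero]
      simp

variable {m k l : ℕ} (L : ((Fin k ⊕ Fin k → F) × (Fin l ⊕ Fin l → F)) ≃ₗ[F] (Fin m ⊕ Fin m → F))

/-- the linear map attached to a pair of matrices -/
noncomputable def glue (M : Matrix (Fin k ⊕ Fin k) (Fin k ⊕ Fin k) F) (N : Matrix (Fin l ⊕ Fin l) (Fin l ⊕ Fin l) F) :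
    Matrix (Fin m ⊕ Fin m) (Fin m ⊕ Fin m) F :=
  LinearMap.toMatrix' (L.toLinearMap ∘ₗ ((Matrix.mulVecLin M).prodMap (Matrix.mulVecLin N)) ∘ₗ L.symm.toLinearMap)

theorem glue_mulVec (M : Matrix (Fin k ⊕ Fin k) (Fin k ⊕ Fin k) F) (N : Matrix (Fin l ⊕ Fin l) (Fin l ⊕ Fin l) F)
    (p : (Fin k ⊕ Fin k → F) × (Fin l ⊕ Fin l → F)) : glue L M N *ᵥ (L p) = L (M *ᵥ p.1, N *ᵥ p.2) := by
  rw [glue, LinearMap.toMatrix'_mulVec]
  simp

theorem glue_mul (M M' : Matrix (Fin k ⊕ Fin k) (Fin k ⊕ Fin k) F) (N N' : Matrix (Fin l ⊕ Fin l) (Fin l ⊕ Fin l) F) :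
    glue L (M * M') (N * N') = glue L M N * glue L M' N' := by
  apply mulVec_ext
  intro v
  obtain ⟨p, rfl⟩ := L.surjective v
  rw [← Matrix.mulVec_mulVec, glue_mulVec, glue_mulVec, glue_mulVec, Matrix.mulVec_mulVec, Matrix.mulVec_mulVec]

theorem glue_one : glue L 1 1 = 1 := by
  apply mulVec_ext
  intro v
  obtain ⟨p, rfl⟩ := L.surjective v
  rw [glue_mulVec, Matrix.one_mulVec, Matrix.one_mulVec, Matrix.one_mulVec]

theorem stab_iso (W : Submodule F (Fin m ⊕ Fin m → F))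
    (hL : ∀ p p', sympForm m F (L p) (L p') = sympForm k F p.1 p'.1 + sympForm l F p.2 p'.2)
    (hLW : ∀ v, v ∈ W ↔ ∃ x, L (x, 0) = v) :
    Nonempty (↥(stabilizing (spToMat m F) (W : Set (Fin m ⊕ Fin m → F))) ≃* symplecticGroup (Fin k) F × symplecticGroup (Fin l) F) := by
  classical
  let Φ : symplecticGroup (Fin k) F × symplecticGroup (Fin l) F →* symplecticGroup (Fin m) F :=
    { toFun := fun p => ⟨glue L p.1 p.2, by
        rw [mem_symplecticGroup_iff]
        intro u v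
        obtain ⟨a, rfl⟩ := L.surjective u
        obtain ⟨b, rfl⟩ := L.surjective v
        rw [glue_mulVec, glue_mulVec, hL, hL, (mem_symplecticGroup_iff _).mp p.1.2, (mem_symplecticGroup_iff _).mp p.2.2]⟩
      map_one' := Subtype.ext (glue_one L)
      map_mul' := fun p p' => Subtype.ext (glue_mul L _ _ _ _) }
  have hΦ : ∀ (p : symplecticGroup (Fin k) F × symplecticGroup (Fin l) F) (x : (Fin k ⊕ Fin k → F) × (Fin l ⊕ Fin l → F)),
      (Φ p : Matrix (Fin m ⊕ Fin m) (Fin m ⊕ Fin m) F) *ᵥ L x = L ((p.1 : Matrix (Fin k ⊕ Fin k) (Fin k ⊕ Fin k) F) *ᵥ x.1, (p.2 : Matrix (Fin l ⊕ Fin l) (Fin l ⊕ Fin l) F) *ᵥ x.2) :=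
    fun p x => glue_mulVec L _ _ x
  have hinj : Function.Injective Φ := by
    intro p p' h
    have h1 : ∀ x : (Fin k ⊕ Fin k → F) × (Fin l ⊕ Fin l → F), (((p.1 : Matrix (Fin k ⊕ Fin k) (Fin k ⊕ Fin k) F) *ᵥ x.1, (p.2 : Matrix (Fin l ⊕ Fin l) (Fin l ⊕ Fin l) F) *ᵥ x.2) : (Fin k ⊕ Fin k → F) × (Fin l ⊕ Fin l → F)) =
        ((p'.1 : Matrix (Fin k ⊕ Fin k) (Fin k ⊕ Fin k) F) *ᵥ x.1, (p'.2 : Matrix (Fin l ⊕ Fin l) (Fin l ⊕ Fin l) F) *ᵥ x.2) := by
      intro x
      apply L.injective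
      rw [← hΦ, ← hΦ, h]
    refine Prod.ext (Subtype.ext (mulVec_ext fun x => ?_)) (Subtype.ext (mulVec_ext fun y => ?_))
    · exact congrArg Prod.fst (h1 (x, 0))
    · exact congrArg Prod.snd (h1 (0, y))
  have hrange : Φ.range = stabilizing (spToMat m F) (W : Set (Fin m ⊕ Fin m → F)) := by
    ext A
    constructor
    · rintro ⟨p, rfl⟩
      rw [mem_stab_iff]
      intro v hv
      obtain ⟨x, rfl⟩ := (hLW v).mp hv
      change (Φ p : Matrix (Fin m ⊕ Fin m) (Fin m ⊕ Fin m) F) *ᵥ L (x, 0) ∈ W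
      rw [hΦ, hLW]
      exact ⟨(p.1 : Matrix (Fin k ⊕ Fin k) (Fin k ⊕ Fin k) F) *ᵥ x, by rw [Matrix.mulVec_zero]⟩
    · intro hA
      have hA' : ∀ v, v ∈ W ↔ (A : Matrix (Fin m ⊕ Fin m) (Fin m ⊕ Fin m) F) *ᵥ v ∈ W := hA
      have hpres := (mem_symplecticGroup_iff _).mp A.2
      have h1 : ∀ x, ∃ y, (A : Matrix (Fin m ⊕ Fin m) (Fin m ⊕ Fin m) F) *ᵥ L (x, 0) = L (y, 0) := by
        intro x
        obtain ⟨y, hy⟩ := (hLW _).mp ((hA' _).mp ((hLW (L (x, 0))).mpr ⟨x, rfl⟩))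
        exact ⟨y, hy.symm⟩
      have h1' : ∀ y, ∃ x, (A : Matrix (Fin m ⊕ Fin m) (Fin m ⊕ Fin m) F) *ᵥ L (x, 0) = L (y, 0) := by
        intro y
        have h2 : (A : Matrix (Fin m ⊕ Fin m) (Fin m ⊕ Fin m) F) *ᵥ (((A⁻¹ : symplecticGroup (Fin m) F) : Matrix (Fin m ⊕ Fin m) (Fin m ⊕ Fin m) F) *ᵥ L (y, 0)) = L (y, 0) := by
          rw [Matrix.mulVec_mulVec, ← Submonoid.coe_mul, mul_inv_cancel]
          exact Matrix.one_mulVec _
        have h3 : ((A⁻¹ : symplecticGroup (Fin m) F) : Matrix (Fin m ⊕ Fin m) (Fin m ⊕ Fin m) F) *ᵥ L (y, 0) ∈ W := by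
          rw [hA', h2, hLW]
          exact ⟨y, rfl⟩
        obtain ⟨x, hx⟩ := (hLW _).mp h3
        exact ⟨x, by rw [hx, h2]⟩
      have h2 : ∀ y, ∃ z, (A : Matrix (Fin m ⊕ Fin m) (Fin m ⊕ Fin m) F) *ᵥ L (0, y) = L (0, z) := by
        intro y
        obtain ⟨⟨a, b⟩, hab⟩ := L.surjective ((A : Matrix (Fin m ⊕ Fin m) (Fin m ⊕ Fin m) F) *ᵥ L (0, y))
        refine ⟨b, ?_⟩
        have ha : a = 0 := by
          apply eq_zero_of_forall_sympForm_right
          intro x'
          obtain ⟨x, hx⟩ := h1' x'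
          have h3 := hpres (L (0, y)) (L (x, 0))
          rw [← hab, hx, hL, hL] at h3
          simpa [sympForm_zero_left, sympForm_zero_right] using h3
        rw [← hab, ha]
      -- extract matrices
      let g1 : (Fin k ⊕ Fin k → F) →ₗ[F] (Fin k ⊕ Fin k → F) :=
        LinearMap.fst F _ _ ∘ₗ L.symm.toLinearMap ∘ₗ (Matrix.mulVecLin (A : Matrix (Fin m ⊕ Fin m) (Fin m ⊕ Fin m) F)) ∘ₗ L.toLinearMap ∘ₗ LinearMap.inl F _ _
      let g2 : (Fin l ⊕ Fin l → F) →ₗ[F] (Fin l ⊕ Fin l → F) :=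
        LinearMap.snd F _ _ ∘ₗ L.symm.toLinearMap ∘ₗ (Matrix.mulVecLin (A : Matrix (Fin m ⊕ Fin m) (Fin m ⊕ Fin m) F)) ∘ₗ L.toLinearMap ∘ₗ LinearMap.inr F _ _
      have hg1 : ∀ x, (A : Matrix (Fin m ⊕ Fin m) (Fin m ⊕ Fin m) F) *ᵥ L (x, 0) = L (g1 x, 0) := by
        intro x
        obtain ⟨y, hy⟩ := h1 x
        have : g1 x = y := by
          change (L.symm ((A : Matrix (Fin m ⊕ Fin m) (Fin m ⊕ Fin m) F) *ᵥ L (x, 0))).1 = y
          rw [hy, LinearEquiv.symm_apply_apply]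
        rw [this, hy]
      have hg2 : ∀ y, (A : Matrix (Fin m ⊕ Fin m) (Fin m ⊕ Fin m) F) *ᵥ L (0, y) = L (0, g2 y) := by
        intro x
        obtain ⟨y, hy⟩ := h2 x
        have : g2 x = y := by
          change (L.symm ((A : Matrix (Fin m ⊕ Fin m) (Fin m ⊕ Fin m) F) *ᵥ L (0, x))).2 = y
          rw [hy, LinearEquiv.symm_apply_apply]
        rw [this, hy]
      obtain ⟨A1, hA1⟩ := H16.SpGeom.exists_mat g1 (fun u v => by
        have h3 := hpres (L (u, 0)) (L (v, 0))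
        rw [hg1, hg1, hL, hL] at h3
        simpa [sympForm_zero_left] using h3)
      obtain ⟨A2, hA2⟩ := H16.SpGeom.exists_mat g2 (fun u v => by
        have h3 := hpres (L (0, u)) (L (0, v))
        rw [hg2, hg2, hL, hL] at h3
        simpa [sympForm_zero_left] using h3)
      refine ⟨(A1, A2), ?_⟩
      apply Subtype.ext
      apply mulVec_ext
      intro v
      obtain ⟨⟨x, y⟩, rfl⟩ := L.surjective v
      rw [hΦ, hA1, hA2]
      have h3 : L (x, y) = L (x, 0) + L (0, y) := by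
        rw [← map_add]; simp
      rw [h3, Matrix.mulVec_add, hg1, hg2, ← map_add]
      simp
  rw [← hrange]
  exact ⟨(MonoidHom.ofInjective hinj).symm⟩

end H16.SpNondeg
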