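import Mathlib
import Cfsg.Prelude.Def_ClassicalGeometry
import Cfsg.Agent.Lib.H16.Parab
import Cfsg.Agent.Lib.H16.Symp
import Cfsg.Agent.Lib.H16.SpGeom

set_option autoImplicit false

/-! The normaliser of the diagonal torus of Sp_2m(q). -/

namespace H16.SpTorus

open Matrix Cfsg H16.Symp Module H16.Parab

variable {F : Type*} [Field F] {m : ℕ}

/-- basis vector -/
abbrev bv (F : Type*) [Field F] {m : ℕ} (x : Fin m ⊕ Fin m) : Fin m ⊕ Fin m → F := Pi.single x 1

theorem bv_same (x : Fin m ⊕ Fin m) : bv F x x = 1 := Pi.single_eq_same _ _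

theorem bv_ne {x y : Fin m ⊕ Fin m} (h : y ≠ x) : bv F x y = 0 := Pi.single_eq_of_ne h _

theorem form_bv_swap_inl (i : Fin m) : sympForm m F (bv F (Sum.inl i)) (bv F (Sum.inr i)) = -1 := by
  rw [sympForm_single_inr]; simp

theorem form_bv_swap_inr (i : Fin m) : sympForm m F (bv F (Sum.inr i)) (bv F (Sum.inl i)) = 1 := by
  rw [sympForm_single_inl]; simp

theorem form_bv_ne (x y : Fin m ⊕ Fin m) (h : y ≠ x.swap) : sympForm m F (bv F x) (bv F y) = 0 := by
  rcases y with j | j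
  · rw [sympForm_single_inl, bv, Pi.single_eq_of_ne]
    intro h2
    apply h
    rw [← h2]; rfl
  · rw [sympForm_single_inr, bv, Pi.single_eq_of_ne, neg_zero]
    intro h2
    apply h
    rw [← h2]; rfl

theorem form_bv_swap_ne (x : Fin m ⊕ Fin m) : sympForm m F (bv F x) (bv F x.swap) ≠ 0 := by
  rcases x with i | i
  · rw [Sum.swap_inl, form_bv_swap_inl]; exact neg_ne_zero.mpr one_ne_zero
  · rw [Sum.swap_inr, form_bv_swap_inr]; exact one_ne_zero

/-- a linear criterion for being symplectic, on the basis -/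
theorem mem_sp_of_basis (A : Matrix (Fin m ⊕ Fin m) (Fin m ⊕ Fin m) F)
    (h : ∀ x y, sympForm m F (A *ᵥ bv F x) (A *ᵥ bv F y) = sympForm m F (bv F x) (bv F y)) :
    A ∈ symplecticGroup (Fin m) F := by
  rw [mem_symplecticGroup_iff]
  let B1 : LinearMap.BilinForm F (Fin m ⊕ Fin m → F) := (sympBilin m F).compl₁₂ (Matrix.mulVecLin A) (Matrix.mulVecLin A)
  have : B1 = sympBilin m F := by
    apply (Pi.basisFun F (Fin m ⊕ Fin m)).ext
    intro x
    apply (Pi.basisFun F (Fin m ⊕ Fin m)).ext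
    intro y
    rw [Pi.basisFun_apply, Pi.basisFun_apply]
    exact h x y
  intro u v
  exact congrArg (fun B : LinearMap.BilinForm F (Fin m ⊕ Fin m → F) => B u v) this

theorem mat_ext_bv {A B : Matrix (Fin m ⊕ Fin m) (Fin m ⊕ Fin m) F} (h : ∀ x, A *ᵥ bv F x = B *ᵥ bv F x) : A = B := by
  ext i j
  have := congrFun (h j) i
  simpa using this

/-- signed permutation of the index set -/
def sg (σ : Equiv.Perm (Fin m)) (ε : Fin m → Bool) : Fin m ⊕ Fin m → Fin m ⊕ Fin m
  | Sum.inl i => if ε i then Sum.inr (σ i) else Sum.inl (σ i)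
  | Sum.inr i => if ε i then Sum.inl (σ i) else Sum.inr (σ i)

theorem sg_swap (σ : Equiv.Perm (Fin m)) (ε : Fin m → Bool) (x : Fin m ⊕ Fin m) :
    sg σ ε x.swap = (sg σ ε x).swap := by
  rcases x with i | i
  · by_cases h : ε i <;> simp [sg, h]
  · by_cases h : ε i <;> simp [sg, h]

/-- index of a basis element -/
def idx : Fin m ⊕ Fin m → Fin m := Sum.elim id id

theorem idx_sg (σ : Equiv.Perm (Fin m)) (ε : Fin m → Bool) (x : Fin m ⊕ Fin m) :
    idx (sg σ ε x) = σ (idx x) := by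
  rcases x with i | i
  · by_cases h : ε i <;> simp [sg, h, idx]
  · by_cases h : ε i <;> simp [sg, h, idx]

theorem eq_or_swap_of_idx {x y : Fin m ⊕ Fin m} (h : idx x = idx y) : x = y ∨ x = y.swap := by
  rcases x with i | i <;> rcases y with j | j <;> simp_all [idx]

theorem swap_ne (x : Fin m ⊕ Fin m) : x.swap ≠ x := by
  rcases x with i | i <;> simp

theorem sg_injective (σ : Equiv.Perm (Fin m)) (ε : Fin m → Bool) : Function.Injective (sg σ ε) := by
  intro x y h
  have h1 : idx x = idx y := by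
    have := congrArg idx h
    rw [idx_sg, idx_sg] at this
    exact σ.injective this
  rcases eq_or_swap_of_idx h1 with h2 | h2
  · exact h2
  · rw [h2, sg_swap] at h
    exact absurd h (swap_ne _)

theorem sg_bijective (σ : Equiv.Perm (Fin m)) (ε : Fin m → Bool) : Function.Bijective (sg σ ε) :=
  Finite.injective_iff_bijective.mp (sg_injective σ ε)

/-- coefficients -/
def cf (ε : Fin m → Bool) (t : Fin m → Fˣ) : Fin m ⊕ Fin m → F
  | Sum.inl i => t i
  | Sum.inr i => if ε i then -((t i)⁻¹ : Fˣ) else ((t i)⁻¹ : Fˣ)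

theorem cf_ne (ε : Fin m → Bool) (t : Fin m → Fˣ) (x : Fin m ⊕ Fin m) : cf ε t x ≠ 0 := by
  rcases x with i | i
  · exact (t i).ne_zero
  · by_cases h : ε i
    · simp [cf, h]
    · simp [cf, h]

def mono (σ : Equiv.Perm (Fin m)) (ε : Fin m → Bool) (t : Fin m → Fˣ) : Matrix (Fin m ⊕ Fin m) (Fin m ⊕ Fin m) F :=
  Matrix.of fun y x => if y = sg σ ε x then cf ε t x else 0

theorem mono_bv (σ : Equiv.Perm (Fin m)) (ε : Fin m → Bool) (t : Fin m → Fˣ) (x : Fin m ⊕ Fin m) :
    mono σ ε t *ᵥ bv F x = cf ε t x • bv F (sg σ ε x) := by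
  funext y
  simp [mono, Pi.single_apply]

theorem mono_mem (σ : Equiv.Perm (Fin m)) (ε : Fin m → Bool) (t : Fin m → Fˣ) :
    mono σ ε t ∈ symplecticGroup (Fin m) F := by
  apply mem_sp_of_basis
  intro x y
  rw [mono_bv, mono_bv, sympForm_smul_left, sympForm_smul_right]
  by_cases h : y = x.swap
  · subst h
    rw [sg_swap]
    rcases x with i | i
    · by_cases h : ε i
      · simp only [cf, sg, h, if_true, Sum.swap_inl, Sum.swap_inr]
        rw [form_bv_swap_inl, form_bv_swap_inr]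
        simp
      · simp only [cf, sg, h, Sum.swap_inl]
        rw [if_neg (by simp), if_neg (by simp), Sum.swap_inl, form_bv_swap_inl, form_bv_swap_inl]
        simp
    · by_cases h : ε i
      · simp only [cf, sg, h, if_true, Sum.swap_inl, Sum.swap_inr]
        rw [form_bv_swap_inl, form_bv_swap_inr]
        simp
      · simp only [cf, sg, h, Sum.swap_inr]
        rw [if_neg (by simp), if_neg (by simp), Sum.swap_inr, form_bv_swap_inr, form_bv_swap_inr]
        simp
  · rw [form_bv_ne x y h, form_bv_ne]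
    · simp
    · intro h2
      apply h
      rw [← sg_swap] at h2
      exact sg_injective σ ε h2

/-- the torus -/
abbrev T (F : Type*) [Field F] (m : ℕ) : Subgroup (symplecticGroup (Fin m) F) :=
  ⨅ i : Fin m ⊕ Fin m, stabilizing (spToMat m F) ((Submodule.span F {(Pi.single i (1 : F) : Fin m ⊕ Fin m → F)} : Submodule F (Fin m ⊕ Fin m → F)) : Set (Fin m ⊕ Fin m → F))

theorem mem_T (A : symplecticGroup (Fin m) F) :
    A ∈ T F m ↔ ∀ x, ∃ c : F, (A : Matrix (Fin m ⊕ Fin m) (Fin m ⊕ Fin m) F) *ᵥ bv F x = c • bv F x := by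
  rw [Subgroup.mem_iInf]
  apply forall_congr'
  intro x
  rw [mem_stab_iff]
  constructor
  · intro h
    have := h (bv F x) (Submodule.mem_span_singleton_self _)
    obtain ⟨c, hc⟩ := Submodule.mem_span_singleton.mp this
    exact ⟨c, hc.symm⟩
  · rintro ⟨c, hc⟩ v hv
    obtain ⟨a, rfl⟩ := Submodule.mem_span_singleton.mp hv
    rw [Matrix.mulVec_smul]
    apply Submodule.smul_mem
    rw [Submodule.mem_span_singleton]
    exact ⟨c, hc.symm⟩

theorem coe_mul_mulVec (A B : symplecticGroup (Fin m) F) (v : Fin m ⊕ Fin m → F) :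
    ((A * B : symplecticGroup (Fin m) F) : Matrix (Fin m ⊕ Fin m) (Fin m ⊕ Fin m) F) *ᵥ v =
      (A : Matrix (Fin m ⊕ Fin m) (Fin m ⊕ Fin m) F) *ᵥ ((B : Matrix (Fin m ⊕ Fin m) (Fin m ⊕ Fin m) F) *ᵥ v) :=
  (Matrix.mulVec_mulVec _ _ _).symm

theorem inv_mulVec (A : symplecticGroup (Fin m) F) (v : Fin m ⊕ Fin m → F) :
    ((A⁻¹ : symplecticGroup (Fin m) F) : Matrix (Fin m ⊕ Fin m) (Fin m ⊕ Fin m) F) *ᵥ
      ((A : Matrix (Fin m ⊕ Fin m) (Fin m ⊕ Fin m) F) *ᵥ v) = v := by
  rw [← coe_mul_mulVec, inv_mul_cancel]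
  exact Matrix.one_mulVec v

/-- monomial elements normalise the torus -/
theorem mem_normalizer_of_mono (g : symplecticGroup (Fin m) F) (π : Fin m ⊕ Fin m → Fin m ⊕ Fin m) (hπ : Function.Bijective π)
    (c : Fin m ⊕ Fin m → F) (hc : ∀ x, c x ≠ 0)
    (h : ∀ x, (g : Matrix (Fin m ⊕ Fin m) (Fin m ⊕ Fin m) F) *ᵥ bv F x = c x • bv F (π x)) :
    ∀ t, t ∈ T F m ↔ g * t * g⁻¹ ∈ T F m := by
  have hinv : ∀ x, ((g⁻¹ : symplecticGroup (Fin m) F) : Matrix (Fin m ⊕ Fin m) (Fin m ⊕ Fin m) F) *ᵥ bv F (π x) = (c x)⁻¹ • bv F x := by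
    intro x
    have h1 := inv_mulVec g (bv F x)
    rw [h x, Matrix.mulVec_smul] at h1
    rw [← h1, smul_smul, inv_mul_cancel₀ (hc x), one_smul]
  intro t
  rw [mem_T, mem_T]
  constructor
  · intro ht y
    obtain ⟨x, rfl⟩ := hπ.2 y
    obtain ⟨d, hd⟩ := ht x
    refine ⟨d, ?_⟩
    rw [coe_mul_mulVec, coe_mul_mulVec, hinv, Matrix.mulVec_smul, hd, Matrix.mulVec_smul, Matrix.mulVec_smul, h,
      smul_smul, smul_smul]
    congr 1
    have := hc x
    field_simp
  · intro ht x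
    obtain ⟨d, hd⟩ := ht (π x)
    refine ⟨d, ?_⟩
    rw [coe_mul_mulVec, coe_mul_mulVec, hinv, Matrix.mulVec_smul, Matrix.mulVec_smul] at hd
    have h1 := congrArg (fun v => ((g⁻¹ : symplecticGroup (Fin m) F) : Matrix (Fin m ⊕ Fin m) (Fin m ⊕ Fin m) F) *ᵥ v) hd
    simp only [Matrix.mulVec_smul] at h1
    rw [inv_mulVec, hinv, smul_smul] at h1
    have h2 := congrArg (fun v => c x • v) h1
    simp only [smul_smul] at h2
    rw [mul_inv_cancel₀ (hc x), one_smul] at h2
    rw [h2]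
    congr 1
    have := hc x
    field_simp

theorem exists_a [Fintype F] (hq : 4 ≤ Fintype.card F) : ∃ a : Fˣ, (a : F) ≠ (a⁻¹ : Fˣ) ∧ (a : F) ≠ 1 := by
  classical
  obtain ⟨a, -, ha⟩ : ∃ a ∈ (Finset.univ : Finset F), a ∉ ({0, 1, -1} : Finset F) := by
    apply Finset.exists_mem_notMem_of_card_lt_card
    refine lt_of_le_of_lt Finset.card_le_three ?_
    rw [Finset.card_univ]
    omega
  simp only [Finset.mem_insert, Finset.mem_singleton, not_or] at ha
  refine ⟨Units.mk0 a ha.1, ?_, ha.2.1⟩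
  intro h
  rw [Units.val_mk0, Units.val_inv_eq_inv_val, Units.val_mk0] at h
  have h1 : a * a = 1 := by
    nth_rewrite 2 [h]
    exact mul_inv_cancel₀ ha.1
  rcases mul_self_eq_one_iff.mp h1 with h2 | h2
  · exact ha.2.1 h2
  · exact ha.2.2 h2

theorem diag_apply (t : Fin m → Fˣ) (v : Fin m ⊕ Fin m → F) (y : Fin m ⊕ Fin m) :
    (mono 1 (fun _ => false) t *ᵥ v) y = cf (fun _ => false) t y * v y := by
  have hsg : ∀ x : Fin m ⊕ Fin m, sg 1 (fun _ => false) x = x := by
    intro x; rcases x with i | i <;> simp [sg]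
  change (mono 1 (fun _ => false) t) y ⬝ᵥ v = _
  rw [dotProduct, Finset.sum_eq_single y]
  · simp [mono, hsg]
  · intro b _ hb
    simp [mono, hsg, Ne.symm hb]
  · intro h; exact absurd (Finset.mem_univ _) h

theorem exists_t [Fintype F] (hq : 4 ≤ Fintype.card F) {y z : Fin m ⊕ Fin m} (h : y ≠ z) :
    ∃ t : Fin m → Fˣ, cf (fun _ => false) t y ≠ cf (fun _ => false) t z := by
  classical
  obtain ⟨a, ha1, ha2⟩ := exists_a hq
  refine ⟨Function.update 1 (idx y) a, ?_⟩
  by_cases hi : idx z = idx y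
  · rcases eq_or_swap_of_idx hi with h1 | h1
    · exact absurd h1.symm h
    · subst h1
      rcases y with i | i
      · simpa [cf, idx] using ha1
      · simpa [cf, idx] using ha1.symm
  · have hz : cf (fun _ => false) (Function.update 1 (idx y) a) z = 1 := by
      rcases z with j | j
      · have : j ≠ idx y := hi
        simp [cf, Function.update_of_ne this]
      · have : j ≠ idx y := hi
        simp [cf, Function.update_of_ne this]
    rw [hz]
    rcases y with i | i
    · simpa [cf, idx] using ha2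
    · simp only [cf, idx, Sum.elim_inr, id_eq, Function.update_self]
      intro h3
      apply ha2
      have : (a⁻¹ : Fˣ) = 1 := by
        apply Units.ext
        simpa using h3
      rw [inv_eq_one] at this
      rw [this]; rfl

theorem diag_mem_T (t : Fin m → Fˣ) : (⟨mono 1 (fun _ => false) t, mono_mem _ _ _⟩ : symplecticGroup (Fin m) F) ∈ T F m := by
  rw [mem_T]
  intro x
  refine ⟨cf (fun _ => false) t x, ?_⟩
  have hsg : ∀ x : Fin m ⊕ Fin m, sg 1 (fun _ => false) x = x := by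
    intro x; rcases x with i | i <;> simp [sg]
  change mono 1 (fun _ => false) t *ᵥ bv F x = _
  rw [mono_bv, hsg]

theorem mono_of_normalizer [Fintype F] (hq : 4 ≤ Fintype.card F) (g : symplecticGroup (Fin m) F)
    (hg : ∀ t, t ∈ T F m ↔ g * t * g⁻¹ ∈ T F m) :
    ∃ (σ : Equiv.Perm (Fin m)) (ε : Fin m → Bool) (t : Fin m → Fˣ), mono σ ε t = (g : Matrix (Fin m ⊕ Fin m) (Fin m ⊕ Fin m) F) := by
  classical
  have h1 : ∀ x, ∃ (y : Fin m ⊕ Fin m) (c : F), c ≠ 0 ∧ (g : Matrix (Fin m ⊕ Fin m) (Fin m ⊕ Fin m) F) *ᵥ bv F x = c • bv F y := by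
    intro x
    set w := (g : Matrix (Fin m ⊕ Fin m) (Fin m ⊕ Fin m) F) *ᵥ bv F x with hw
    have hw0 : w ≠ 0 := by
      intro h0
      have h2 := inv_mulVec g (bv F x)
      rw [← hw, h0, Matrix.mulVec_zero] at h2
      have := congrFun h2 x
      simp at this
    obtain ⟨y, hy⟩ : ∃ y, w y ≠ 0 := by
      by_contra h
      push Not at h
      exact hw0 (funext h)
    refine ⟨y, w y, hy, ?_⟩
    funext z
    by_cases hz : z = y
    · subst hz; simp
    · rw [Pi.smul_apply, bv_ne hz, smul_zero]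
      by_contra hwz
      obtain ⟨t, ht⟩ := exists_t hq (Ne.symm hz)
      obtain ⟨τ, hτ⟩ : ∃ τ : symplecticGroup (Fin m) F, τ = ⟨mono 1 (fun _ => false) t, mono_mem _ _ _⟩ := ⟨_, rfl⟩
      have hτT : τ ∈ T F m := by rw [hτ]; exact diag_mem_T t
      have h2 : g⁻¹ * τ * g ∈ T F m := by
        rw [hg]
        have : g * (g⁻¹ * τ * g) * g⁻¹ = τ := by group
        rw [this]
        exact hτT
      obtain ⟨c, hc⟩ := (mem_T _).mp h2 x
      rw [coe_mul_mulVec, coe_mul_mulVec, ← hw] at hc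
      have h3 := congrArg (fun v => (g : Matrix (Fin m ⊕ Fin m) (Fin m ⊕ Fin m) F) *ᵥ v) hc
      simp only [Matrix.mulVec_smul] at h3
      have h4 : (g : Matrix (Fin m ⊕ Fin m) (Fin m ⊕ Fin m) F) *ᵥ (((g⁻¹ : symplecticGroup (Fin m) F) : Matrix (Fin m ⊕ Fin m) (Fin m ⊕ Fin m) F) *ᵥ
          ((τ : Matrix (Fin m ⊕ Fin m) (Fin m ⊕ Fin m) F) *ᵥ w)) = (τ : Matrix (Fin m ⊕ Fin m) (Fin m ⊕ Fin m) F) *ᵥ w := by
        rw [← coe_mul_mulVec, mul_inv_cancel]
        exact Matrix.one_mulVec _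
      rw [h4, ← hw] at h3
      have h5 := congrFun h3 y
      have h6 := congrFun h3 z
      have h7 : ∀ u, ((τ : Matrix (Fin m ⊕ Fin m) (Fin m ⊕ Fin m) F) *ᵥ w) u = cf (fun _ => false) t u * w u := by
        intro u
        rw [hτ]
        exact diag_apply t w u
      rw [h7, Pi.smul_apply, smul_eq_mul] at h5 h6
      exact ht ((mul_right_cancel₀ hy h5).trans (mul_right_cancel₀ hwz h6).symm)
  choose π c hc hπ using h1
  have hform : ∀ x y, c x * c y * sympForm m F (bv F (π x)) (bv F (π y)) = sympForm m F (bv F x) (bv F y) := by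
    intro x y
    have := (mem_symplecticGroup_iff _).mp g.2 (bv F x) (bv F y)
    rw [hπ, hπ, sympForm_smul_left, sympForm_smul_right] at this
    rw [← this]; ring
  have hswap : ∀ x, π x.swap = (π x).swap := by
    intro x
    by_contra h
    have h2 := hform x x.swap
    rw [form_bv_ne _ _ h, mul_zero] at h2
    exact form_bv_swap_ne x h2.symm
  have hinj : Function.Injective π := by
    intro x y hxy
    by_contra hne
    have h2 : (g : Matrix (Fin m ⊕ Fin m) (Fin m ⊕ Fin m) F) *ᵥ (c y • bv F x) = (g : Matrix (Fin m ⊕ Fin m) (Fin m ⊕ Fin m) F) *ᵥ (c x • bv F y) := by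
      rw [Matrix.mulVec_smul, Matrix.mulVec_smul, hπ, hπ, smul_smul, smul_smul, hxy, mul_comm]
    have h3 := congrFun (toMat_inj (spToMat m F) g h2) x
    rw [Pi.smul_apply, Pi.smul_apply, bv_same, bv_ne hne, smul_zero, smul_eq_mul, mul_one] at h3
    exact hc y h3
  have hσinj : Function.Injective (fun i : Fin m => idx (π (Sum.inl i))) := by
    intro i j hij
    rcases eq_or_swap_of_idx hij with h2 | h2
    · exact Sum.inl_injective (hinj h2)
    · rw [← hswap] at h2
      exact absurd (hinj h2) (by simp)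
  let σ : Equiv.Perm (Fin m) := Equiv.ofBijective _ (Finite.injective_iff_bijective.mp hσinj)
  have hσ : ∀ i, σ i = idx (π (Sum.inl i)) := fun i => rfl
  let ε : Fin m → Bool := fun i => (π (Sum.inl i)).isRight
  have hε : ∀ i, ε i = (π (Sum.inl i)).isRight := fun i => rfl
  let t : Fin m → Fˣ := fun i => Units.mk0 (c (Sum.inl i)) (hc _)
  have hsgl : ∀ i, sg σ ε (Sum.inl i) = π (Sum.inl i) := by
    intro i
    simp only [sg]
    rw [hε, hσ]
    rcases h2 : π (Sum.inl i) with j | j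
    · simp [idx]
    · simp [idx]
  have hsg : ∀ x, sg σ ε x = π x := by
    intro x
    rcases x with i | i
    · exact hsgl i
    · have h2 : (Sum.inr i : Fin m ⊕ Fin m) = (Sum.inl i : Fin m ⊕ Fin m).swap := rfl
      rw [h2, sg_swap, hswap, hsgl]
  refine ⟨σ, ε, t, ?_⟩
  apply mat_ext_bv
  intro x
  rw [mono_bv, hsg, hπ]
  congr 1
  rcases x with i | i
  · rfl
  · have h2 := hform (Sum.inl i) (Sum.inr i)
    have h3 : π (Sum.inr i) = (π (Sum.inl i)).swap := hswap (Sum.inl i)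
    rw [h3, form_bv_swap_inl] at h2
    simp only [cf]
    rw [hε]
    have hci : c (Sum.inl i) ≠ 0 := hc _
    obtain ⟨j, h4⟩ | ⟨j, h4⟩ : (∃ j, π (Sum.inl i) = Sum.inl j) ∨ (∃ j, π (Sum.inl i) = Sum.inr j) := by
      rcases π (Sum.inl i) with j | j
      · exact Or.inl ⟨j, rfl⟩
      · exact Or.inr ⟨j, rfl⟩
    · rw [h4, Sum.swap_inl, form_bv_swap_inl] at h2
      rw [if_neg (by rw [h4]; simp)]
      change ((c (Sum.inl i))⁻¹ : F) = _
      field_simp
      linear_combination h2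
    · rw [h4, Sum.swap_inr, form_bv_swap_inr] at h2
      rw [if_pos (by rw [h4]; rfl)]
      change (-(c (Sum.inl i))⁻¹ : F) = _
      field_simp
      linear_combination -h2

theorem mono_injective : Function.Injective (fun p : Equiv.Perm (Fin m) × (Fin m → Bool) × (Fin m → Fˣ) =>
    (mono p.1 p.2.1 p.2.2 : Matrix (Fin m ⊕ Fin m) (Fin m ⊕ Fin m) F)) := by
  rintro ⟨σ, ε, t⟩ ⟨σ', ε', t'⟩ h
  simp only at h
  have h1 : ∀ i, sg σ ε (Sum.inl i) = sg σ' ε' (Sum.inl i) ∧ t i = t' i := by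
    intro i
    have h2 := congrArg (fun M => M *ᵥ bv F (Sum.inl i)) h
    beta_reduce at h2
    rw [mono_bv, mono_bv] at h2
    have h3 : sg σ ε (Sum.inl i) = sg σ' ε' (Sum.inl i) := by
      by_contra hne
      have h4 := congrFun h2 (sg σ ε (Sum.inl i))
      rw [Pi.smul_apply, Pi.smul_apply, bv_same, bv_ne hne, smul_zero, smul_eq_mul, mul_one] at h4
      exact cf_ne ε t _ h4
    refine ⟨h3, ?_⟩
    rw [h3] at h2
    have h4 := congrFun h2 (sg σ' ε' (Sum.inl i))
    rw [Pi.smul_apply, Pi.smul_apply, bv_same, smul_eq_mul, smul_eq_mul, mul_one, mul_one] at h4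
    exact Units.ext h4
  have h2 : ε = ε' := by
    funext i
    have h3 := (h1 i).1
    simp only [sg] at h3
    cases h4 : ε i <;> cases h5 : ε' i <;> simp_all
  have h3 : σ = σ' := by
    ext i
    have h3 := (h1 i).1
    have h4 := congrArg idx h3
    rw [idx_sg, idx_sg] at h4
    exact congrArg Fin.val h4
  have h4 : t = t' := funext fun i => (h1 i).2
  rw [h2, h3, h4]

theorem card_normalizer [Fintype F] {q : ℕ} (hF : Fintype.card F = q) (hq : 4 ≤ q) :
    Nat.card {g : symplecticGroup (Fin m) F // ∀ t, t ∈ T F m ↔ g * t * g⁻¹ ∈ T F m} = 2 ^ m * Nat.factorial m * (q - 1) ^ m := by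
  classical
  have h1 : Function.Bijective (fun p : Equiv.Perm (Fin m) × (Fin m → Bool) × (Fin m → Fˣ) =>
      (⟨⟨mono p.1 p.2.1 p.2.2, mono_mem _ _ _⟩, mem_normalizer_of_mono _ _ (sg_bijective p.1 p.2.1) _ (cf_ne p.2.1 p.2.2)
        (mono_bv p.1 p.2.1 p.2.2)⟩ : {g : symplecticGroup (Fin m) F // ∀ t, t ∈ T F m ↔ g * t * g⁻¹ ∈ T F m})) := by
    constructor
    · intro p p' h
      exact mono_injective (congrArg (fun g => (g.1 : Matrix (Fin m ⊕ Fin m) (Fin m ⊕ Fin m) F)) h)
    · rintro ⟨g, hg⟩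
      obtain ⟨σ, ε, t, h⟩ := mono_of_normalizer (by rw [hF]; exact hq) g hg
      exact ⟨(σ, ε, t), Subtype.ext (Subtype.ext h)⟩
  rw [← Nat.card_congr (Equiv.ofBijective _ h1), Nat.card_prod, Nat.card_prod]
  simp only [Nat.card_eq_fintype_card, Fintype.card_perm, Fintype.card_fun, Fintype.card_fin, Fintype.card_bool, Fintype.card_units, hF]
  ring

end H16.SpTorus
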